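import Mathlib
import Cfsg.Prelude.Def_Sporadic_a
import Cfsg.Agent.Lib.Helper28.M24Trans
import Cfsg.Agent.Lib.Helper28.M24Six
import Cfsg.Agent.Lib.Helper28.M24Enum
import Cfsg.Agent.Lib.Helper28.M24Class

set_option autoImplicit false

namespace Cfsg.Agent.Lib.Helper28.M24Gen

open Cfsg Cfsg.Agent.Lib.Helper3.Golay Cfsg.Agent.Lib.Helper3.Golay2
  Cfsg.Agent.Lib.Helper3.GolayM24 Cfsg.Agent.Lib.Helper28.M24Trans
  Cfsg.Agent.Lib.Helper28.M24Six Cfsg.Agent.Lib.Helper28.M24Enum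
  Cfsg.Agent.Lib.Helper28.M24Class
open scoped Pointwise

def co2 (i₁ i₂ : ℕ) : ℕ := dig (invT (U1.getD i₁ 0)) i₂

def co3 (i₁ i₂ i₃ : ℕ) : ℕ :=
  dig (invT (U2.getD (co2 i₁ i₂) 0)) (dig (invT (U1.getD i₁ 0)) i₃)

def co4 (i₁ i₂ i₃ i₄ : ℕ) : ℕ :=
  dig (invT (U3.getD (co3 i₁ i₂ i₃) 0)) (dig (invT (U2.getD (co2 i₁ i₂) 0))
    (dig (invT (U1.getD i₁ 0)) i₄))

def co5 (i₁ i₂ i₃ i₄ i₅ : ℕ) : ℕ :=
  dig (invT (U4.getD (co4 i₁ i₂ i₃ i₄) 0)) (dig (invT (U3.getD (co3 i₁ i₂ i₃) 0))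
    (dig (invT (U2.getD (co2 i₁ i₂) 0)) (dig (invT (U1.getD i₁ 0)) i₅)))

def candG (i₁ i₂ i₃ i₄ i₅ a b : ℕ) (i : ℕ) : ℕ :=
  dig (U1.getD i₁ 0) (dig (U2.getD (co2 i₁ i₂) 0) (dig (U3.getD (co3 i₁ i₂ i₃) 0)
    (dig (U4.getD (co4 i₁ i₂ i₃ i₄) 0) (dig (U5.getD (co5 i₁ i₂ i₃ i₄ i₅) 0)
      (dig (U6.getD a 0) (dig (U7.getD b 0) i))))))

theorem step {l U K : List ℕ} {b : ℕ} {g : Equiv.Perm GolayPt} (hg : g ∈ fixG l) {c : ℕ}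
    (hc : idx (g (pt b)) = c) (hchk : lvlB U K l b c = true) :
    (P (U.getD c 0))⁻¹ * g ∈ fixG (b :: l) ∧ vldB (U.getD c 0) = true := by
  obtain ⟨m1, m2, m3⟩ := lvl_sound hchk
  refine ⟨⟨M24.mul_mem (M24.inv_mem m1) hg.1, ?_⟩, lvl_vld hchk⟩
  intro f hf
  rw [Equiv.Perm.mul_apply, Equiv.Perm.inv_eq_iff_eq]
  rcases List.mem_cons.mp hf with rfl | hf
  · rw [m3, ← hc, pt_idx]
  · rw [hg.2 f hf, m2 f hf]

theorem enumG {g : Equiv.Perm GolayPt} (hg : g ∈ M24) :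
    ∃ a ∈ [5, 14, 17], ∃ b ∈ B7, IsIdxFn g (candG (idx (g (pt 23))) (idx (g (pt 0)))
      (idx (g (pt 1))) (idx (g (pt 2))) (idx (g (pt 3))) a b) := by
  have hg0 : g ∈ fixG [] := ⟨hg, fun f hf => absurd hf (List.not_mem_nil)⟩
  have s1 := step hg0 rfl (L1chk _ (idx_lt (g (pt 23))))
  obtain ⟨g₁, hg₁⟩ : ∃ g₁, g₁ = (P (U1.getD (idx (g (pt 23))) 0))⁻¹ * g := ⟨_, rfl⟩
  rw [← hg₁] at s1
  have i1 : ∀ p, idx (g₁ p) = dig (invT (U1.getD (idx (g (pt 23))) 0)) (idx (g p)) := by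
    intro p
    rw [hg₁, Equiv.Perm.mul_apply, isIdx_Pinv s1.2]
  have hc2 : idx (g₁ (pt 0)) = co2 (idx (g (pt 23))) (idx (g (pt 0))) := i1 _
  have n2 : co2 (idx (g (pt 23))) (idx (g (pt 0))) < 23 := by
    rw [← hc2]
    have h0 := ne_of_fixG s1.1 (b := 0) (by norm_num) (by decide) 23 (by simp)
    have h2 := idx_lt (g₁ (pt 0))
    omega
  have s2 := step s1.1 hc2 (L2chk _ n2)
  obtain ⟨g₂, hg₂⟩ : ∃ g₂, g₂ = (P (U2.getD (co2 (idx (g (pt 23))) (idx (g (pt 0)))) 0))⁻¹ * g₁ :=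
    ⟨_, rfl⟩
  rw [← hg₂] at s2
  have i2 : ∀ p, idx (g₂ p) = dig (invT (U2.getD (co2 (idx (g (pt 23))) (idx (g (pt 0)))) 0))
      (idx (g₁ p)) := by
    intro p
    rw [hg₂, Equiv.Perm.mul_apply, isIdx_Pinv s2.2]
  have hc3 : idx (g₂ (pt 1)) = co3 (idx (g (pt 23))) (idx (g (pt 0))) (idx (g (pt 1))) := by
    rw [i2, i1]
    rfl
  have n3 : co3 (idx (g (pt 23))) (idx (g (pt 0))) (idx (g (pt 1))) < 23 ∧
      1 ≤ co3 (idx (g (pt 23))) (idx (g (pt 0))) (idx (g (pt 1))) := by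
    rw [← hc3]
    have h0 := ne_of_fixG s2.1 (b := 1) (by norm_num) (by decide)
    have h1 := h0 23 (by simp)
    have h3 := h0 0 (by simp)
    have h2 := idx_lt (g₂ (pt 1))
    omega
  have s3 := step s2.1 hc3 (L3chk _ n3.1 n3.2)
  obtain ⟨g₃, hg₃⟩ : ∃ g₃, g₃ = (P (U3.getD (co3 (idx (g (pt 23))) (idx (g (pt 0)))
      (idx (g (pt 1)))) 0))⁻¹ * g₂ := ⟨_, rfl⟩
  rw [← hg₃] at s3
  have i3 : ∀ p, idx (g₃ p) = dig (invT (U3.getD (co3 (idx (g (pt 23))) (idx (g (pt 0)))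
      (idx (g (pt 1)))) 0)) (idx (g₂ p)) := by
    intro p
    rw [hg₃, Equiv.Perm.mul_apply, isIdx_Pinv s3.2]
  have hc4 : idx (g₃ (pt 2)) = co4 (idx (g (pt 23))) (idx (g (pt 0))) (idx (g (pt 1)))
      (idx (g (pt 2))) := by
    rw [i3, i2, i1]
    rfl
  have n4 : co4 (idx (g (pt 23))) (idx (g (pt 0))) (idx (g (pt 1))) (idx (g (pt 2))) < 23 ∧
      2 ≤ co4 (idx (g (pt 23))) (idx (g (pt 0))) (idx (g (pt 1))) (idx (g (pt 2))) := by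
    rw [← hc4]
    have h0 := ne_of_fixG s3.1 (b := 2) (by norm_num) (by decide)
    have h1 := h0 23 (by simp)
    have h3 := h0 0 (by simp)
    have h4 := h0 1 (by simp)
    have h2 := idx_lt (g₃ (pt 2))
    omega
  have s4 := step s3.1 hc4 (L4chk _ n4.1 n4.2)
  obtain ⟨g₄, hg₄⟩ : ∃ g₄, g₄ = (P (U4.getD (co4 (idx (g (pt 23))) (idx (g (pt 0)))
      (idx (g (pt 1))) (idx (g (pt 2)))) 0))⁻¹ * g₃ := ⟨_, rfl⟩
  rw [← hg₄] at s4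
  have i4 : ∀ p, idx (g₄ p) = dig (invT (U4.getD (co4 (idx (g (pt 23))) (idx (g (pt 0)))
      (idx (g (pt 1))) (idx (g (pt 2)))) 0)) (idx (g₃ p)) := by
    intro p
    rw [hg₄, Equiv.Perm.mul_apply, isIdx_Pinv s4.2]
  have hc5 : idx (g₄ (pt 3)) = co5 (idx (g (pt 23))) (idx (g (pt 0))) (idx (g (pt 1)))
      (idx (g (pt 2))) (idx (g (pt 3))) := by
    rw [i4, i3, i2, i1]
    rfl
  have n5 : co5 (idx (g (pt 23))) (idx (g (pt 0))) (idx (g (pt 1))) (idx (g (pt 2)))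
      (idx (g (pt 3))) < 23 ∧ 3 ≤ co5 (idx (g (pt 23))) (idx (g (pt 0))) (idx (g (pt 1)))
      (idx (g (pt 2))) (idx (g (pt 3))) := by
    rw [← hc5]
    have h0 := ne_of_fixG s4.1 (b := 3) (by norm_num) (by decide)
    have h1 := h0 23 (by simp)
    have h3 := h0 0 (by simp)
    have h4 := h0 1 (by simp)
    have h5 := h0 2 (by simp)
    have h2 := idx_lt (g₄ (pt 3))
    omega
  have s5 := step s4.1 hc5 (L5chk _ n5.1 n5.2)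
  obtain ⟨g₅, hg₅⟩ : ∃ g₅, g₅ = (P (U5.getD (co5 (idx (g (pt 23))) (idx (g (pt 0)))
      (idx (g (pt 1))) (idx (g (pt 2))) (idx (g (pt 3)))) 0))⁻¹ * g₄ := ⟨_, rfl⟩
  rw [← hg₅] at s5
  obtain ⟨a, ha, b, hb1, hb2, v6, v7, e⟩ := coset48 s5.1.1 M24.one_mem (fun f hf => s5.1.2 f hf)
  refine ⟨a, ha, b, mem_B7 b hb1 hb2, ?_⟩
  have hg5 : IsIdxFn g₅ (fun i => dig (U6.getD a 0) (dig (U7.getD b 0) i)) := by
    rw [e]
    have h := isIdx_mul (isIdx_mul isIdx_one (isIdx_P v6)) (isIdx_P v7)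
    exact h
  have h := isIdx_mul (isIdx_P s1.2) (isIdx_mul (isIdx_P s2.2) (isIdx_mul (isIdx_P s3.2)
    (isIdx_mul (isIdx_P s4.2) (isIdx_mul (isIdx_P s5.2) hg5))))
  have e2 : P (U1.getD (idx (g (pt 23))) 0) * (P (U2.getD (co2 (idx (g (pt 23)))
      (idx (g (pt 0)))) 0) * (P (U3.getD (co3 (idx (g (pt 23))) (idx (g (pt 0)))
      (idx (g (pt 1)))) 0) * (P (U4.getD (co4 (idx (g (pt 23))) (idx (g (pt 0)))
      (idx (g (pt 1))) (idx (g (pt 2)))) 0) * (P (U5.getD (co5 (idx (g (pt 23)))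
      (idx (g (pt 0))) (idx (g (pt 1))) (idx (g (pt 2))) (idx (g (pt 3)))) 0) * g₅)))) = g := by
    rw [hg₅, hg₄, hg₃, hg₂, hg₁]
    group
  rw [e2] at h
  exact h

theorem enumG' {g : Equiv.Perm GolayPt} (hg : g ∈ M24) {i₁ i₂ i₃ i₄ i₅ : ℕ}
    (h1 : idx (g (pt 23)) = i₁) (h2 : idx (g (pt 0)) = i₂) (h3 : idx (g (pt 1)) = i₃)
    (h4 : idx (g (pt 2)) = i₄) (h5 : idx (g (pt 3)) = i₅) :
    ∃ a ∈ [5, 14, 17], ∃ b ∈ B7, IsIdxFn g (candG i₁ i₂ i₃ i₄ i₅ a b) := by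
  subst h1 h2 h3 h4 h5
  exact enumG hg

def commB (F G : ℕ → ℕ) : Bool := allI fun i => Nat.beq (F (G i)) (G (F i))

theorem commB_of {g h : Equiv.Perm GolayPt} {F G : ℕ → ℕ} (hF : IsIdxFn g F) (hG : IsIdxFn h G)
    (e : g * h = h * g) : commB F G = true := by
  unfold commB
  rw [allI_iff]
  intro i hi
  have e' : F (G i) = G (F i) := isIdx_congr (isIdx_mul hF hG) (isIdx_mul hG hF) e i hi
  rw [e']
  exact Nat.beq_refl _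

end Cfsg.Agent.Lib.Helper28.M24Gen
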