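import Mathlib
import Cfsg.Prelude.Def_Sporadic_a
import Cfsg.Agent.Lib.Helper28.M24Trans
import Cfsg.Agent.Lib.Helper28.M24Six
import Cfsg.Agent.Lib.Helper28.M24Enum

set_option autoImplicit false

namespace Cfsg.Agent.Lib.Helper28.M24Mask

open Cfsg Cfsg.Agent.Lib.Helper3.Golay Cfsg.Agent.Lib.Helper3.Golay2
  Cfsg.Agent.Lib.Helper3.GolayM24 Cfsg.Agent.Lib.Helper28.M24Trans
  Cfsg.Agent.Lib.Helper28.M24Six Cfsg.Agent.Lib.Helper28.M24Enum
open scoped Pointwise

def msk (o : Finset GolayPt) : ℕ :=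
  (List.range 24).foldl (fun acc i => if decide (pt i ∈ o) = true then acc ||| 2 ^ i else acc) 0

theorem testBit_msk (o : Finset GolayPt) (j : ℕ) :
    (msk o).testBit j = decide (j < 24 ∧ pt j ∈ o) := by
  unfold msk
  rw [foldl_mask_testBit (fun i => decide (pt i ∈ o))]
  simp

theorem msk_lt (o : Finset GolayPt) : msk o < 2 ^ 24 := by
  apply Nat.lt_pow_two_of_testBit
  intro i hi
  rw [testBit_msk]
  simp only [decide_eq_false_iff_not, not_and]
  intro h
  omega

theorem supp_msk (o : Finset GolayPt) : support₂ (dec (msk o)) = o := by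
  ext p
  unfold support₂
  rw [Finset.mem_filter]
  simp only [Finset.mem_univ, true_and]
  rw [dec_ne_zero_iff, testBit_msk, pt_idx]
  simp [idx_lt p]

theorem msk_supp {m : ℕ} (hm : m < 2 ^ 24) : msk (support₂ (dec m)) = m :=
  dec_inj (msk_lt _) hm (support_injective (supp_msk _))

theorem msk_inj {a b : Finset GolayPt} (h : msk a = msk b) : a = b := by
  rw [← supp_msk a, ← supp_msk b, h]

theorem card_msk (o : Finset GolayPt) : pc (msk o) = o.card := by
  rw [← card_support_dec, supp_msk]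

theorem msk_supp_k (k : ℕ) : msk (supp k) = cw k := msk_supp (cw_lt k)

theorem msk_inter (a b : Finset GolayPt) : msk (a ∩ b) = msk a &&& msk b := by
  apply Nat.eq_of_testBit_eq
  intro i
  rw [Nat.testBit_and, testBit_msk, testBit_msk, testBit_msk]
  by_cases hi : i < 24 <;> simp [hi, Finset.mem_inter]

theorem msk_union (a b : Finset GolayPt) : msk (a ∪ b) = msk a ||| msk b := by
  apply Nat.eq_of_testBit_eq
  intro i
  rw [Nat.testBit_or, testBit_msk, testBit_msk, testBit_msk]
  by_cases hi : i < 24 <;> simp [hi, Finset.mem_union]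

theorem msk_symmDiff (a b : Finset GolayPt) : msk (symmDiff a b) = msk a ^^^ msk b := by
  apply Nat.eq_of_testBit_eq
  intro i
  rw [Nat.testBit_xor, testBit_msk, testBit_msk, testBit_msk]
  by_cases hi : i < 24
  · by_cases ha : pt i ∈ a <;> by_cases hb : pt i ∈ b <;> simp [hi, Finset.mem_symmDiff, ha, hb]
  · simp [hi]

theorem msk_empty : msk (∅ : Finset GolayPt) = 0 := by
  apply Nat.eq_of_testBit_eq
  intro i
  rw [testBit_msk]
  simp

theorem msk_univ : msk (Finset.univ : Finset GolayPt) = 16777215 := by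
  apply Nat.eq_of_testBit_eq
  intro i
  rw [testBit_msk, show (16777215 : ℕ) = 2 ^ 24 - 1 from rfl, Nat.testBit_two_pow_sub_one]
  simp

theorem disjoint_iff_msk (a b : Finset GolayPt) : Disjoint a b ↔ msk a &&& msk b = 0 := by
  rw [Finset.disjoint_iff_inter_eq_empty, ← msk_inter, ← msk_empty]
  exact ⟨fun h => by rw [h], fun h => msk_inj h⟩

theorem subset_iff_msk (a b : Finset GolayPt) : a ⊆ b ↔ msk a &&& msk b = msk a := by
  rw [← Finset.inter_eq_left, ← msk_inter]
  exact ⟨fun h => by rw [h], fun h => msk_inj h⟩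

theorem beq_eq_decide (a b : ℕ) : Nat.beq a b = decide (a = b) := by
  by_cases h : a = b
  · subst h
    simp [Nat.beq_refl]
  · have hb : Nat.beq a b = false := by
      cases hb : Nat.beq a b
      · rfl
      · exact absurd (Nat.eq_of_beq_eq_true hb) h
    simp [h, hb]

def imgM (F : ℕ → ℕ) (m : ℕ) : ℕ :=
  (List.range 24).foldl (fun acc i => if m.testBit i = true then acc ||| 2 ^ (F i) else acc) 0

theorem foldl_img_testBit (c : ℕ → Bool) (F : ℕ → ℕ) (l : List ℕ) (acc j : ℕ) :
    (l.foldl (fun acc i => if c i = true then acc ||| 2 ^ (F i) else acc) acc).testBit j =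
      (acc.testBit j || l.any (fun i => c i && Nat.beq (F i) j)) := by
  induction l generalizing acc with
  | nil => simp
  | cons a l ih =>
    rw [List.foldl_cons, ih, List.any_cons]
    by_cases hc : c a = true
    · rw [if_pos hc, Nat.testBit_or, Nat.testBit_two_pow, hc, beq_eq_decide]
      simp [Bool.or_assoc]
    · have hc' : c a = false := by simpa using hc
      rw [if_neg hc, hc']
      simp

theorem testBit_imgM (F : ℕ → ℕ) (m j : ℕ) :
    (imgM F m).testBit j = (List.range 24).any (fun i => m.testBit i && Nat.beq (F i) j) := by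
  unfold imgM
  rw [foldl_img_testBit (fun i => m.testBit i)]
  simp

theorem smul_imgM {g : Equiv.Perm GolayPt} {F : ℕ → ℕ} (hF : IsIdxFn g F) (m : ℕ) :
    g • support₂ (dec m) = support₂ (dec (imgM F m)) := by
  ext p
  rw [← Finset.inv_smul_mem_iff]
  unfold support₂
  rw [Finset.mem_filter, Finset.mem_filter]
  simp only [Finset.mem_univ, true_and]
  rw [dec_ne_zero_iff, dec_ne_zero_iff, testBit_imgM, List.any_eq_true]
  constructor
  · intro h
    refine ⟨idx (g⁻¹ • p), List.mem_range.mpr (idx_lt _), ?_⟩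
    rw [Bool.and_eq_true]
    refine ⟨h, ?_⟩
    rw [← hF, Equiv.Perm.smul_def, ← Equiv.Perm.mul_apply, mul_inv_cancel, Equiv.Perm.one_apply]
    exact Nat.beq_refl _
  · rintro ⟨i, hi, h⟩
    rw [List.mem_range] at hi
    rw [Bool.and_eq_true] at h
    have e : g (pt i) = p := by
      apply idx_injective
      rw [hF, idx_pt i hi]
      exact Nat.eq_of_beq_eq_true h.2
    have e2 : g⁻¹ • p = pt i := by
      rw [Equiv.Perm.smul_def, Equiv.Perm.inv_eq_iff_eq, e]
    rw [e2, idx_pt i hi]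
    exact h.1

theorem imgM_lt {g : Equiv.Perm GolayPt} {F : ℕ → ℕ} (hF : IsIdxFn g F) (m : ℕ) :
    imgM F m < 2 ^ 24 := by
  apply Nat.lt_pow_two_of_testBit
  intro j hj
  rw [testBit_imgM, Bool.eq_false_iff]
  intro h
  rw [List.any_eq_true] at h
  obtain ⟨i, hi, h⟩ := h
  rw [List.mem_range] at hi
  rw [Bool.and_eq_true] at h
  have h1 := isIdx_lt hF hi
  have h2 := Nat.eq_of_beq_eq_true h.2
  omega

theorem msk_smul {g : Equiv.Perm GolayPt} {F : ℕ → ℕ} (hF : IsIdxFn g F) (o : Finset GolayPt) :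
    msk (g • o) = imgM F (msk o) := by
  conv_lhs => rw [← supp_msk o]
  rw [smul_imgM hF, msk_supp (imgM_lt hF _)]

theorem smul_eq_iff {g : Equiv.Perm GolayPt} {F : ℕ → ℕ} (hF : IsIdxFn g F)
    (o o' : Finset GolayPt) : g • o = o' ↔ imgM F (msk o) = msk o' := by
  rw [← msk_smul hF]
  exact ⟨fun h => by rw [h], fun h => msk_inj h⟩

def RL : List ℕ := [3941, 1328, 2656, 95, 190, 3609, 1992, 245, 490, 3249, 3581, 3189]

def kOf (m : ℕ) : ℕ :=
  (List.range 12).foldl (fun acc j => acc + (pc (m &&& RL.getD j 0) % 2) * 2 ^ j) 0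

def isCode (m : ℕ) : Bool := Nat.beq (cw (kOf m)) m

theorem kOf_cw_chk : (List.range 4096).all (fun k => Nat.beq (kOf (cw k)) k) = true := by
  decide +kernel

theorem kOf_cw : ∀ k < 4096, kOf (cw k) = k := by
  intro k hk
  have h := kOf_cw_chk
  rw [List.all_eq_true] at h
  exact Nat.eq_of_beq_eq_true (h k (List.mem_range.mpr hk))

theorem isCode_iff (o : Finset GolayPt) :
    o ∈ supports (golayCode : Set (GolayPt → ZMod 2)) ↔ isCode (msk o) = true := by
  unfold isCode
  constructor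
  · intro h
    obtain ⟨k, hk, rfl⟩ := (mem_supports_iff o).mp h
    rw [msk_supp_k, kOf_cw k hk]
    exact Nat.beq_refl _
  · intro h
    have e := Nat.eq_of_beq_eq_true h
    rw [← supp_msk o, ← e]
    exact ⟨dec (cw (kOf (msk o))), dec_cw_mem _, rfl⟩

theorem mem_octads_iff (o : Finset GolayPt) :
    o ∈ octads ↔ isCode (msk o) = true ∧ pc (msk o) = 8 := by
  rw [mem_octads, isCode_iff, card_msk]

theorem mem_dodecads_iff (o : Finset GolayPt) :
    o ∈ dodecads ↔ isCode (msk o) = true ∧ pc (msk o) = 12 := by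
  rw [mem_dodecads, isCode_iff, card_msk]

theorem ncard_eq_length {α β : Type*} (A : Set α) (L : List β) (f : β → α) (hnd : L.Nodup)
    (hinj : ∀ x ∈ L, ∀ y ∈ L, f x = f y → x = y) (hA : ∀ a, a ∈ A ↔ ∃ x ∈ L, f x = a) :
    A.ncard = L.length := by
  classical
  have h1 : A = f '' (↑L.toFinset : Set β) := by
    ext a
    rw [hA]
    simp [Set.mem_image]
  rw [h1, Set.InjOn.ncard_image, Set.ncard_coe_finset, List.toFinset_card_of_nodup hnd]
  intro x hx y hy e
  simp only [List.coe_toFinset, Set.mem_ofPred_eq] at hx hy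
  exact hinj x hx y hy e

def wordsL (n : ℕ) (Q : ℕ → Bool) : List ℕ :=
  (List.range 4096).filter (fun k => Nat.beq (pc (cw k)) n && Q (cw k))

theorem ncard_words (n : ℕ) (Q : ℕ → Bool) :
    {o : Finset GolayPt | o ∈ wordsOfWeight (golayCode : Set (GolayPt → ZMod 2)) n ∧
      Q (msk o) = true}.ncard = (wordsL n Q).length := by
  apply ncard_eq_length _ _ supp
  · exact List.Nodup.filter _ List.nodup_range
  · intro x hx y hy e
    rw [wordsL, List.mem_filter, List.mem_range] at hx hy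
    exact supp_injOn x hx.1 y hy.1 e
  · intro o
    simp only [Set.mem_ofPred_eq, wordsL, List.mem_filter, List.mem_range, Bool.and_eq_true]
    constructor
    · rintro ⟨⟨hs, hc⟩, hQ⟩
      obtain ⟨k, hk, rfl⟩ := (mem_supports_iff o).mp hs
      refine ⟨k, ⟨hk, ?_, ?_⟩, rfl⟩
      · rw [card_supp] at hc
        rw [hc]
        exact Nat.beq_refl _
      · rw [msk_supp_k] at hQ
        exact hQ
    · rintro ⟨k, ⟨hk, h1, h2⟩, rfl⟩
      refine ⟨⟨(mem_supports_iff _).mpr ⟨k, hk, rfl⟩, ?_⟩, ?_⟩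
      · rw [card_supp]
        exact Nat.eq_of_beq_eq_true h1
      · rw [msk_supp_k]
        exact h2

theorem ncard_fixed_words {g : Equiv.Perm GolayPt} {F : ℕ → ℕ} (hF : IsIdxFn g F) (n : ℕ) :
    {o : Finset GolayPt | o ∈ wordsOfWeight (golayCode : Set (GolayPt → ZMod 2)) n ∧
      g • o = o}.ncard = (wordsL n (fun m => Nat.beq (imgM F m) m)).length := by
  rw [← ncard_words]
  congr 1
  ext o
  simp only [Set.mem_ofPred_eq]
  rw [smul_eq_iff hF]
  constructor
  · rintro ⟨h1, h2⟩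
    exact ⟨h1, by rw [h2]; exact Nat.beq_refl _⟩
  · rintro ⟨h1, h2⟩
    exact ⟨h1, Nat.eq_of_beq_eq_true h2⟩

theorem ncard_conj {α : Type*} [MulAction (Equiv.Perm GolayPt) α] (A : Set α)
    (c g : Equiv.Perm GolayPt) (hA : ∀ x, c • x ∈ A ↔ x ∈ A) :
    {x | x ∈ A ∧ (c * g * c⁻¹) • x = x}.ncard = {x | x ∈ A ∧ g • x = x}.ncard := by
  have h1 : {x | x ∈ A ∧ (c * g * c⁻¹) • x = x} = (fun x => c • x) '' {x | x ∈ A ∧ g • x = x} := by
    ext y
    simp only [Set.mem_ofPred_eq, Set.mem_image]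
    constructor
    · rintro ⟨hy, e⟩
      refine ⟨c⁻¹ • y, ⟨?_, ?_⟩, ?_⟩
      · rw [← hA, smul_inv_smul]
        exact hy
      · rw [mul_smul, mul_smul] at e
        have h2 := congrArg (fun z => c⁻¹ • z) e
        simp only [inv_smul_smul] at h2
        exact h2
      · rw [smul_inv_smul]
    · rintro ⟨x, ⟨hx, e⟩, rfl⟩
      refine ⟨(hA x).mpr hx, ?_⟩
      rw [mul_smul, mul_smul, inv_smul_smul, e]
  rw [h1, Set.ncard_image_of_injective _ (MulAction.injective c)]

theorem ncard_inv {α : Type*} [MulAction (Equiv.Perm GolayPt) α] (A : Set α)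
    (g : Equiv.Perm GolayPt) :
    {x | x ∈ A ∧ g⁻¹ • x = x}.ncard = {x | x ∈ A ∧ g • x = x}.ncard := by
  congr 1
  ext x
  simp only [Set.mem_ofPred_eq]
  rw [inv_smul_eq_iff]
  exact ⟨fun h => ⟨h.1, h.2.symm⟩, fun h => ⟨h.1, h.2.symm⟩⟩

end Cfsg.Agent.Lib.Helper28.M24Mask
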