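import Mathlib
import Cfsg.Prelude.Def_Sporadic_a
import Cfsg.Prelude.Def_SporadicCombinatorics
import Cfsg.Agent.Lib.Helper3.Steiner
import Cfsg.Agent.Lib.Helper28.M24Mask

set_option autoImplicit false

namespace Cfsg.Agent.Lib.Helper28.M24Sext

open Cfsg Cfsg.Agent.Lib.Helper3.Golay Cfsg.Agent.Lib.Helper3.Golay2
  Cfsg.Agent.Lib.Helper3.GolayM24 Cfsg.Agent.Lib.Helper3.Steiner
  Cfsg.Agent.Lib.Helper28.M24Trans
  Cfsg.Agent.Lib.Helper28.M24Six Cfsg.Agent.Lib.Helper28.M24Enum
  Cfsg.Agent.Lib.Helper28.M24Mask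
open scoped Pointwise

theorem sort3 (K : Finset ℕ) (h : K.card = 3) : ∃ x y z, x < y ∧ y < z ∧ K = {x, y, z} := by
  obtain ⟨a, b, c, hab, hac, hbc, rfl⟩ := Finset.card_eq_three.mp h
  rcases lt_or_gt_of_ne hab with h1 | h1 <;> rcases lt_or_gt_of_ne hac with h2 | h2 <;>
    rcases lt_or_gt_of_ne hbc with h3 | h3
  · exact ⟨a, b, c, h1, h3, rfl⟩
  · exact ⟨a, c, b, h2, h3, by ext; simp; tauto⟩
  · omega
  · exact ⟨c, a, b, h2, h1, by ext; simp; tauto⟩
  · exact ⟨b, a, c, h1, h2, by ext; simp; tauto⟩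
  · omega
  · exact ⟨b, c, a, h3, h2, by ext; simp; tauto⟩
  · exact ⟨c, b, a, h3, h1, by ext; simp; tauto⟩

noncomputable def octThrough (t : Finset GolayPt) : Finset (Finset GolayPt) :=
  (blocks octads).filter (fun o => t ⊆ o)

theorem mem_octThrough {t o : Finset GolayPt} : o ∈ octThrough t ↔ o ∈ octads ∧ t ⊆ o := by
  unfold octThrough
  rw [Finset.mem_filter, mem_blocks]

theorem card_octThrough {t : Finset GolayPt} (ht : t.card = 4) : (octThrough t).card = 5 := by
  have h := card_through octads_steiner t (by omega)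
  rw [ht, card_golayPt] at h
  have e1 : Nat.choose (8 - 4) (5 - 4) = 4 := by decide
  have e2 : Nat.choose (24 - 4) (5 - 4) = 20 := by decide
  rw [e1, e2] at h
  unfold octThrough
  omega

noncomputable def sextetOf (t : Finset GolayPt) : Finset (Finset GolayPt) :=
  insert t ((octThrough t).image (fun o => o \ t))

theorem inter_eq_of_through {t o o' : Finset GolayPt} (ht : t.card = 4) (ho : o ∈ octThrough t)
    (ho' : o' ∈ octThrough t) (hne : o ≠ o') : o ∩ o' = t := by
  rw [mem_octThrough] at ho ho'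
  symm
  apply Finset.eq_of_subset_of_card_le (Finset.subset_inter ho.2 ho'.2)
  rw [ht]
  exact octads_inter_le ho.1 ho'.1 hne

theorem sdiff_card {t o : Finset GolayPt} (ht : t.card = 4) (ho : o ∈ octThrough t) :
    (o \ t).card = 4 := by
  rw [mem_octThrough] at ho
  rw [Finset.card_sdiff_of_subset ho.2, ho.1.2, ht]

theorem sextetOf_mem {t : Finset GolayPt} (ht : t.card = 4) : sextetOf t ∈ sextets := by
  have hinj : Set.InjOn (fun o : Finset GolayPt => o \ t) (octThrough t : Set (Finset GolayPt)) := by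
    intro o ho o' ho' e
    have h1 := (mem_octThrough.mp ho).2
    have h2 := (mem_octThrough.mp ho').2
    have e' : o \ t = o' \ t := e
    rw [← Finset.sdiff_union_of_subset h1, ← Finset.sdiff_union_of_subset h2, e']
  have hnot : t ∉ (octThrough t).image (fun o => o \ t) := by
    intro h
    rw [Finset.mem_image] at h
    obtain ⟨o, ho, e⟩ := h
    have h1 : (o \ t) ∩ t = ∅ := Finset.sdiff_inter_self _ _
    rw [e, Finset.inter_self] at h1
    rw [h1] at ht
    simp at ht
  refine ⟨?_, ?_, ?_⟩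
  · unfold sextetOf
    rw [Finset.card_insert_of_notMem hnot, Finset.card_image_of_injOn hinj, card_octThrough ht]
  · intro u hu
    unfold sextetOf at hu
    rw [Finset.mem_insert, Finset.mem_image] at hu
    rcases hu with rfl | ⟨o, ho, rfl⟩
    · exact ht
    · exact sdiff_card ht ho
  · intro u hu v hv huv
    unfold sextetOf at hu hv
    rw [Finset.mem_insert, Finset.mem_image] at hu hv
    rcases hu with rfl | ⟨o, ho, rfl⟩
    · rcases hv with rfl | ⟨o', ho', rfl⟩
      · exact absurd rfl huv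
      · rw [Finset.union_sdiff_of_subset (mem_octThrough.mp ho').2]
        exact (mem_octThrough.mp ho').1
    · rcases hv with rfl | ⟨o', ho', rfl⟩
      · rw [Finset.union_comm, Finset.union_sdiff_of_subset (mem_octThrough.mp ho).2]
        exact (mem_octThrough.mp ho).1
      · have hne : o ≠ o' := fun e => huv (by rw [e])
        have hint := inter_eq_of_through ht ho ho' hne
        have e : o \ t ∪ o' \ t = symmDiff o o' := by
          rw [← hint]
          ext p
          simp only [Finset.mem_union, Finset.mem_sdiff, Finset.mem_inter, Finset.mem_symmDiff]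
          tauto
        rw [e, mem_octads]
        refine ⟨symmDiff_mem_supports (mem_octThrough.mp ho).1.1 (mem_octThrough.mp ho').1.1, ?_⟩
        have h4 := card_symmDiff_add o o'
        rw [hint, ht, (mem_octThrough.mp ho).1.2, (mem_octThrough.mp ho').1.2] at h4
        omega

theorem sextet_disj {S : Finset (Finset GolayPt)} (hS : S ∈ sextets) {t u : Finset GolayPt}
    (ht : t ∈ S) (hu : u ∈ S) (h : t ≠ u) : Disjoint t u := by
  obtain ⟨-, h4, hun⟩ := hS
  have h8 := (hun t ht u hu h).2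
  have h1 := Finset.card_union_add_card_inter t u
  rw [h8, h4 t ht, h4 u hu] at h1
  rw [Finset.disjoint_iff_inter_eq_empty, ← Finset.card_eq_zero]
  omega

theorem sextet_eq {S : Finset (Finset GolayPt)} (hS : S ∈ sextets) {t : Finset GolayPt}
    (ht : t ∈ S) : S = sextetOf t := by
  have ht4 := hS.2.1 t ht
  apply Finset.eq_of_subset_of_card_le
  · intro u hu
    unfold sextetOf
    rw [Finset.mem_insert, Finset.mem_image]
    by_cases hut : u = t
    · left
      exact hut
    · right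
      have hd := sextet_disj hS ht hu (Ne.symm hut)
      refine ⟨t ∪ u, mem_octThrough.mpr ⟨hS.2.2 t ht u hu (Ne.symm hut), Finset.subset_union_left⟩, ?_⟩
      exact Finset.union_sdiff_cancel_left hd
  · rw [(sextetOf_mem ht4).1, hS.1]

theorem sextet_cover {S : Finset (Finset GolayPt)} (hS : S ∈ sextets) (p : GolayPt) :
    ∃ t ∈ S, p ∈ t := by
  have h1 : (S.biUnion id).card = 24 := by
    rw [Finset.card_biUnion]
    · have h4 : ∀ u ∈ S, (id u).card = 4 := fun u hu => hS.2.1 u hu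
      rw [Finset.sum_congr rfl h4, Finset.sum_const, hS.1]
      rfl
    · intro t ht u hu htu
      exact sextet_disj hS ht hu htu
  have h2 : S.biUnion id = Finset.univ := by
    apply Finset.eq_univ_of_card
    rw [h1, card_golayPt]
  have h3 : p ∈ S.biUnion id := by
    rw [h2]
    exact Finset.mem_univ p
  rw [Finset.mem_biUnion] at h3
  exact h3

theorem smul_sextet {g : Equiv.Perm GolayPt} (hg : g ∈ M24) {S : Finset (Finset GolayPt)}
    (hS : S ∈ sextets) : g • S ∈ sextets := by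
  refine ⟨?_, ?_, ?_⟩
  · rw [Finset.card_smul_finset]
    exact hS.1
  · intro u hu
    obtain ⟨v, hv, rfl⟩ := Finset.mem_smul_finset.mp hu
    rw [Finset.card_smul_finset]
    exact hS.2.1 v hv
  · intro u hu u' hu' hne
    obtain ⟨v, hv, rfl⟩ := Finset.mem_smul_finset.mp hu
    obtain ⟨v', hv', rfl⟩ := Finset.mem_smul_finset.mp hu'
    have hne' : v ≠ v' := fun e => hne (by rw [e])
    rw [← Finset.smul_finset_union]
    exact smul_octad hg (hS.2.2 v hv v' hv' hne')

theorem sextet_fix_iff {g : Equiv.Perm GolayPt} (hg : g ∈ M24) {t : Finset GolayPt}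
    (ht : t.card = 4) :
    g • sextetOf t = sextetOf t ↔ g • t = t ∨ (Disjoint (g • t) t ∧ g • t ∪ t ∈ octads) := by
  have hS := sextetOf_mem ht
  have htS : t ∈ sextetOf t := Finset.mem_insert_self _ _
  have key : g • sextetOf t = sextetOf t ↔ g • t ∈ sextetOf t := by
    constructor
    · intro h
      rw [← h]
      exact Finset.smul_mem_smul_finset htS
    · intro h
      have e1 : sextetOf t = sextetOf (g • t) := sextet_eq hS h
      have e2 : g • sextetOf t = sextetOf (g • t) :=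
        sextet_eq (smul_sextet hg hS) (Finset.smul_mem_smul_finset htS)
      exact e2.trans e1.symm
  rw [key]
  unfold sextetOf
  rw [Finset.mem_insert, Finset.mem_image]
  constructor
  · rintro (h | ⟨o, ho, e⟩)
    · left
      exact h
    · right
      rw [← e]
      refine ⟨Finset.sdiff_disjoint, ?_⟩
      rw [Finset.sdiff_union_of_subset (mem_octThrough.mp ho).2]
      exact (mem_octThrough.mp ho).1
  · rintro (h | ⟨hd, ho⟩)
    · left
      exact h
    · right
      exact ⟨g • t ∪ t, mem_octThrough.mpr ⟨ho, Finset.subset_union_right⟩,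
        Finset.union_sdiff_cancel_right hd⟩

theorem nodup_flatMap_of {α β : Type*} {l : List α} {f : α → List β} (hl : l.Nodup)
    (h1 : ∀ x ∈ l, (f x).Nodup) (key : β → α) (hk : ∀ x, ∀ y ∈ f x, key y = x) :
    (l.flatMap f).Nodup := by
  rw [List.nodup_flatMap]
  refine ⟨h1, List.Pairwise.imp ?_ hl⟩
  intro a b hab
  rw [Function.onFun, List.disjoint_left]
  intro y hya hyb
  exact hab ((hk a y hya).symm.trans (hk b y hyb))

theorem msk_insert (p : GolayPt) (s : Finset GolayPt) : msk (insert p s) = 2 ^ idx p ||| msk s := by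
  apply Nat.eq_of_testBit_eq
  intro i
  rw [Nat.testBit_or, testBit_msk, testBit_msk, Nat.testBit_two_pow]
  by_cases hi : i < 24
  · by_cases hp : pt i = p
    · have e : idx p = i := by rw [← hp, idx_pt i hi]
      simp [hi, hp, e]
    · have e : ¬ idx p = i := fun e => hp (by rw [← e, pt_idx])
      simp [hi, hp, e]
  · have e : ¬ idx p = i := fun e => hi (by rw [← e]; exact idx_lt p)
    simp [hi, e]

def tetF (x : ℕ × ℕ × ℕ) : Finset GolayPt := {pt 23, pt x.1, pt x.2.1, pt x.2.2}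

def tetM (x : ℕ × ℕ × ℕ) : ℕ := 2 ^ 23 ||| (2 ^ x.1 ||| (2 ^ x.2.1 ||| 2 ^ x.2.2))

def sexIdx : List (ℕ × ℕ × ℕ) :=
  (List.range 23).flatMap fun a => (List.range a).flatMap fun b => (List.range b).map fun c =>
    (a, b, c)

theorem mem_sexIdx {x : ℕ × ℕ × ℕ} : x ∈ sexIdx ↔ x.2.2 < x.2.1 ∧ x.2.1 < x.1 ∧ x.1 < 23 := by
  unfold sexIdx
  simp only [List.mem_flatMap, List.mem_map, List.mem_range]
  constructor
  · rintro ⟨a, ha, b, hb, c, hc, rfl⟩
    exact ⟨hc, hb, ha⟩
  · rintro ⟨h1, h2, h3⟩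
    exact ⟨x.1, h3, x.2.1, h2, x.2.2, h1, rfl⟩

theorem nodup_sexIdx : sexIdx.Nodup := by
  unfold sexIdx
  apply nodup_flatMap_of List.nodup_range _ (fun y => y.1)
  · intro a y hy
    simp only [List.mem_flatMap, List.mem_map] at hy
    obtain ⟨b, -, c, -, rfl⟩ := hy
    rfl
  · intro a _
    apply nodup_flatMap_of List.nodup_range _ (fun y => y.2.1)
    · intro b y hy
      simp only [List.mem_map] at hy
      obtain ⟨c, -, rfl⟩ := hy
      rfl
    · intro b _
      apply List.Nodup.map _ List.nodup_range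
      intro c c' e
      exact (Prod.mk.inj (Prod.mk.inj e).2).2

theorem msk_tetF {x : ℕ × ℕ × ℕ} (hx : x ∈ sexIdx) : msk (tetF x) = tetM x := by
  rw [mem_sexIdx] at hx
  unfold tetF tetM
  rw [msk_insert, msk_insert, msk_insert, show ({pt x.2.2} : Finset GolayPt) = insert (pt x.2.2) ∅
    from rfl, msk_insert, msk_empty, Nat.or_zero, idx_pt 23 (by norm_num), idx_pt _ (by omega),
    idx_pt _ (by omega), idx_pt _ (by omega)]

theorem mem_tetF {x : ℕ × ℕ × ℕ} (hx : x ∈ sexIdx) {i : ℕ} (hi : i < 24) :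
    pt i ∈ tetF x ↔ i = 23 ∨ i = x.1 ∨ i = x.2.1 ∨ i = x.2.2 := by
  rw [mem_sexIdx] at hx
  unfold tetF
  simp only [Finset.mem_insert, Finset.mem_singleton]
  constructor
  · rintro (h | h | h | h)
    · exact Or.inl (pt_injOn hi (by norm_num) h)
    · exact Or.inr (Or.inl (pt_injOn hi (by omega) h))
    · exact Or.inr (Or.inr (Or.inl (pt_injOn hi (by omega) h)))
    · exact Or.inr (Or.inr (Or.inr (pt_injOn hi (by omega) h)))
  · rintro (h | h | h | h) <;> rw [h] <;> simp

theorem card_tetF {x : ℕ × ℕ × ℕ} (hx : x ∈ sexIdx) : (tetF x).card = 4 := by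
  have hx' := mem_sexIdx.mp hx
  have h1 : pt x.2.1 ∉ ({pt x.2.2} : Finset GolayPt) := by
    rw [Finset.mem_singleton]
    intro e
    have := pt_injOn (by omega) (by omega) e
    omega
  have h2 : pt x.1 ∉ ({pt x.2.1, pt x.2.2} : Finset GolayPt) := by
    simp only [Finset.mem_insert, Finset.mem_singleton, not_or]
    constructor
    · intro e
      have := pt_injOn (by omega) (by omega) e
      omega
    · intro e
      have := pt_injOn (by omega) (by omega) e
      omega
  have h3 : pt 23 ∉ ({pt x.1, pt x.2.1, pt x.2.2} : Finset GolayPt) := by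
    simp only [Finset.mem_insert, Finset.mem_singleton, not_or]
    refine ⟨?_, ?_, ?_⟩
    · intro e
      have := pt_injOn (by omega) (by omega) e
      omega
    · intro e
      have := pt_injOn (by omega) (by omega) e
      omega
    · intro e
      have := pt_injOn (by omega) (by omega) e
      omega
  unfold tetF
  rw [Finset.card_insert_of_notMem h3, Finset.card_insert_of_notMem h2,
    Finset.card_insert_of_notMem h1, Finset.card_singleton]

theorem tetF_inj {x y : ℕ × ℕ × ℕ} (hx : x ∈ sexIdx) (hy : y ∈ sexIdx) (h : tetF x = tetF y) :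
    x = y := by
  have hx' := mem_sexIdx.mp hx
  have hy' := mem_sexIdx.mp hy
  have a1 := (mem_tetF hy (i := x.1) (by omega)).mp (by rw [← h, mem_tetF hx (by omega)]; simp)
  have a2 := (mem_tetF hy (i := x.2.1) (by omega)).mp (by rw [← h, mem_tetF hx (by omega)]; simp)
  have a3 := (mem_tetF hy (i := x.2.2) (by omega)).mp (by rw [← h, mem_tetF hx (by omega)]; simp)
  have b1 := (mem_tetF hx (i := y.1) (by omega)).mp (by rw [h, mem_tetF hy (by omega)]; simp)
  have b2 := (mem_tetF hx (i := y.2.1) (by omega)).mp (by rw [h, mem_tetF hy (by omega)]; simp)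
  have b3 := (mem_tetF hx (i := y.2.2) (by omega)).mp (by rw [h, mem_tetF hy (by omega)]; simp)
  have e1 : x.1 = y.1 := by omega
  have e2 : x.2.1 = y.2.1 := by omega
  have e3 : x.2.2 = y.2.2 := by omega
  exact Prod.ext e1 (Prod.ext e2 e3)

theorem exists_tetF {t : Finset GolayPt} (ht : t.card = 4) (h23 : pt 23 ∈ t) :
    ∃ x ∈ sexIdx, tetF x = t := by
  have hK : ((t.erase (pt 23)).image idx).card = 3 := by
    rw [Finset.card_image_of_injective _ idx_injective, Finset.card_erase_of_mem h23, ht]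
  obtain ⟨x, y, z, hxy, hyz, hK'⟩ := sort3 _ hK
  have hmem : ∀ i, i ∈ (t.erase (pt 23)).image idx ↔ i < 23 ∧ pt i ∈ t := by
    intro i
    rw [Finset.mem_image]
    constructor
    · rintro ⟨p, hp, rfl⟩
      rw [Finset.mem_erase] at hp
      have h1 := idx_lt p
      have h2 := idx_ne hp.1
      refine ⟨by omega, ?_⟩
      rw [pt_idx]
      exact hp.2
    · rintro ⟨hi, hp⟩
      refine ⟨pt i, ?_, idx_pt i (by omega)⟩
      rw [Finset.mem_erase]
      refine ⟨?_, hp⟩
      intro e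
      have := pt_injOn (by omega) (by norm_num) e
      omega
  have hx := (hmem x).mp (by rw [hK']; simp)
  have hy := (hmem y).mp (by rw [hK']; simp)
  have hz := (hmem z).mp (by rw [hK']; simp)
  have hidx : (z, y, x) ∈ sexIdx := mem_sexIdx.mpr ⟨hxy, hyz, hz.1⟩
  refine ⟨(z, y, x), hidx, ?_⟩
  ext p
  have hp : p ∈ tetF (z, y, x) ↔ idx p = 23 ∨ idx p = z ∨ idx p = y ∨ idx p = x := by
    have h0 := mem_tetF hidx (idx_lt p)
    rw [pt_idx] at h0
    exact h0
  rw [hp]
  constructor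
  · rintro (h | h | h | h)
    · have : p = pt 23 := by rw [← h, pt_idx]
      rw [this]
      exact h23
    · have : p = pt z := by rw [← h, pt_idx]
      rw [this]
      exact hz.2
    · have : p = pt y := by rw [← h, pt_idx]
      rw [this]
      exact hy.2
    · have : p = pt x := by rw [← h, pt_idx]
      rw [this]
      exact hx.2
  · intro hpt
    by_cases h : idx p = 23
    · exact Or.inl h
    · right
      have h1 := idx_lt p
      have h2 : idx p ∈ (t.erase (pt 23)).image idx := by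
        rw [hmem]
        refine ⟨by omega, ?_⟩
        rw [pt_idx]
        exact hpt
      rw [hK'] at h2
      simp only [Finset.mem_insert, Finset.mem_singleton] at h2
      tauto

theorem mem_sextets_iff (S : Finset (Finset GolayPt)) :
    S ∈ sextets ↔ ∃ x ∈ sexIdx, sextetOf (tetF x) = S := by
  constructor
  · intro hS
    obtain ⟨t, ht, h23⟩ := sextet_cover hS (pt 23)
    obtain ⟨x, hx, rfl⟩ := exists_tetF (hS.2.1 t ht) h23
    exact ⟨x, hx, (sextet_eq hS ht).symm⟩
  · rintro ⟨x, hx, rfl⟩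
    exact sextetOf_mem (card_tetF hx)

theorem sextetOf_inj {x y : ℕ × ℕ × ℕ} (hx : x ∈ sexIdx) (hy : y ∈ sexIdx)
    (h : sextetOf (tetF x) = sextetOf (tetF y)) : x = y := by
  apply tetF_inj hx hy
  by_contra hne
  have hS := sextetOf_mem (card_tetF hx)
  have m1 : tetF x ∈ sextetOf (tetF x) := Finset.mem_insert_self _ _
  have m2 : tetF y ∈ sextetOf (tetF x) := by
    rw [h]
    exact Finset.mem_insert_self _ _
  have hd := sextet_disj hS m1 m2 hne
  rw [Finset.disjoint_left] at hd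
  exact hd ((mem_tetF hx (by norm_num)).mpr (Or.inl rfl))
    ((mem_tetF hy (by norm_num)).mpr (Or.inl rfl))

def sexFix (F : ℕ → ℕ) (m : ℕ) : Bool :=
  Nat.beq (imgM F m) m || (Nat.beq (imgM F m &&& m) 0 && isCode (imgM F m ||| m))

theorem sexFix_iff {g : Equiv.Perm GolayPt} {F : ℕ → ℕ} (hg : g ∈ M24) (hF : IsIdxFn g F)
    {x : ℕ × ℕ × ℕ} (hx : x ∈ sexIdx) :
    g • sextetOf (tetF x) = sextetOf (tetF x) ↔ sexFix F (tetM x) = true := by
  rw [sextet_fix_iff hg (card_tetF hx)]
  unfold sexFix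
  rw [Bool.or_eq_true, Bool.and_eq_true, ← msk_tetF hx, ← msk_smul hF, ← msk_inter, ← msk_union]
  have e1 : g • tetF x = tetF x ↔ Nat.beq (msk (g • tetF x)) (msk (tetF x)) = true := by
    constructor
    · intro h
      rw [h]
      exact Nat.beq_refl _
    · intro h
      exact msk_inj (Nat.eq_of_beq_eq_true h)
  have e2 : Disjoint (g • tetF x) (tetF x) ↔
      Nat.beq (msk (g • tetF x ∩ tetF x)) 0 = true := by
    rw [Finset.disjoint_iff_inter_eq_empty]
    constructor
    · intro h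
      rw [h, msk_empty]
      rfl
    · intro h
      apply msk_inj
      rw [msk_empty]
      exact Nat.eq_of_beq_eq_true h
  rw [e1, e2]
  constructor
  · rintro (h | ⟨h1, h2⟩)
    · exact Or.inl h
    · exact Or.inr ⟨h1, ((mem_octads_iff _).mp h2).1⟩
  · rintro (h | ⟨h1, h2⟩)
    · exact Or.inl h
    · refine Or.inr ⟨h1, ?_⟩
      rw [mem_octads_iff, card_msk]
      refine ⟨h2, ?_⟩
      rw [Finset.card_union_of_disjoint (e2.mpr h1), Finset.card_smul_finset, card_tetF hx]

theorem ncard_fixed_sextets {g : Equiv.Perm GolayPt} {F : ℕ → ℕ} (hg : g ∈ M24)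
    (hF : IsIdxFn g F) :
    {S : Finset (Finset GolayPt) | S ∈ sextets ∧ g • S = S}.ncard =
      (sexIdx.filter (fun x => sexFix F (tetM x))).length := by
  apply ncard_eq_length _ _ (fun x => sextetOf (tetF x))
  · exact List.Nodup.filter _ nodup_sexIdx
  · intro x hx y hy e
    exact sextetOf_inj (List.mem_filter.mp hx).1 (List.mem_filter.mp hy).1 e
  · intro S
    simp only [Set.mem_ofPred_eq, List.mem_filter]
    constructor
    · rintro ⟨hS, hfix⟩
      obtain ⟨x, hx, rfl⟩ := (mem_sextets_iff S).mp hS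
      exact ⟨x, ⟨hx, (sexFix_iff hg hF hx).mp hfix⟩, rfl⟩
    · rintro ⟨x, ⟨hx, hfix⟩, rfl⟩
      exact ⟨(mem_sextets_iff _).mpr ⟨x, hx, rfl⟩, (sexFix_iff hg hF hx).mpr hfix⟩

def octL : List ℕ := [15, 19, 30, 35, 38, 41, 43, 47, 53, 59, 60, 67, 70, 76, 82, 85, 86, 94, 101, 105, 106, 118, 119, 120, 121, 125, 133, 134, 135, 137, 140, 151, 152, 159, 163, 164, 170, 172, 175, 185, 188, 193, 197, 202, 210, 211, 212, 217, 219, 236, 238, 239, 240, 241, 242, 250, 253, 255, 261, 266, 267, 268, 270, 274, 280, 285, 289, 291, 293, 301, 302, 304, 305, 315, 318, 326, 327, 328, 340, 344, 345, 347, 350, 357, 370, 371, 375, 376, 379, 381, 386, 391, 393, 394, 397, 404, 413, 417, 420, 422, 424, 425, 434, 438, 439, 449, 459, 463, 465, 471, 472, 476, 478, 479, 480, 482, 484, 497, 500, 503, 506, 510, 522, 523, 532, 534, 536, 537, 540, 543, 547, 548, 560, 565, 567, 570, 575, 578, 582, 585, 586, 589, 597, 602, 604, 608, 609, 610, 617, 623, 625, 627, 630, 636, 643, 647, 652, 654, 656,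 659, 665, 669, 671, 677, 680, 688, 690, 691, 694, 699, 700, 709, 714, 715, 717, 719, 725, 729, 740, 741, 742, 745, 750, 752, 758, 762, 769, 772, 782, 786, 787, 788, 794, 807, 808, 815, 817, 821, 825, 826, 827, 833, 834, 839, 840, 844, 845, 848, 850, 863, 867, 868, 871, 875, 876, 878, 889, 893, 898, 907, 909, 913, 915, 917, 918, 926, 930, 941, 942, 944, 951, 952, 956, 957, 958, 960, 961, 964, 967, 968, 971, 981, 983, 994, 1000, 1003, 1006, 1012, 1019, 1020, 1027, 1029, 1043, 1044, 1046, 1047, 1051, 1053, 1059, 1064, 1068, 1072, 1074, 1080, 1085, 1086, 1087, 1089, 1093, 1094, 1096, 1097, 1109, 1111, 1115, 1120, 1130, 1131, 1134, 1140, 1149, 1150, 1156, 1164, 1169, 1170, 1172, 1178, 1179, 1191, 1194, 1199, 1204, 1207, 1208, 1209, 1211, 1216, 1218, 1220, 1229, 1231, 1233, 1234, 1239, 1246, 1250, 1254, 1257, 1259, 1260, 1261, 1265, 1272, 1286, 1289, 1294, 1295, 1297, 1299, 1304, 1308, 1309, 1312, 1318, 1325, 1330, 1331, 1333, 1338, 1342, 1347, 1349, 1354, 1357,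 1359, 1360, 1371, 1376, 1380, 1381, 1382, 1387, 1388, 1398, 1400, 1417, 1418, 1425, 1428, 1430, 1433, 1434, 1438, 1441, 1445, 1450, 1458, 1461, 1463, 1471, 1475, 1480, 1482, 1484, 1487, 1490, 1500, 1501, 1504, 1505, 1507, 1511, 1513, 1516, 1523, 1524, 1535, 1538, 1543, 1544, 1547, 1551, 1564, 1565, 1569, 1572, 1574, 1575, 1576, 1577, 1588, 1591, 1601, 1603, 1614, 1616, 1617, 1625, 1629, 1630, 1631, 1633, 1634, 1637, 1642, 1650, 1652, 1654, 1663, 1666, 1668, 1675, 1677, 1678, 1680, 1688, 1690, 1696, 1697, 1700, 1707, 1709, 1711, 1713, 1715, 1726, 1734, 1736, 1742, 1750, 1752, 1753, 1755, 1756, 1767, 1773, 1778, 1779, 1781, 1786, 1789, 1796, 1797, 1799, 1801, 1814, 1815, 1817, 1818, 1826, 1830, 1834, 1836, 1837, 1849, 1852, 1860, 1871, 1873, 1875, 1877, 1882, 1883, 1884, 1888, 1902, 1903, 1904, 1907, 1912, 1914, 1916, 1919, 1920, 1921, 1922, 1925, 1928, 1934, 1936, 1942, 1951, 1953, 1955, 1962, 1963, 1966, 1973, 1977, 1981, 1987, 1988, 2000, 2003, 2006, 2007,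 2012, 2023, 2024, 2027, 2037, 2038, 2040, 2041, 2047, 2073, 2075, 2087, 2098, 2102, 2105, 2119, 2126, 2127, 2145, 2148, 2156, 2162, 2190, 2204, 2205, 2206, 2209, 2229, 2239, 2242, 2248, 2251, 2264, 2276, 2283, 2285, 2291, 2295, 2313, 2323, 2327, 2332, 2347, 2357, 2360, 2362, 2364, 2369, 2370, 2373, 2399, 2410, 2425, 2430, 2436, 2448, 2454, 2477, 2480, 2483, 2495, 2501, 2503, 2504, 2518, 2522, 2529, 2534, 2542, 2553, 2563, 2573, 2578, 2589, 2598, 2606, 2616, 2629, 2641, 2646, 2651, 2666, 2672, 2676, 2680, 2683, 2690, 2692, 2693, 2698, 2711, 2729, 2731, 2737, 2750, 2761, 2772, 2775, 2799, 2802, 2812, 2813, 2819, 2824, 2831, 2848, 2851, 2860, 2867, 2889, 2891, 2901, 2906, 2909, 2912, 2918, 2933, 2942, 2954, 2958, 2959, 2960, 2981, 2983, 2988, 2996, 3003, 3010, 3020, 3025, 3036, 3058, 3063, 3065, 3078, 3087, 3093, 3098, 3108, 3109, 3113, 3123, 3130, 3148, 3155, 3161, 3164, 3184, 3191, 3199, 3210, 3213, 3225, 3234, 3235, 3244, 3254, 3275, 3284, 3285, 3291, 3295,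 3296, 3304, 3312, 3318, 3332, 3335, 3336, 3338, 3348, 3361, 3371, 3374, 3391, 3393, 3410, 3414, 3426, 3437, 3452, 3453, 3457, 3469, 3474, 3475, 3495, 3496, 3502, 3533, 3537, 3539, 3550, 3556, 3563, 3573, 3576, 3578, 3590, 3600, 3614, 3621, 3631, 3633, 3645, 3648, 3653, 3654, 3667, 3672, 3683, 3686, 3689, 3695, 3713, 3730, 3734, 3737, 3753, 3754, 3764, 3770, 3773, 3776, 3779, 3788, 3807, 3818, 3823, 3836, 3860, 3867, 3868, 3870, 3872, 3895, 3901, 3914, 3918, 3928, 3933, 3939, 3941, 3944, 3958, 3963, 3972, 3979, 3991, 3992, 3993, 4002, 4017, 4023, 4024, 4039, 4047, 4049, 4065, 4068, 4078, 4082]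

theorem msk_compl (s : Finset GolayPt) : msk sᶜ = 16777215 ^^^ msk s := by
  apply Nat.eq_of_testBit_eq
  intro i
  rw [Nat.testBit_xor, testBit_msk, testBit_msk, show (16777215 : ℕ) = 2 ^ 24 - 1 from rfl,
    Nat.testBit_two_pow_sub_one]
  by_cases hi : i < 24 <;> by_cases hs : pt i ∈ s <;> simp [hi, hs, Finset.mem_compl]

theorem octL_eq : wordsL 8 (fun _ => true) = octL := by decide +kernel

theorem mem_octL {k : ℕ} : k ∈ octL ↔ k < 4096 ∧ pc (cw k) = 8 := by
  rw [← octL_eq, wordsL, List.mem_filter, List.mem_range, Bool.and_true]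
  constructor
  · rintro ⟨h1, h2⟩
    exact ⟨h1, Nat.eq_of_beq_eq_true h2⟩
  · rintro ⟨h1, h2⟩
    refine ⟨h1, ?_⟩
    rw [h2]
    rfl

theorem nodup_octL : octL.Nodup := by
  rw [← octL_eq, wordsL]
  exact List.Nodup.filter _ List.nodup_range

def k3 (k₁ k₂ : ℕ) : ℕ := 2048 ^^^ (k₁ ^^^ k₂)

theorem k3_lt {k₁ k₂ : ℕ} (h1 : k₁ < 4096) (h2 : k₂ < 4096) : k3 k₁ k₂ < 4096 :=
  Nat.xor_lt_two_pow (n := 12) (by norm_num) (Nat.xor_lt_two_pow (n := 12) h1 h2)

def trioC (k₁ k₂ : ℕ) : Bool :=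
  Nat.blt k₁ k₂ && Nat.beq (cw k₁ &&& cw k₂) 0 && Nat.blt k₂ (k3 k₁ k₂)

def trioIdx : List (ℕ × ℕ) :=
  octL.flatMap fun k₁ => (octL.filter fun k₂ => trioC k₁ k₂).map fun k₂ => (k₁, k₂)

def trioOf (x : ℕ × ℕ) : Finset (Finset GolayPt) := {supp x.1, supp x.2, supp (k3 x.1 x.2)}

theorem mem_trioIdx {x : ℕ × ℕ} : x ∈ trioIdx ↔
    x.1 ∈ octL ∧ x.2 ∈ octL ∧ x.1 < x.2 ∧ cw x.1 &&& cw x.2 = 0 ∧ x.2 < k3 x.1 x.2 := by
  unfold trioIdx trioC
  simp only [List.mem_flatMap, List.mem_map, List.mem_filter, Bool.and_eq_true, Nat.blt_eq]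
  constructor
  · rintro ⟨k₁, h1, k₂, ⟨h2, ⟨h3, h4⟩, h5⟩, rfl⟩
    exact ⟨h1, h2, h3, Nat.eq_of_beq_eq_true h4, h5⟩
  · rintro ⟨h1, h2, h3, h4, h5⟩
    refine ⟨x.1, h1, x.2, ⟨h2, ⟨h3, ?_⟩, h5⟩, rfl⟩
    rw [h4]
    rfl

theorem nodup_trioIdx : trioIdx.Nodup := by
  unfold trioIdx
  apply nodup_flatMap_of nodup_octL _ (fun y => y.1)
  · intro a y hy
    simp only [List.mem_map] at hy
    obtain ⟨b, -, rfl⟩ := hy
    rfl
  · intro a _
    apply List.Nodup.map _ (List.Nodup.filter _ nodup_octL)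
    intro c c' e
    exact (Prod.mk.inj e).2

theorem supp_k3 {k₁ k₂ : ℕ} (h : cw k₁ &&& cw k₂ = 0) :
    supp (k3 k₁ k₂) = (supp k₁ ∪ supp k₂)ᶜ := by
  have hd : Disjoint (supp k₁) (supp k₂) := by
    rw [disjoint_iff_msk, msk_supp_k, msk_supp_k, h]
  apply msk_inj
  rw [msk_supp_k, k3, cw_xor, cw_xor, ones_eq, msk_compl,
    show supp k₁ ∪ supp k₂ = symmDiff (supp k₁) (supp k₂) from hd.symmDiff_eq_sup.symm,
    msk_symmDiff, msk_supp_k, msk_supp_k]

theorem octL_octad {k : ℕ} (hk : k ∈ octL) : supp k ∈ octads :=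
  supp_mem_octads (mem_octL.mp hk).2

theorem octad_ne_of_disjoint {a b : Finset GolayPt} (ha : a ∈ octads) (hd : Disjoint a b) :
    a ≠ b := by
  rintro rfl
  rw [disjoint_self] at hd
  have h8 := ha.2
  rw [hd] at h8
  simp at h8

theorem trioOf_mem {x : ℕ × ℕ} (hx : x ∈ trioIdx) : trioOf x ∈ trios := by
  rw [mem_trioIdx] at hx
  obtain ⟨h1, h2, -, h4, -⟩ := hx
  have hd : Disjoint (supp x.1) (supp x.2) := by
    rw [disjoint_iff_msk, msk_supp_k, msk_supp_k, h4]
  have ha := octL_octad h1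
  have hb := octL_octad h2
  have e3 := supp_k3 h4
  have hc : supp (k3 x.1 x.2) ∈ octads := by
    rw [mem_octads]
    refine ⟨(mem_supports_iff _).mpr ⟨_, k3_lt (mem_octL.mp h1).1 (mem_octL.mp h2).1, rfl⟩, ?_⟩
    rw [e3, Finset.card_compl, Finset.card_union_of_disjoint hd, ha.2, hb.2, card_golayPt]
  have hd13 : Disjoint (supp x.1) (supp (k3 x.1 x.2)) := by
    rw [e3, Finset.disjoint_left]
    intro p hp hp'
    rw [Finset.mem_compl, Finset.mem_union] at hp'
    exact hp' (Or.inl hp)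
  have hd23 : Disjoint (supp x.2) (supp (k3 x.1 x.2)) := by
    rw [e3, Finset.disjoint_left]
    intro p hp hp'
    rw [Finset.mem_compl, Finset.mem_union] at hp'
    exact hp' (Or.inr hp)
  refine ⟨?_, ?_, ?_⟩
  · exact Finset.card_eq_three.mpr ⟨_, _, _, octad_ne_of_disjoint ha hd,
      octad_ne_of_disjoint ha hd13, octad_ne_of_disjoint hb hd23, rfl⟩
  · intro o ho
    unfold trioOf at ho
    simp only [Finset.mem_insert, Finset.mem_singleton] at ho
    rcases ho with rfl | rfl | rfl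
    · exact ha
    · exact hb
    · exact hc
  · intro o ho o' ho' hne
    unfold trioOf at ho ho'
    simp only [Finset.mem_insert, Finset.mem_singleton] at ho ho'
    rcases ho with rfl | rfl | rfl <;> rcases ho' with rfl | rfl | rfl
    · exact absurd rfl hne
    · exact hd
    · exact hd13
    · exact hd.symm
    · exact absurd rfl hne
    · exact hd23
    · exact hd13.symm
    · exact hd23.symm
    · exact absurd rfl hne

theorem exists_trioIdx {T : Finset (Finset GolayPt)} (hT : T ∈ trios) :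
    ∃ x ∈ trioIdx, trioOf x = T := by
  obtain ⟨h3, hoct, hdis⟩ := hT
  obtain ⟨a, b, c, hab, hac, hbc, rfl⟩ := Finset.card_eq_three.mp h3
  obtain ⟨ka, hka, rfl⟩ := (mem_supports_iff a).mp (hoct a (by simp)).1
  obtain ⟨kb, hkb, rfl⟩ := (mem_supports_iff b).mp (hoct b (by simp)).1
  obtain ⟨kc, hkc, rfl⟩ := (mem_supports_iff c).mp (hoct c (by simp)).1
  have hK : ({ka, kb, kc} : Finset ℕ).card = 3 :=
    Finset.card_eq_three.mpr ⟨ka, kb, kc, fun e => hab (by rw [e]), fun e => hac (by rw [e]),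
      fun e => hbc (by rw [e]), rfl⟩
  obtain ⟨x, y, z, hxy, hyz, hK'⟩ := sort3 _ hK
  have hmem : ∀ k ∈ ({ka, kb, kc} : Finset ℕ), k ∈ octL ∧
      supp k ∈ ({supp ka, supp kb, supp kc} : Finset (Finset GolayPt)) := by
    intro k hk
    simp only [Finset.mem_insert, Finset.mem_singleton] at hk
    rcases hk with rfl | rfl | rfl
    · exact ⟨mem_octL.mpr ⟨hka, by rw [← card_supp]; exact (hoct _ (by simp)).2⟩, by simp⟩
    · exact ⟨mem_octL.mpr ⟨hkb, by rw [← card_supp]; exact (hoct _ (by simp)).2⟩, by simp⟩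
    · exact ⟨mem_octL.mpr ⟨hkc, by rw [← card_supp]; exact (hoct _ (by simp)).2⟩, by simp⟩
  have mx := hmem x (by rw [hK']; simp)
  have my := hmem y (by rw [hK']; simp)
  have mz := hmem z (by rw [hK']; simp)
  have lx := (mem_octL.mp mx.1).1
  have ly := (mem_octL.mp my.1).1
  have lz := (mem_octL.mp mz.1).1
  have dis : ∀ k k' : ℕ, k < 4096 → k' < 4096 → k ≠ k' →
      supp k ∈ ({supp ka, supp kb, supp kc} : Finset (Finset GolayPt)) →
      supp k' ∈ ({supp ka, supp kb, supp kc} : Finset (Finset GolayPt)) →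
      Disjoint (supp k) (supp k') := by
    intro k k' hk hk' hne h1 h2
    exact hdis _ h1 _ h2 (fun e => hne (supp_injOn k hk k' hk' e))
  have dxy := dis x y lx ly (by omega) mx.2 my.2
  have dxz := dis x z lx lz (by omega) mx.2 mz.2
  have dyz := dis y z ly lz (by omega) my.2 mz.2
  have hxy0 : cw x &&& cw y = 0 := by
    rw [disjoint_iff_msk, msk_supp_k, msk_supp_k] at dxy
    exact dxy
  have ez : z = k3 x y := by
    apply supp_injOn z lz _ (k3_lt lx ly)
    rw [supp_k3 hxy0]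
    apply Finset.eq_of_subset_of_card_le
    · intro p hp
      rw [Finset.mem_compl, Finset.mem_union]
      rintro (h | h)
      · exact (Finset.disjoint_left.mp dxz) h hp
      · exact (Finset.disjoint_left.mp dyz) h hp
    · rw [Finset.card_compl, Finset.card_union_of_disjoint dxy, (octL_octad mx.1).2,
        (octL_octad my.1).2, (octL_octad mz.1).2, card_golayPt]
  refine ⟨(x, y), mem_trioIdx.mpr ⟨mx.1, my.1, hxy, hxy0, by rw [← ez]; exact hyz⟩, ?_⟩
  unfold trioOf
  rw [← ez]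
  have e1 : ({supp ka, supp kb, supp kc} : Finset (Finset GolayPt)) =
      ({ka, kb, kc} : Finset ℕ).image supp := by
    rw [Finset.image_insert, Finset.image_insert, Finset.image_singleton]
  rw [e1, hK', Finset.image_insert, Finset.image_insert, Finset.image_singleton]

theorem trioOf_inj {x y : ℕ × ℕ} (hx : x ∈ trioIdx) (hy : y ∈ trioIdx)
    (h : trioOf x = trioOf y) : x = y := by
  have hx' := mem_trioIdx.mp hx
  have hy' := mem_trioIdx.mp hy
  have lx1 := (mem_octL.mp hx'.1).1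
  have lx2 := (mem_octL.mp hx'.2.1).1
  have ly1 := (mem_octL.mp hy'.1).1
  have ly2 := (mem_octL.mp hy'.2.1).1
  have lx3 := k3_lt lx1 lx2
  have ly3 := k3_lt ly1 ly2
  have key : ∀ (u v : ℕ × ℕ) (k : ℕ), k < 4096 → u.1 < 4096 → u.2 < 4096 →
      k3 u.1 u.2 < 4096 → supp k ∈ trioOf u → k = u.1 ∨ k = u.2 ∨ k = k3 u.1 u.2 := by
    intro u v k hk h1 h2 h3 hm
    unfold trioOf at hm
    simp only [Finset.mem_insert, Finset.mem_singleton] at hm
    rcases hm with e | e | e
    · exact Or.inl (supp_injOn _ hk _ h1 e)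
    · exact Or.inr (Or.inl (supp_injOn _ hk _ h2 e))
    · exact Or.inr (Or.inr (supp_injOn _ hk _ h3 e))
  have mx : ∀ k, supp k ∈ trioOf x ↔ supp k ∈ trioOf y := fun k => by rw [h]
  have a1 := key y x x.1 lx1 ly1 ly2 ly3 ((mx _).mp (by unfold trioOf; simp))
  have a2 := key y x x.2 lx2 ly1 ly2 ly3 ((mx _).mp (by unfold trioOf; simp))
  have a3 := key y x (k3 x.1 x.2) lx3 ly1 ly2 ly3 ((mx _).mp (by unfold trioOf; simp))
  have b1 := key x y y.1 ly1 lx1 lx2 lx3 ((mx _).mpr (by unfold trioOf; simp))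
  have b2 := key x y y.2 ly2 lx1 lx2 lx3 ((mx _).mpr (by unfold trioOf; simp))
  have b3 := key x y (k3 y.1 y.2) ly3 lx1 lx2 lx3 ((mx _).mpr (by unfold trioOf; simp))
  have o1 := hx'.2.2.1
  have o2 := hx'.2.2.2.2
  have o3 := hy'.2.2.1
  have o4 := hy'.2.2.2.2
  generalize k3 x.1 x.2 = zx at *
  generalize k3 y.1 y.2 = zy at *
  have e1 : x.1 = y.1 := by omega
  have e2 : x.2 = y.2 := by omega
  exact Prod.ext e1 e2

def mem3 (a b c m : ℕ) : Bool := Nat.beq m a || Nat.beq m b || Nat.beq m c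

def trioFix (F : ℕ → ℕ) (x : ℕ × ℕ) : Bool :=
  mem3 (cw x.1) (cw x.2) (cw (k3 x.1 x.2)) (imgM F (cw x.1)) &&
  mem3 (cw x.1) (cw x.2) (cw (k3 x.1 x.2)) (imgM F (cw x.2)) &&
  mem3 (cw x.1) (cw x.2) (cw (k3 x.1 x.2)) (imgM F (cw (k3 x.1 x.2)))

theorem mem3_iff {g : Equiv.Perm GolayPt} {F : ℕ → ℕ} (hF : IsIdxFn g F) (x : ℕ × ℕ) (k : ℕ) :
    g • supp k ∈ trioOf x ↔ mem3 (cw x.1) (cw x.2) (cw (k3 x.1 x.2)) (imgM F (cw k)) = true := by
  unfold trioOf mem3
  simp only [Finset.mem_insert, Finset.mem_singleton, Bool.or_eq_true]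
  rw [smul_eq_iff hF, smul_eq_iff hF, smul_eq_iff hF, msk_supp_k, msk_supp_k, msk_supp_k,
    msk_supp_k]
  constructor
  · rintro (e | e | e)
    · left; left; rw [e]; exact Nat.beq_refl _
    · left; right; rw [e]; exact Nat.beq_refl _
    · right; rw [e]; exact Nat.beq_refl _
  · rintro ((e | e) | e)
    · exact Or.inl (Nat.eq_of_beq_eq_true e)
    · exact Or.inr (Or.inl (Nat.eq_of_beq_eq_true e))
    · exact Or.inr (Or.inr (Nat.eq_of_beq_eq_true e))

theorem trioFix_iff {g : Equiv.Perm GolayPt} {F : ℕ → ℕ} (hF : IsIdxFn g F) (x : ℕ × ℕ) :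
    g • trioOf x = trioOf x ↔ trioFix F x = true := by
  unfold trioFix
  rw [Bool.and_eq_true, Bool.and_eq_true, ← mem3_iff hF, ← mem3_iff hF, ← mem3_iff hF]
  constructor
  · intro h
    have hm : ∀ o ∈ trioOf x, g • o ∈ trioOf x := by
      intro o ho
      have := Finset.smul_mem_smul_finset (a := g) ho
      rw [h] at this
      exact this
    exact ⟨⟨hm _ (by unfold trioOf; simp), hm _ (by unfold trioOf; simp)⟩,
      hm _ (by unfold trioOf; simp)⟩
  · rintro ⟨⟨h1, h2⟩, h3⟩
    apply Finset.eq_of_subset_of_card_le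
    · intro o ho
      obtain ⟨o', ho', rfl⟩ := Finset.mem_smul_finset.mp ho
      unfold trioOf at ho'
      simp only [Finset.mem_insert, Finset.mem_singleton] at ho'
      rcases ho' with rfl | rfl | rfl
      · exact h1
      · exact h2
      · exact h3
    · rw [Finset.card_smul_finset]

theorem smul_trio {g : Equiv.Perm GolayPt} (hg : g ∈ M24) {T : Finset (Finset GolayPt)}
    (hT : T ∈ trios) : g • T ∈ trios := by
  refine ⟨?_, ?_, ?_⟩
  · rw [Finset.card_smul_finset]
    exact hT.1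
  · intro u hu
    obtain ⟨v, hv, rfl⟩ := Finset.mem_smul_finset.mp hu
    exact smul_octad hg (hT.2.1 v hv)
  · intro u hu u' hu' hne
    obtain ⟨v, hv, rfl⟩ := Finset.mem_smul_finset.mp hu
    obtain ⟨v', hv', rfl⟩ := Finset.mem_smul_finset.mp hu'
    have hne' : v ≠ v' := fun e => hne (by rw [e])
    have hd := hT.2.2 v hv v' hv' hne'
    rw [Finset.disjoint_left] at hd ⊢
    intro p hp hp'
    rw [← Finset.inv_smul_mem_iff] at hp hp'
    exact hd hp hp'

theorem ncard_fixed_trios {g : Equiv.Perm GolayPt} {F : ℕ → ℕ} (hF : IsIdxFn g F) :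
    {T : Finset (Finset GolayPt) | T ∈ trios ∧ g • T = T}.ncard =
      (trioIdx.filter (fun x => trioFix F x)).length := by
  apply ncard_eq_length _ _ trioOf
  · exact List.Nodup.filter _ nodup_trioIdx
  · intro x hx y hy e
    exact trioOf_inj (List.mem_filter.mp hx).1 (List.mem_filter.mp hy).1 e
  · intro T
    simp only [Set.mem_ofPred_eq, List.mem_filter]
    constructor
    · rintro ⟨hT, hfix⟩
      obtain ⟨x, hx, rfl⟩ := exists_trioIdx hT
      exact ⟨x, ⟨hx, (trioFix_iff hF x).mp hfix⟩, rfl⟩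
    · rintro ⟨x, ⟨hx, hfix⟩, rfl⟩
      exact ⟨trioOf_mem hx, (trioFix_iff hF x).mpr hfix⟩

end Cfsg.Agent.Lib.Helper28.M24Sext
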