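import Mathlib
import Cfsg.Agent.Lib.Helper28.M24Class
import Cfsg.Agent.Lib.Helper28.M24Sext

set_option autoImplicit false

open Cfsg

namespace Cfsg.Agent.Lib.Helper28.M24Fix

open Cfsg.Agent.Lib.Helper3.Golay Cfsg.Agent.Lib.Helper3.Golay2
  Cfsg.Agent.Lib.Helper3.GolayM24 Cfsg.Agent.Lib.Helper3.Steiner
  Cfsg.Agent.Lib.Helper28.M24Trans Cfsg.Agent.Lib.Helper28.M24Six
  Cfsg.Agent.Lib.Helper28.M24Enum Cfsg.Agent.Lib.Helper28.M24Class
  Cfsg.Agent.Lib.Helper28.M24Mask Cfsg.Agent.Lib.Helper28.M24Sext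
open scoped Pointwise

theorem oct_iff {c : Equiv.Perm GolayPt} (hc : c ∈ M24) (x : Finset GolayPt) :
    c • x ∈ octads ↔ x ∈ octads := by
  constructor
  · intro h
    have := smul_octad (inv_mem hc) h
    rwa [inv_smul_smul] at this
  · exact smul_octad hc

theorem smul_dodecad {g : Equiv.Perm GolayPt} (hg : g ∈ M24) {o : Finset GolayPt}
    (ho : o ∈ dodecads) : g • o ∈ dodecads := by
  rw [mem_dodecads] at ho ⊢
  exact ⟨smul_mem_supports hg ho.1, by rw [Finset.card_smul_finset]; exact ho.2⟩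

theorem dod_iff {c : Equiv.Perm GolayPt} (hc : c ∈ M24) (x : Finset GolayPt) :
    c • x ∈ dodecads ↔ x ∈ dodecads := by
  constructor
  · intro h
    have := smul_dodecad (inv_mem hc) h
    rwa [inv_smul_smul] at this
  · exact smul_dodecad hc

theorem trio_iff {c : Equiv.Perm GolayPt} (hc : c ∈ M24) (x : Finset (Finset GolayPt)) :
    c • x ∈ trios ↔ x ∈ trios := by
  constructor
  · intro h
    have := smul_trio (inv_mem hc) h
    rwa [inv_smul_smul] at this
  · exact smul_trio hc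

theorem sext_iff {c : Equiv.Perm GolayPt} (hc : c ∈ M24) (x : Finset (Finset GolayPt)) :
    c • x ∈ sextets ↔ x ∈ sextets := by
  constructor
  · intro h
    have := smul_sextet (inv_mem hc) h
    rwa [inv_smul_smul] at this
  · exact smul_sextet hc

theorem counts_conj {g c : Equiv.Perm GolayPt} {T : ℕ} (hc : c ∈ M24) (hT : vldB T = true)
    (hTm : P T ∈ M24) (e : c * g * c⁻¹ = P T ∨ c * g * c⁻¹ = (P T)⁻¹) :
    {o : Finset GolayPt | o ∈ octads ∧ g • o = o}.ncard =
        (wordsL 8 (fun m => Nat.beq (imgM (dig T) m) m)).length ∧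
    {T' : Finset (Finset GolayPt) | T' ∈ trios ∧ g • T' = T'}.ncard =
        (trioIdx.filter (fun x => trioFix (dig T) x)).length ∧
    {S : Finset (Finset GolayPt) | S ∈ sextets ∧ g • S = S}.ncard =
        (sexIdx.filter (fun x => sexFix (dig T) (tetM x))).length ∧
    {d : Finset GolayPt | d ∈ dodecads ∧ g • d = d}.ncard =
        (wordsL 12 (fun m => Nat.beq (imgM (dig T) m) m)).length := by
  have key : ∀ {α : Type} [MulAction (Equiv.Perm GolayPt) α] (A : Set α)
      (_ : ∀ x, c • x ∈ A ↔ x ∈ A),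
      {x | x ∈ A ∧ g • x = x}.ncard = {x | x ∈ A ∧ (P T) • x = x}.ncard := by
    intro α _ A hA
    rw [← ncard_conj A c g hA]
    rcases e with e | e
    · rw [e]
    · rw [e, ncard_inv]
  refine ⟨?_, ?_, ?_, ?_⟩
  · rw [key octads (oct_iff hc)]
    exact ncard_fixed_words (isIdx_P hT) 8
  · rw [key trios (trio_iff hc)]
    exact ncard_fixed_trios (isIdx_P hT)
  · rw [key sextets (sext_iff hc)]
    exact ncard_fixed_sextets hTm (isIdx_P hT)
  · rw [key dodecads (dod_iff hc)]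
    exact ncard_fixed_words (isIdx_P hT) 12

theorem cnt_oct_3A : (wordsL 8 (fun m => Nat.beq (imgM (dig X3A) m) m)).length = 21 := by
  decide +kernel

theorem cnt_dod_3A : (wordsL 12 (fun m => Nat.beq (imgM (dig X3A) m) m)).length = 20 := by
  decide +kernel

theorem cnt_sex_3A : (sexIdx.filter (fun x => sexFix (dig X3A) (tetM x))).length = 16 := by
  decide +kernel

theorem cnt_trio_3A : (trioIdx.filter (fun x => trioFix (dig X3A) x)).length = 15 := by
  decide +kernel

theorem cnt_sex_3B : (sexIdx.filter (fun x => sexFix (dig X3B) (tetM x))).length = 7 := by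
  decide +kernel

theorem cnt_trio_3B : (trioIdx.filter (fun x => trioFix (dig X3B) x)).length = 15 := by
  decide +kernel

theorem cnt_oct_2A : (wordsL 8 (fun m => Nat.beq (imgM (dig T2A) m) m)).length = 71 := by
  decide +kernel

theorem cnt_sex_2A : (sexIdx.filter (fun x => sexFix (dig T2A) (tetM x))).length = 91 := by
  decide +kernel

theorem cnt_trio_2A : (trioIdx.filter (fun x => trioFix (dig T2A) x)).length = 99 := by
  decide +kernel

theorem cnt_oct_2B : (wordsL 8 (fun m => Nat.beq (imgM (dig T2B) m) m)).length = 15 := by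
  decide +kernel

theorem cnt_sex_2B : (sexIdx.filter (fun x => sexFix (dig T2B) (tetM x))).length = 51 := by
  decide +kernel

theorem cnt_trio_2B : (trioIdx.filter (fun x => trioFix (dig T2B) x)).length = 75 := by
  decide +kernel

/-- order 3 with a fixed point -/
theorem counts_3A {g : Equiv.Perm GolayPt} (hg : g ∈ M24) (h3 : g * g * g = 1) (h1 : g ≠ 1)
    {a : GolayPt} (ha : g a = a) :
    {o : Finset GolayPt | o ∈ octads ∧ g • o = o}.ncard = 21 ∧
    {T' : Finset (Finset GolayPt) | T' ∈ trios ∧ g • T' = T'}.ncard = 15 ∧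
    {S : Finset (Finset GolayPt) | S ∈ sextets ∧ g • S = S}.ncard = 16 ∧
    {d : Finset GolayPt | d ∈ dodecads ∧ g • d = d}.ncard = 20 := by
  obtain ⟨c, hc, e⟩ := ord3_conj_3A hg h3 h1 ha
  have h := counts_conj hc X3A_vld X3A_mem e
  rw [cnt_oct_3A, cnt_trio_3A, cnt_sex_3A, cnt_dod_3A] at h
  exact h

theorem counts_3B {g : Equiv.Perm GolayPt} (hg : g ∈ M24) (h3 : g * g * g = 1)
    (hf : ∀ p, g p ≠ p) :
    {S : Finset (Finset GolayPt) | S ∈ sextets ∧ g • S = S}.ncard = 7 ∧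
    {T' : Finset (Finset GolayPt) | T' ∈ trios ∧ g • T' = T'}.ncard = 15 := by
  obtain ⟨c, hc, e⟩ := ord3_conj_3B hg h3 hf
  have h := counts_conj hc X3B_vld X3B_mem (Or.inl e)
  rw [cnt_trio_3B, cnt_sex_3B] at h
  exact ⟨h.2.2.1, h.2.1⟩

theorem counts_2A {g : Equiv.Perm GolayPt} (hg : g ∈ M24) (h2 : g * g = 1) (h1 : g ≠ 1)
    {a : GolayPt} (ha : g a = a) :
    {o : Finset GolayPt | o ∈ octads ∧ g • o = o}.ncard = 71 ∧
    {T' : Finset (Finset GolayPt) | T' ∈ trios ∧ g • T' = T'}.ncard = 99 ∧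
    {S : Finset (Finset GolayPt) | S ∈ sextets ∧ g • S = S}.ncard = 91 := by
  obtain ⟨c, hc, e⟩ := (inv_fix hg h2 h1 ha).2
  have h := counts_conj hc T2A_vld T2A_mem (Or.inl e)
  rw [cnt_oct_2A, cnt_trio_2A, cnt_sex_2A] at h
  exact ⟨h.1, h.2.1, h.2.2.1⟩

theorem counts_2B {g : Equiv.Perm GolayPt} (hg : g ∈ M24) (h2 : g * g = 1)
    (hf : ∀ p, g p ≠ p) :
    {o : Finset GolayPt | o ∈ octads ∧ g • o = o}.ncard = 15 ∧
    {T' : Finset (Finset GolayPt) | T' ∈ trios ∧ g • T' = T'}.ncard = 75 ∧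
    {S : Finset (Finset GolayPt) | S ∈ sextets ∧ g • S = S}.ncard = 51 := by
  obtain ⟨c, hc, e⟩ := inv_conj_2B hg h2 hf
  have h := counts_conj hc T2B_vld T2B_mem (Or.inl e)
  rw [cnt_oct_2B, cnt_trio_2B, cnt_sex_2B] at h
  exact ⟨h.1, h.2.1, h.2.2.1⟩

theorem cube_of_order {g : Equiv.Perm GolayPt} (h : orderOf g = 3) : g * g * g = 1 := by
  rw [← pow_three', ← h, pow_orderOf_eq_one]

theorem sq_of_order {g : Equiv.Perm GolayPt} (h : orderOf g = 2) : g * g = 1 := by
  rw [← pow_two, ← h, pow_orderOf_eq_one]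

theorem ne_one_of_order {g : Equiv.Perm GolayPt} {n : ℕ} (h : orderOf g = n) (hn : n ≠ 1) :
    g ≠ 1 := by
  rintro rfl
  rw [orderOf_one] at h
  exact hn h.symm

theorem fixed_of_card {g : Equiv.Perm GolayPt} {n : ℕ}
    (h : (Finset.univ.filter fun p => g p = p).card = n) (hn : n ≠ 0) : ∃ a, g a = a := by
  have : (Finset.univ.filter fun p => g p = p).Nonempty := by
    rw [← Finset.card_pos, h]
    omega
  obtain ⟨a, ha⟩ := this
  exact ⟨a, (Finset.mem_filter.mp ha).2⟩

end Cfsg.Agent.Lib.Helper28.M24Fix
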