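import Mathlib

set_option autoImplicit false

namespace Cfsg.Agent.Lib.Helper28.Walk

variable {X : Type*}

def consume (rel : ℕ → X → X → Bool) (p : X) : List ℕ → List X → Option (List X)
  | [], ch => some ch
  | _ :: _, [] => none
  | j :: js, c :: cs => if rel j p c then consume rel p js cs else none

theorem consume_sound {rel : ℕ → X → X → Bool} {good : X → Prop}
    (hrel : ∀ j p c, rel j p c = true → good p → good c) {p : X} (hp : good p) :
    ∀ (js : List ℕ) (ch ch' : List X), consume rel p js ch = some ch' →
      ∃ pre, ch = pre ++ ch' ∧ pre.length = js.length ∧ ∀ x ∈ pre, good x := by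
  intro js
  induction js with
  | nil =>
    intro ch ch' h
    simp only [consume, Option.some.injEq] at h
    exact ⟨[], by simp [h], rfl, by simp⟩
  | cons j js ih =>
    intro ch ch' h
    cases ch with
    | nil => simp [consume] at h
    | cons c cs =>
      simp only [consume] at h
      split_ifs at h with hr
      obtain ⟨pre, e, hl, hg⟩ := ih cs ch' h
      refine ⟨c :: pre, by simp [e], by simp [hl], ?_⟩
      intro x hx
      rcases List.mem_cons.mp hx with rfl | hx
      · exact hrel j p _ hr hp
      · exact hg x hx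

def gl (G f : ℕ) : List ℕ := (List.range G).filter (fun j => f.testBit j)

def walk (rel : ℕ → X → X → Bool) (G : ℕ) : List X → List X → List ℕ → ℕ → Bool
  | _, [], _, _ => true
  | [], _ :: _, _, _ => false
  | _ :: _, _ :: _, [], _ => false
  | _ :: _, _ :: _, _ :: _, 0 => false
  | p :: ps, c :: cs, f :: fs, (s + 1) =>
      match consume rel p (gl G f) (c :: cs) with
      | none => false
      | some ch' => walk rel G ps ch' fs (s + (gl G f).length)

theorem walk_sound {rel : ℕ → X → X → Bool} {good : X → Prop}
    (hrel : ∀ j p c, rel j p c = true → good p → good c) (G : ℕ) :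
    ∀ (par ch : List X) (fl : List ℕ) (s : ℕ), walk rel G par ch fl s = true →
      (∃ pre, par = pre ++ ch ∧ pre.length = s ∧ ∀ x ∈ pre, good x) → ∀ x ∈ ch, good x := by
  intro par
  induction par with
  | nil =>
    intro ch fl s h _
    cases ch with
    | nil => simp
    | cons c cs => simp [walk] at h
  | cons p ps ih =>
    intro ch fl s h hpre
    cases ch with
    | nil => simp
    | cons c cs =>
      cases fl with
      | nil => simp [walk] at h
      | cons f fs =>
        cases s with
        | zero => simp [walk] at h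
        | succ s =>
          simp only [walk] at h
          obtain ⟨pre, e, hl, hg⟩ := hpre
          cases pre with
          | nil => simp at hl
          | cons q pre' =>
            simp only [List.cons_append, List.cons.injEq] at e
            obtain ⟨rfl, e⟩ := e
            have hp : good p := hg p (by simp)
            split at h
            · exact absurd h (by simp)
            · rename_i ch' hc
              obtain ⟨pre₂, e₂, hl₂, hg₂⟩ := consume_sound hrel hp _ _ _ hc
              have key := ih ch' fs _ h ⟨pre' ++ pre₂, by rw [e, e₂, List.append_assoc], by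
                simp only [List.length_append, List.length_cons] at hl ⊢
                omega, by
                intro x hx
                rcases List.mem_append.mp hx with hx | hx
                · exact hg x (by simp [hx])
                · exact hg₂ x hx⟩
              intro x hx
              rw [e₂] at hx
              rcases List.mem_append.mp hx with hx | hx
              · exact hg₂ x hx
              · exact key x hx

def walk0 (rel : ℕ → X → X → Bool) (G : ℕ) (L : List X) (fl : List ℕ) : Bool :=
  match L with
  | [] => false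
  | x :: xs => walk rel G (x :: xs) xs fl 1

theorem walk0_sound {rel : ℕ → X → X → Bool} {good : X → Prop}
    (hrel : ∀ j p c, rel j p c = true → good p → good c) (G : ℕ) (L : List X) (fl : List ℕ)
    (h : walk0 rel G L fl = true) (h0 : ∀ x₀, L.head? = some x₀ → good x₀) :
    ∀ x ∈ L, good x := by
  cases L with
  | nil => simp
  | cons x₀ xs =>
    have hg := h0 x₀ rfl
    have := walk_sound hrel G (x₀ :: xs) xs fl 1 h ⟨[x₀], rfl, rfl, by simpa using hg⟩
    intro x hx
    rcases List.mem_cons.mp hx with rfl | hx
    · exact hg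
    · exact this x hx

def nodupB (code : X → ℕ) : List X → ℕ → Bool
  | [], _ => true
  | x :: xs, w => !w.testBit (code x) && nodupB code xs (w ||| 2 ^ code x)

theorem nodupB_sound (code : X → ℕ) : ∀ (l : List X) (w : ℕ), nodupB code l w = true →
    (l.map code).Nodup ∧ ∀ x ∈ l, w.testBit (code x) = false := by
  intro l
  induction l with
  | nil => intro w _; simp
  | cons x xs ih =>
    intro w h
    simp only [nodupB, Bool.and_eq_true, Bool.not_eq_true'] at h
    obtain ⟨h1, h2⟩ := h
    obtain ⟨i1, i2⟩ := ih _ h2
    have key : ∀ y ∈ xs, w.testBit (code y) = false ∧ code x ≠ code y := by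
      intro y hy
      have := i2 y hy
      rw [Nat.testBit_or, Bool.or_eq_false_iff, Nat.testBit_two_pow] at this
      exact ⟨this.1, by simpa using this.2⟩
    refine ⟨?_, ?_⟩
    · rw [List.map_cons, List.nodup_cons]
      refine ⟨?_, i1⟩
      intro hm
      obtain ⟨y, hy, e⟩ := List.mem_map.mp hm
      exact (key y hy).2 e.symm
    · intro y hy
      rcases List.mem_cons.mp hy with rfl | hy
      · exact h1
      · exact (key y hy).1

section
variable {α : Type*}

theorem ncard_image_list (obj : X → α) (L : List X) (hnd : L.Nodup)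
    (hinj : ∀ x ∈ L, ∀ y ∈ L, obj x = obj y → x = y) :
    (obj '' {y | y ∈ L}).ncard = L.length := by
  classical
  have e : {y | y ∈ L} = (↑L.toFinset : Set X) := by
    ext y
    simp
  rw [e, Set.InjOn.ncard_image, Set.ncard_coe_finset, List.toFinset_card_of_nodup hnd]
  intro x hx y hy h
  simp only [Finset.mem_coe, List.mem_toFinset] at hx hy
  exact hinj x hx y hy h

theorem cover_of_cert (A : Set α) (hfin : A.Finite)
    (obj : X → α) (code : X → ℕ) (ok : X → Prop)
    (hinj : ∀ x x', ok x → ok x' → obj x = obj x' → code x = code x')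
    (Ls : List (List X)) (ns : List ℕ)
    (hok : ∀ L ∈ Ls, ∀ x ∈ L, ok x ∧ obj x ∈ A)
    (hnd : (Ls.flatten.map code).Nodup)
    (hlen : Ls.map List.length = ns)
    (hcard : A.ncard = ns.sum) :
    Ls.flatten.Nodup ∧ (∀ x ∈ Ls.flatten, ∀ y ∈ Ls.flatten, obj x = obj y → x = y) ∧
    A = obj '' {y | y ∈ Ls.flatten} := by
  have hF : Ls.flatten.Nodup := List.Nodup.of_map code hnd
  have hokF : ∀ x ∈ Ls.flatten, ok x ∧ obj x ∈ A := by
    intro x hx
    obtain ⟨L, hL, hxL⟩ := List.mem_flatten.mp hx
    exact hok L hL x hxL
  have hobj : ∀ x ∈ Ls.flatten, ∀ y ∈ Ls.flatten, obj x = obj y → x = y := by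
    intro x hx y hy e
    exact List.inj_on_of_nodup_map hnd hx hy (hinj x y (hokF x hx).1 (hokF y hy).1 e)
  refine ⟨hF, hobj, ?_⟩
  symm
  apply Set.eq_of_subset_of_ncard_le _ _ hfin
  · rintro a ⟨y, hy, rfl⟩
    exact (hokF y hy).2
  · rw [ncard_image_list obj _ hF hobj, hcard, List.length_flatten, hlen]

theorem orbits_of_cert {G : Type*} [Group G] [Finite G] [MulAction G α]
    (A : Set α) (hinv : ∀ (g : G), ∀ a ∈ A, g • a ∈ A)
    (obj : X → α) (Ls : List (List X)) (ns : List ℕ)
    (hA : A = obj '' {y | y ∈ Ls.flatten})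
    (hnodup : Ls.flatten.Nodup)
    (hinj : ∀ x ∈ Ls.flatten, ∀ y ∈ Ls.flatten, obj x = obj y → x = y)
    (horb : ∀ L ∈ Ls, ∀ x ∈ L, ∀ y ∈ L, obj y ∈ MulAction.orbit G (obj x))
    (hlen : Ls.map List.length = ns)
    (hchk : ∀ J ∈ ns.sublists, J.sum ∣ Nat.card G → J.length ≤ 1) :
    ∀ L ∈ Ls, ∀ x ∈ L, MulAction.orbit G (obj x) = obj '' {y | y ∈ L} := by
  classical
  intro L hL x hx
  have hxF : x ∈ Ls.flatten := List.mem_flatten.mpr ⟨L, hL, hx⟩
  set J' := Ls.filter (fun L' => decide (∃ y ∈ L', obj y ∈ MulAction.orbit G (obj x))) with hJ'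
  have hsub : J'.Sublist Ls := List.filter_sublist
  have hLJ : L ∈ J' := by
    rw [hJ', List.mem_filter]
    exact ⟨hL, by simpa using ⟨x, hx, MulAction.mem_orbit_self _⟩⟩
  have hΩ : MulAction.orbit G (obj x) = obj '' {y | y ∈ J'.flatten} := by
    ext a
    constructor
    · intro ha
      have haA : a ∈ A := by
        obtain ⟨g, rfl⟩ := ha
        apply hinv
        rw [hA]
        exact ⟨x, hxF, rfl⟩
      rw [hA] at haA
      obtain ⟨y, hy, rfl⟩ := haA
      obtain ⟨L', hL', hyL'⟩ := List.mem_flatten.mp hy
      refine ⟨y, ?_, rfl⟩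
      apply List.mem_flatten.mpr
      refine ⟨L', ?_, hyL'⟩
      rw [hJ', List.mem_filter]
      exact ⟨hL', by simpa using ⟨y, hyL', ha⟩⟩
    · rintro ⟨y, hy, rfl⟩
      obtain ⟨L', hL', hyL'⟩ := List.mem_flatten.mp hy
      rw [hJ', List.mem_filter] at hL'
      obtain ⟨hL'1, hL'2⟩ := hL'
      obtain ⟨y', hy', hy'Ω⟩ : ∃ y' ∈ L', obj y' ∈ MulAction.orbit G (obj x) := by
        simpa using hL'2
      obtain ⟨g₁, e₁⟩ := hy'Ω
      obtain ⟨g₂, e₂⟩ := horb L' hL'1 y' hy' y hyL'
      refine ⟨g₂ * g₁, ?_⟩
      show (g₂ * g₁) • obj x = obj y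
      rw [mul_smul]
      have e₁' : g₁ • obj x = obj y' := e₁
      have e₂' : g₂ • obj y' = obj y := e₂
      rw [e₁', e₂']
  have hJnd : J'.flatten.Nodup := hnodup.sublist (List.Sublist.flatten hsub)
  have hJsub : ∀ z ∈ J'.flatten, z ∈ Ls.flatten := fun z hz => (List.Sublist.flatten hsub).subset hz
  have hcardΩ : (MulAction.orbit G (obj x)).ncard = (J'.map List.length).sum := by
    rw [hΩ, ncard_image_list obj _ hJnd (fun a ha b hb => hinj a (hJsub a ha) b (hJsub b hb)),
      List.length_flatten]
  have hdvd : (J'.map List.length).sum ∣ Nat.card G := by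
    rw [← hcardΩ, ← MulAction.index_stabilizer]
    exact Subgroup.index_dvd_card _
  have hmem : J'.map List.length ∈ ns.sublists := by
    rw [List.mem_sublists, ← hlen]
    exact hsub.map _
  have hle := hchk _ hmem hdvd
  rw [List.length_map] at hle
  have hJ1 : J' = [L] := by
    match J', hLJ, hle with
    | [a], h1, _ =>
      simp only [List.mem_singleton] at h1
      rw [h1]
    | a :: b :: t, _, h2 => simp at h2
  rw [hΩ, hJ1]
  simp

end

def decN (N n w : ℕ) : List ℕ := (List.range n).map (fun i => (N >>> (w * i)) &&& (2 ^ w - 1))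

end Cfsg.Agent.Lib.Helper28.Walk
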