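import Mathlib
import Cfsg.Agent.Lib.Helper28.M24Fix
import Cfsg.Agent.Lib.Helper28.Walk
import Cfsg.Agent.Lib.Helper3.M24Orb
import Cfsg.Agent.Lib.Helper3.Coatom

set_option autoImplicit false

open Cfsg

namespace Cfsg.Agent.Lib.Helper28.M24Stab

open Cfsg.Agent.Lib.Helper3.Golay Cfsg.Agent.Lib.Helper3.Golay2
  Cfsg.Agent.Lib.Helper3.GolayM24 Cfsg.Agent.Lib.Helper3.Steiner
  Cfsg.Agent.Lib.Helper28.M24Trans Cfsg.Agent.Lib.Helper28.M24Six
  Cfsg.Agent.Lib.Helper28.M24Enum Cfsg.Agent.Lib.Helper28.M24Class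
  Cfsg.Agent.Lib.Helper28.M24Mask Cfsg.Agent.Lib.Helper28.M24Sext
  Cfsg.Agent.Lib.Helper28.M24Fix Cfsg.Agent.Lib.Helper28.Walk
open scoped Pointwise

/-- the stabiliser in `M24` of an object, as a subgroup of the permutation group -/
def stabP {β : Type*} [MulAction (Equiv.Perm GolayPt) β] (O : β) : Subgroup (Equiv.Perm GolayPt) :=
  M24 ⊓ MulAction.stabilizer (Equiv.Perm GolayPt) O

theorem mem_stabP {β : Type*} [MulAction (Equiv.Perm GolayPt) β] {O : β}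
    {g : Equiv.Perm GolayPt} : g ∈ stabP O ↔ g ∈ M24 ∧ g • O = O := by
  unfold stabP
  rw [Subgroup.mem_inf]
  exact and_congr Iff.rfl MulAction.mem_stabilizer_iff

def relG {X : Type*} (gens : List ℕ) (relB : (ℕ → ℕ) → X → X → Bool) (j : ℕ) (p c : X) : Bool :=
  match gens[j]? with
  | some t => relB (dig t) p c
  | none => false

theorem walk_orbit {β α X : Type*} [MulAction (Equiv.Perm GolayPt) β]
    [MulAction (Equiv.Perm GolayPt) α]
    (O : β) (gens : List ℕ) (hgens : ∀ t ∈ gens, vldB t = true ∧ P t ∈ stabP O)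
    (obj : X → α) (ok : X → Prop) (relB : (ℕ → ℕ) → X → X → Bool)
    (hrel : ∀ (g : Equiv.Perm GolayPt) (F : ℕ → ℕ), g ∈ M24 → IsIdxFn g F → ∀ p c,
      relB F p c = true → ok p → ok c ∧ g • obj p = obj c)
    (G : ℕ) (L : List X) (fl : List ℕ)
    (hw : walk0 (relG gens relB) G L fl = true)
    (hok0 : ∀ x₀, L.head? = some x₀ → ok x₀) :
    ∀ x ∈ L, ∀ y ∈ L, ok y ∧ obj y ∈ MulAction.orbit ↥(stabP O) (obj x) := by
  cases L with
  | nil => simp
  | cons x₀ xs =>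
    have h0 : ok x₀ := hok0 x₀ rfl
    have key : ∀ z ∈ x₀ :: xs, ok z ∧ obj z ∈ MulAction.orbit ↥(stabP O) (obj x₀) := by
      apply walk0_sound (good := fun z => ok z ∧ obj z ∈ MulAction.orbit ↥(stabP O) (obj x₀))
        _ G (x₀ :: xs) fl hw
      · intro z hz
        simp only [List.head?_cons, Option.some.injEq] at hz
        subst hz
        exact ⟨h0, MulAction.mem_orbit_self _⟩
      · intro j p c hr hp
        unfold relG at hr
        split at hr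
        · rename_i t ht
          have htm : t ∈ gens := List.mem_of_getElem? ht
          obtain ⟨hv, hs⟩ := hgens t htm
          have hs' := mem_stabP.mp hs
          obtain ⟨hc, e⟩ := hrel (P t) (dig t) hs'.1 (isIdx_P hv) p c hr hp.1
          refine ⟨hc, ?_⟩
          obtain ⟨g, eg⟩ := hp.2
          refine ⟨⟨P t, hs⟩ * g, ?_⟩
          show (P t * (g : Equiv.Perm GolayPt)) • obj x₀ = obj c
          rw [mul_smul]
          have eg' : (g : Equiv.Perm GolayPt) • obj x₀ = obj p := eg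
          rw [eg', e]
        · exact absurd hr (by simp)
    intro x hx y hy
    refine ⟨(key y hy).1, ?_⟩
    obtain ⟨g₁, e₁⟩ := (key x hx).2
    obtain ⟨g₂, e₂⟩ := (key y hy).2
    refine ⟨g₂ * g₁⁻¹, ?_⟩
    have e₁' : (g₁ : Equiv.Perm GolayPt) • obj x₀ = obj x := e₁
    have e₂' : (g₂ : Equiv.Perm GolayPt) • obj x₀ = obj y := e₂
    show ((g₂ : Equiv.Perm GolayPt) * (g₁ : Equiv.Perm GolayPt)⁻¹) • obj x = obj y
    rw [mul_smul, ← e₁', inv_smul_smul, e₂']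

/-! ### octads -/

def okO (k : ℕ) : Bool := Nat.blt k 4096 && Nat.beq (pc (cw k)) 8

theorem okO_iff {k : ℕ} : okO k = true ↔ k ∈ octL := by
  unfold okO
  rw [mem_octL, Bool.and_eq_true, Nat.blt_eq]
  constructor
  · rintro ⟨h1, h2⟩
    exact ⟨h1, Nat.eq_of_beq_eq_true h2⟩
  · rintro ⟨h1, h2⟩
    refine ⟨h1, ?_⟩
    rw [h2]
    rfl

def relO (F : ℕ → ℕ) (p c : ℕ) : Bool := Nat.beq (imgM F (cw p)) (cw c) && okO c

theorem relO_sound (g : Equiv.Perm GolayPt) (F : ℕ → ℕ) (_ : g ∈ M24) (hF : IsIdxFn g F)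
    (p c : ℕ) (h : relO F p c = true) (_ : p ∈ octL) : c ∈ octL ∧ g • supp p = supp c := by
  unfold relO at h
  rw [Bool.and_eq_true] at h
  refine ⟨okO_iff.mp h.2, ?_⟩
  rw [smul_eq_iff hF, msk_supp_k, msk_supp_k]
  exact Nat.eq_of_beq_eq_true h.1

theorem injO (x x' : ℕ) (hx : x ∈ octL) (hx' : x' ∈ octL) (h : supp x = supp x') : x = x' :=
  supp_injOn x (mem_octL.mp hx).1 x' (mem_octL.mp hx').1 h

/-! ### trios -/

def okT (x : ℕ × ℕ) : Bool := okO x.1 && okO x.2 && trioC x.1 x.2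

theorem okT_iff {x : ℕ × ℕ} : okT x = true ↔ x ∈ trioIdx := by
  unfold okT trioC
  rw [mem_trioIdx]
  simp only [Bool.and_eq_true, Nat.blt_eq, okO_iff]
  constructor
  · rintro ⟨⟨h1, h2⟩, ⟨h3, h4⟩, h5⟩
    exact ⟨h1, h2, h3, Nat.eq_of_beq_eq_true h4, h5⟩
  · rintro ⟨h1, h2, h3, h4, h5⟩
    refine ⟨⟨h1, h2⟩, ⟨h3, ?_⟩, h5⟩
    rw [h4]
    rfl

def relT (F : ℕ → ℕ) (p c : ℕ × ℕ) : Bool :=
  mem3 (cw c.1) (cw c.2) (cw (k3 c.1 c.2)) (imgM F (cw p.1)) &&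
  mem3 (cw c.1) (cw c.2) (cw (k3 c.1 c.2)) (imgM F (cw p.2)) &&
  mem3 (cw c.1) (cw c.2) (cw (k3 c.1 c.2)) (imgM F (cw (k3 p.1 p.2))) && okT c

theorem relT_sound (g : Equiv.Perm GolayPt) (F : ℕ → ℕ) (_ : g ∈ M24) (hF : IsIdxFn g F)
    (p c : ℕ × ℕ) (h : relT F p c = true) (hp : p ∈ trioIdx) :
    c ∈ trioIdx ∧ g • trioOf p = trioOf c := by
  unfold relT at h
  rw [Bool.and_eq_true, Bool.and_eq_true, Bool.and_eq_true, ← mem3_iff hF, ← mem3_iff hF,
    ← mem3_iff hF] at h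
  obtain ⟨⟨⟨h1, h2⟩, h3⟩, h4⟩ := h
  have hc : c ∈ trioIdx := okT_iff.mp h4
  refine ⟨hc, ?_⟩
  apply Finset.eq_of_subset_of_card_le
  · intro o ho
    obtain ⟨o', ho', rfl⟩ := Finset.mem_smul_finset.mp ho
    unfold trioOf at ho'
    simp only [Finset.mem_insert, Finset.mem_singleton] at ho'
    rcases ho' with rfl | rfl | rfl
    · exact h1
    · exact h2
    · exact h3
  · rw [Finset.card_smul_finset, (trioOf_mem hp).1, (trioOf_mem hc).1]

def codeT (x : ℕ × ℕ) : ℕ := x.1 * 4096 + x.2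

/-! ### sextets -/

def okS (x : ℕ × ℕ × ℕ) : Bool := Nat.blt x.2.2 x.2.1 && Nat.blt x.2.1 x.1 && Nat.blt x.1 23

theorem okS_iff {x : ℕ × ℕ × ℕ} : okS x = true ↔ x ∈ sexIdx := by
  unfold okS
  rw [mem_sexIdx]
  simp only [Bool.and_eq_true, Nat.blt_eq]
  tauto

def sexSame (m m' : ℕ) : Bool := Nat.beq m m' || (Nat.beq (m &&& m') 0 && isCode (m ||| m'))

theorem mem_sextetOf {t u : Finset GolayPt} (h : u = t ∨ (Disjoint u t ∧ u ∪ t ∈ octads)) :
    u ∈ sextetOf t := by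
  unfold sextetOf
  rw [Finset.mem_insert, Finset.mem_image]
  rcases h with h | ⟨hd, ho⟩
  · exact Or.inl h
  · exact Or.inr ⟨u ∪ t, mem_octThrough.mpr ⟨ho, Finset.subset_union_right⟩,
      Finset.union_sdiff_cancel_right hd⟩

theorem smul_sextetOf {g : Equiv.Perm GolayPt} (hg : g ∈ M24) {t : Finset GolayPt}
    (ht : t.card = 4) : g • sextetOf t = sextetOf (g • t) :=
  sextet_eq (smul_sextet hg (sextetOf_mem ht))
    (Finset.smul_mem_smul_finset (Finset.mem_insert_self _ _))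

theorem sexSame_sound {t u : Finset GolayPt} (ht : t.card = 4) (hu : u.card = 4)
    (h : sexSame (msk u) (msk t) = true) : sextetOf u = sextetOf t := by
  have hm : u ∈ sextetOf t := by
    apply mem_sextetOf
    unfold sexSame at h
    rw [Bool.or_eq_true, Bool.and_eq_true] at h
    rcases h with h | ⟨h1, h2⟩
    · exact Or.inl (msk_inj (Nat.eq_of_beq_eq_true h))
    · right
      have hd : Disjoint u t := by
        rw [Finset.disjoint_iff_inter_eq_empty]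
        apply msk_inj
        rw [msk_empty, msk_inter]
        exact Nat.eq_of_beq_eq_true h1
      refine ⟨hd, ?_⟩
      rw [mem_octads_iff, card_msk, msk_union]
      refine ⟨h2, ?_⟩
      rw [Finset.card_union_of_disjoint hd, hu, ht]
  exact (sextet_eq (sextetOf_mem ht) hm).symm

def relS (F : ℕ → ℕ) (p c : ℕ × ℕ × ℕ) : Bool := sexSame (imgM F (tetM p)) (tetM c) && okS c

theorem relS_sound (g : Equiv.Perm GolayPt) (F : ℕ → ℕ) (hg : g ∈ M24) (hF : IsIdxFn g F)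
    (p c : ℕ × ℕ × ℕ) (h : relS F p c = true) (hp : p ∈ sexIdx) :
    c ∈ sexIdx ∧ g • sextetOf (tetF p) = sextetOf (tetF c) := by
  unfold relS at h
  rw [Bool.and_eq_true] at h
  have hc : c ∈ sexIdx := okS_iff.mp h.2
  refine ⟨hc, ?_⟩
  rw [smul_sextetOf hg (card_tetF hp)]
  apply sexSame_sound (card_tetF hc) (by rw [Finset.card_smul_finset, card_tetF hp])
  rw [msk_smul hF, msk_tetF hp, msk_tetF hc]
  exact h.1

def codeS (x : ℕ × ℕ × ℕ) : ℕ := x.1 * 1024 + x.2.1 * 32 + x.2.2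

/-! ### decoders -/

def decO (N n : ℕ) : List ℕ := decN N n 12

def decT (N n : ℕ) : List (ℕ × ℕ) := (decN N n 24).map (fun v => (v >>> 12, v &&& 4095))

def decS (N n : ℕ) : List (ℕ × ℕ × ℕ) :=
  (decN N n 15).map (fun v => (v >>> 10, (v >>> 5) &&& 31, v &&& 31))

/-! ### orbit packaging -/

theorem orbits_core {β α X : Type*} [MulAction (Equiv.Perm GolayPt) β]
    [MulAction (Equiv.Perm GolayPt) α] [Finite α]
    (O : β) (A : Set α) (hAinv : ∀ g ∈ M24, ∀ a ∈ A, g • a ∈ A)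
    (obj : X → α) (code : X → ℕ) (ok : X → Prop)
    (hokA : ∀ x, ok x → obj x ∈ A)
    (hinj : ∀ x x', ok x → ok x' → obj x = obj x' → x = x')
    (Ls : List (List X)) (ns : List ℕ)
    (horb : ∀ L ∈ Ls, ∀ x ∈ L, ∀ y ∈ L, ok y ∧ obj y ∈ MulAction.orbit ↥(stabP O) (obj x))
    (hnd : nodupB code Ls.flatten 0 = true)
    (hlen : Ls.map List.length = ns)
    (hcard : A.ncard = ns.sum)
    (hchk : ∀ J ∈ ns.sublists, J.sum ∣ Nat.card ↥(stabP O) → J.length ≤ 1) :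
    (∀ L ∈ Ls, ∀ x ∈ L, MulAction.orbit ↥(stabP O) (obj x) = obj '' {y | y ∈ L}) ∧
    (∀ L ∈ Ls, (obj '' {y | y ∈ L}).ncard = L.length) ∧
    A = obj '' {y | y ∈ Ls.flatten} := by
  have hok : ∀ L ∈ Ls, ∀ x ∈ L, ok x ∧ obj x ∈ A := by
    intro L hL x hx
    have := (horb L hL x hx x hx).1
    exact ⟨this, hokA x this⟩
  obtain ⟨c1, c2, c3⟩ := cover_of_cert A (Set.toFinite A) obj code ok
    (fun x x' hx hx' e => by rw [hinj x x' hx hx' e]) Ls ns hok (nodupB_sound code _ 0 hnd).1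
    hlen hcard
  refine ⟨?_, ?_, c3⟩
  · apply orbits_of_cert A _ obj Ls ns c3 c1 c2 _ hlen hchk
    · intro g a ha
      exact hAinv (g : Equiv.Perm GolayPt) (mem_stabP.mp g.2).1 a ha
    · intro L hL x hx y hy
      exact (horb L hL x hx y hy).2
  · intro L hL
    have hsub : ∀ z ∈ L, z ∈ Ls.flatten := fun z hz => List.mem_flatten.mpr ⟨L, hL, hz⟩
    apply ncard_image_list obj L ((List.nodup_flatten.mp c1).1 L hL)
    intro a ha b hb e
    exact c2 a (hsub a ha) b (hsub b hb) e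

theorem head_mem {X : Type*} {L : List X} {n : ℕ} (h : L.length = n) (hn : 0 < n) :
    ∃ x, x ∈ L ∧ L.head? = some x := by
  cases L with
  | nil => simp at h; omega
  | cons a t => exact ⟨a, by simp, rfl⟩

theorem three_orbits {β α X : Type*} [MulAction (Equiv.Perm GolayPt) β]
    [MulAction (Equiv.Perm GolayPt) α] [Finite α]
    (O : β) (A : Set α) (hAinv : ∀ g ∈ M24, ∀ a ∈ A, g • a ∈ A)
    (obj : X → α) (code : X → ℕ) (ok : X → Prop)
    (hokA : ∀ x, ok x → obj x ∈ A)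
    (hinj : ∀ x x', ok x → ok x' → obj x = obj x' → x = x')
    (L₁ L₂ L₃ : List X) (n₁ n₂ n₃ : ℕ)
    (horb : ∀ L ∈ [L₁, L₂, L₃], ∀ x ∈ L, ∀ y ∈ L,
      ok y ∧ obj y ∈ MulAction.orbit ↥(stabP O) (obj x))
    (hnd : nodupB code [L₁, L₂, L₃].flatten 0 = true)
    (hlen : [L₁, L₂, L₃].map List.length = [n₁, n₂, n₃])
    (hcard : A.ncard = [n₁, n₂, n₃].sum)
    (hchk : ∀ J ∈ [n₁, n₂, n₃].sublists, J.sum ∣ Nat.card ↥(stabP O) → J.length ≤ 1)
    (hpos : 0 < n₁ ∧ 0 < n₂ ∧ 0 < n₃) :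
    ∃ Y₁ ∈ A, ∃ Y₂ ∈ A, ∃ Y₃ ∈ A,
      (MulAction.orbit ↥(stabP O) Y₁).ncard = n₁ ∧ (MulAction.orbit ↥(stabP O) Y₂).ncard = n₂ ∧
      (MulAction.orbit ↥(stabP O) Y₃).ncard = n₃ ∧
      A = MulAction.orbit ↥(stabP O) Y₁ ∪ MulAction.orbit ↥(stabP O) Y₂ ∪
        MulAction.orbit ↥(stabP O) Y₃ := by
  obtain ⟨c1, c2, c3⟩ := orbits_core O A hAinv obj code ok hokA hinj [L₁, L₂, L₃] [n₁, n₂, n₃]
    horb hnd hlen hcard hchk
  simp only [List.map_cons, List.map_nil, List.cons.injEq, and_true] at hlen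
  obtain ⟨l1, l2, l3⟩ := hlen
  obtain ⟨x₁, m₁, -⟩ := head_mem l1 hpos.1
  obtain ⟨x₂, m₂, -⟩ := head_mem l2 hpos.2.1
  obtain ⟨x₃, m₃, -⟩ := head_mem l3 hpos.2.2
  have i1 : L₁ ∈ [L₁, L₂, L₃] := by simp
  have i2 : L₂ ∈ [L₁, L₂, L₃] := by simp
  have i3 : L₃ ∈ [L₁, L₂, L₃] := by simp
  refine ⟨obj x₁, hokA _ (horb L₁ i1 x₁ m₁ x₁ m₁).1, obj x₂, hokA _ (horb L₂ i2 x₂ m₂ x₂ m₂).1,
    obj x₃, hokA _ (horb L₃ i3 x₃ m₃ x₃ m₃).1, ?_, ?_, ?_, ?_⟩
  · rw [c1 L₁ i1 x₁ m₁, c2 L₁ i1, l1]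
  · rw [c1 L₂ i2 x₂ m₂, c2 L₂ i2, l2]
  · rw [c1 L₃ i3 x₃ m₃, c2 L₃ i3, l3]
  · rw [c1 L₁ i1 x₁ m₁, c1 L₂ i2 x₂ m₂, c1 L₃ i3 x₃ m₃, c3]
    ext a
    simp only [List.flatten_cons, List.flatten_nil, List.append_nil, List.mem_append,
      Set.mem_image, Set.mem_ofPred_eq, Set.mem_union]
    constructor
    · rintro ⟨y, (hy | hy | hy), rfl⟩
      · exact Or.inl (Or.inl ⟨y, hy, rfl⟩)
      · exact Or.inl (Or.inr ⟨y, hy, rfl⟩)
      · exact Or.inr ⟨y, hy, rfl⟩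
    · rintro ((⟨y, hy, rfl⟩ | ⟨y, hy, rfl⟩) | ⟨y, hy, rfl⟩)
      · exact ⟨y, Or.inl hy, rfl⟩
      · exact ⟨y, Or.inr (Or.inl hy), rfl⟩
      · exact ⟨y, Or.inr (Or.inr hy), rfl⟩

theorem four_orbits {β α X : Type*} [MulAction (Equiv.Perm GolayPt) β]
    [MulAction (Equiv.Perm GolayPt) α] [Finite α]
    (O : β) (A : Set α) (hAinv : ∀ g ∈ M24, ∀ a ∈ A, g • a ∈ A)
    (obj : X → α) (code : X → ℕ) (ok : X → Prop)
    (hokA : ∀ x, ok x → obj x ∈ A)
    (hinj : ∀ x x', ok x → ok x' → obj x = obj x' → x = x')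
    (L₁ L₂ L₃ L₄ : List X) (n₁ n₂ n₃ n₄ : ℕ)
    (horb : ∀ L ∈ [L₁, L₂, L₃, L₄], ∀ x ∈ L, ∀ y ∈ L,
      ok y ∧ obj y ∈ MulAction.orbit ↥(stabP O) (obj x))
    (hnd : nodupB code [L₁, L₂, L₃, L₄].flatten 0 = true)
    (hlen : [L₁, L₂, L₃, L₄].map List.length = [n₁, n₂, n₃, n₄])
    (hcard : A.ncard = [n₁, n₂, n₃, n₄].sum)
    (hchk : ∀ J ∈ [n₁, n₂, n₃, n₄].sublists, J.sum ∣ Nat.card ↥(stabP O) → J.length ≤ 1)
    (hpos : 0 < n₁ ∧ 0 < n₂ ∧ 0 < n₃ ∧ 0 < n₄) :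
    ∃ Y₁ ∈ A, ∃ Y₂ ∈ A, ∃ Y₃ ∈ A, ∃ Y₄ ∈ A,
      (MulAction.orbit ↥(stabP O) Y₁).ncard = n₁ ∧ (MulAction.orbit ↥(stabP O) Y₂).ncard = n₂ ∧
      (MulAction.orbit ↥(stabP O) Y₃).ncard = n₃ ∧ (MulAction.orbit ↥(stabP O) Y₄).ncard = n₄ ∧
      A = MulAction.orbit ↥(stabP O) Y₁ ∪ MulAction.orbit ↥(stabP O) Y₂ ∪
        MulAction.orbit ↥(stabP O) Y₃ ∪ MulAction.orbit ↥(stabP O) Y₄ := by
  obtain ⟨c1, c2, c3⟩ := orbits_core O A hAinv obj code ok hokA hinj [L₁, L₂, L₃, L₄]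
    [n₁, n₂, n₃, n₄] horb hnd hlen hcard hchk
  simp only [List.map_cons, List.map_nil, List.cons.injEq, and_true] at hlen
  obtain ⟨l1, l2, l3, l4⟩ := hlen
  obtain ⟨x₁, m₁, -⟩ := head_mem l1 hpos.1
  obtain ⟨x₂, m₂, -⟩ := head_mem l2 hpos.2.1
  obtain ⟨x₃, m₃, -⟩ := head_mem l3 hpos.2.2.1
  obtain ⟨x₄, m₄, -⟩ := head_mem l4 hpos.2.2.2
  have i1 : L₁ ∈ [L₁, L₂, L₃, L₄] := by simp
  have i2 : L₂ ∈ [L₁, L₂, L₃, L₄] := by simp
  have i3 : L₃ ∈ [L₁, L₂, L₃, L₄] := by simp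
  have i4 : L₄ ∈ [L₁, L₂, L₃, L₄] := by simp
  refine ⟨obj x₁, hokA _ (horb L₁ i1 x₁ m₁ x₁ m₁).1, obj x₂, hokA _ (horb L₂ i2 x₂ m₂ x₂ m₂).1,
    obj x₃, hokA _ (horb L₃ i3 x₃ m₃ x₃ m₃).1, obj x₄, hokA _ (horb L₄ i4 x₄ m₄ x₄ m₄).1,
    ?_, ?_, ?_, ?_, ?_⟩
  · rw [c1 L₁ i1 x₁ m₁, c2 L₁ i1, l1]
  · rw [c1 L₂ i2 x₂ m₂, c2 L₂ i2, l2]
  · rw [c1 L₃ i3 x₃ m₃, c2 L₃ i3, l3]
  · rw [c1 L₄ i4 x₄ m₄, c2 L₄ i4, l4]
  · rw [c1 L₁ i1 x₁ m₁, c1 L₂ i2 x₂ m₂, c1 L₃ i3 x₃ m₃, c1 L₄ i4 x₄ m₄, c3]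
    ext a
    simp only [List.flatten_cons, List.flatten_nil, List.append_nil, List.mem_append,
      Set.mem_image, Set.mem_ofPred_eq, Set.mem_union]
    constructor
    · rintro ⟨y, (hy | hy | hy | hy), rfl⟩
      · exact Or.inl (Or.inl (Or.inl ⟨y, hy, rfl⟩))
      · exact Or.inl (Or.inl (Or.inr ⟨y, hy, rfl⟩))
      · exact Or.inl (Or.inr ⟨y, hy, rfl⟩)
      · exact Or.inr ⟨y, hy, rfl⟩
    · rintro (((⟨y, hy, rfl⟩ | ⟨y, hy, rfl⟩) | ⟨y, hy, rfl⟩) | ⟨y, hy, rfl⟩)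
      · exact ⟨y, Or.inl hy, rfl⟩
      · exact ⟨y, Or.inr (Or.inl hy), rfl⟩
      · exact ⟨y, Or.inr (Or.inr (Or.inl hy)), rfl⟩
      · exact ⟨y, Or.inr (Or.inr (Or.inr hy)), rfl⟩

/-! ### transport to a conjugate object -/

theorem orbit_transport {β α : Type*} [MulAction (Equiv.Perm GolayPt) β]
    [MulAction (Equiv.Perm GolayPt) α] [MulAction ↥M24 β]
    (hβ : ∀ (g : ↥M24) (b : β), g • b = (g : Equiv.Perm GolayPt) • b)
    (O : β) (h : Equiv.Perm GolayPt) (hh : h ∈ M24)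
    [MulAction ↥(MulAction.stabilizer ↥M24 (h • O)) α]
    (hα : ∀ (g : ↥(MulAction.stabilizer ↥M24 (h • O))) (a : α),
      g • a = ((g : ↥M24) : Equiv.Perm GolayPt) • a)
    (Y : α) :
    MulAction.orbit ↥(MulAction.stabilizer ↥M24 (h • O)) (h • Y) =
      (fun a => h • a) '' MulAction.orbit ↥(stabP O) Y := by
  ext a
  constructor
  · rintro ⟨g, rfl⟩
    have hg : ((g : ↥M24) : Equiv.Perm GolayPt) • (h • O) = h • O := by
      have := MulAction.mem_stabilizer_iff.mp g.2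
      rw [hβ] at this
      exact this
    have hmem : h⁻¹ * ((g : ↥M24) : Equiv.Perm GolayPt) * h ∈ stabP O := by
      rw [mem_stabP]
      refine ⟨M24.mul_mem (M24.mul_mem (M24.inv_mem hh) (g : ↥M24).2) hh, ?_⟩
      rw [mul_smul, mul_smul, hg, inv_smul_smul]
    refine ⟨(h⁻¹ * ((g : ↥M24) : Equiv.Perm GolayPt) * h) • Y, ⟨⟨_, hmem⟩, rfl⟩, ?_⟩
    show h • (h⁻¹ * ((g : ↥M24) : Equiv.Perm GolayPt) * h) • Y = g • h • Y
    rw [hα, mul_smul, mul_smul, smul_inv_smul]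
  · rintro ⟨b, ⟨g', rfl⟩, rfl⟩
    have hg' := mem_stabP.mp g'.2
    have hm : h * (g' : Equiv.Perm GolayPt) * h⁻¹ ∈ M24 :=
      M24.mul_mem (M24.mul_mem hh hg'.1) (M24.inv_mem hh)
    have hst : (⟨_, hm⟩ : ↥M24) ∈ MulAction.stabilizer ↥M24 (h • O) := by
      rw [MulAction.mem_stabilizer_iff, hβ]
      show (h * (g' : Equiv.Perm GolayPt) * h⁻¹) • h • O = h • O
      rw [mul_smul, mul_smul, inv_smul_smul, hg'.2]
    refine ⟨⟨_, hst⟩, ?_⟩
    show (⟨_, hst⟩ : ↥(MulAction.stabilizer ↥M24 (h • O))) • h • Y = h • (g' : Equiv.Perm GolayPt) • Y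
    rw [hα]
    show (h * (g' : Equiv.Perm GolayPt) * h⁻¹) • h • Y = h • (g' : Equiv.Perm GolayPt) • Y
    rw [mul_smul, mul_smul, inv_smul_smul]

theorem image_smul_eq {α : Type*} [MulAction (Equiv.Perm GolayPt) α] (A : Set α)
    (hA : ∀ g ∈ M24, ∀ a ∈ A, g • a ∈ A) (h : Equiv.Perm GolayPt) (hh : h ∈ M24) :
    (fun a => h • a) '' A = A := by
  ext a
  constructor
  · rintro ⟨b, hb, rfl⟩
    exact hA h hh b hb
  · intro ha
    exact ⟨h⁻¹ • a, hA h⁻¹ (M24.inv_mem hh) a ha, smul_inv_smul h a⟩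

theorem transport3 {β α : Type*} [MulAction (Equiv.Perm GolayPt) β]
    [MulAction (Equiv.Perm GolayPt) α] [MulAction ↥M24 β]
    (hβ : ∀ (g : ↥M24) (b : β), g • b = (g : Equiv.Perm GolayPt) • b)
    (O : β) (h : Equiv.Perm GolayPt) (hh : h ∈ M24)
    [MulAction ↥(MulAction.stabilizer ↥M24 (h • O)) α]
    (hα : ∀ (g : ↥(MulAction.stabilizer ↥M24 (h • O))) (a : α),
      g • a = ((g : ↥M24) : Equiv.Perm GolayPt) • a)
    (A : Set α) (hA : ∀ g ∈ M24, ∀ a ∈ A, g • a ∈ A) {n₁ n₂ n₃ : ℕ}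
    (H : ∃ Y₁ ∈ A, ∃ Y₂ ∈ A, ∃ Y₃ ∈ A,
      (MulAction.orbit ↥(stabP O) Y₁).ncard = n₁ ∧ (MulAction.orbit ↥(stabP O) Y₂).ncard = n₂ ∧
      (MulAction.orbit ↥(stabP O) Y₃).ncard = n₃ ∧
      A = MulAction.orbit ↥(stabP O) Y₁ ∪ MulAction.orbit ↥(stabP O) Y₂ ∪
        MulAction.orbit ↥(stabP O) Y₃) :
    ∃ X₁ ∈ A, ∃ X₂ ∈ A, ∃ X₃ ∈ A,
      (MulAction.orbit ↥(MulAction.stabilizer ↥M24 (h • O)) X₁).ncard = n₁ ∧
      (MulAction.orbit ↥(MulAction.stabilizer ↥M24 (h • O)) X₂).ncard = n₂ ∧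
      (MulAction.orbit ↥(MulAction.stabilizer ↥M24 (h • O)) X₃).ncard = n₃ ∧
      A = MulAction.orbit ↥(MulAction.stabilizer ↥M24 (h • O)) X₁ ∪
        MulAction.orbit ↥(MulAction.stabilizer ↥M24 (h • O)) X₂ ∪
        MulAction.orbit ↥(MulAction.stabilizer ↥M24 (h • O)) X₃ := by
  obtain ⟨Y₁, m₁, Y₂, m₂, Y₃, m₃, c₁, c₂, c₃, e⟩ := H
  have hinj : Function.Injective (fun a : α => h • a) := MulAction.injective h
  refine ⟨h • Y₁, hA h hh _ m₁, h • Y₂, hA h hh _ m₂, h • Y₃, hA h hh _ m₃, ?_, ?_, ?_, ?_⟩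
  · rw [orbit_transport hβ O h hh hα, Set.ncard_image_of_injective _ hinj, c₁]
  · rw [orbit_transport hβ O h hh hα, Set.ncard_image_of_injective _ hinj, c₂]
  · rw [orbit_transport hβ O h hh hα, Set.ncard_image_of_injective _ hinj, c₃]
  · rw [orbit_transport hβ O h hh hα, orbit_transport hβ O h hh hα, orbit_transport hβ O h hh hα,
      ← Set.image_union, ← Set.image_union, ← e, image_smul_eq A hA h hh]

theorem transport4 {β α : Type*} [MulAction (Equiv.Perm GolayPt) β]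
    [MulAction (Equiv.Perm GolayPt) α] [MulAction ↥M24 β]
    (hβ : ∀ (g : ↥M24) (b : β), g • b = (g : Equiv.Perm GolayPt) • b)
    (O : β) (h : Equiv.Perm GolayPt) (hh : h ∈ M24)
    [MulAction ↥(MulAction.stabilizer ↥M24 (h • O)) α]
    (hα : ∀ (g : ↥(MulAction.stabilizer ↥M24 (h • O))) (a : α),
      g • a = ((g : ↥M24) : Equiv.Perm GolayPt) • a)
    (A : Set α) (hA : ∀ g ∈ M24, ∀ a ∈ A, g • a ∈ A) {n₁ n₂ n₃ n₄ : ℕ}
    (H : ∃ Y₁ ∈ A, ∃ Y₂ ∈ A, ∃ Y₃ ∈ A, ∃ Y₄ ∈ A,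
      (MulAction.orbit ↥(stabP O) Y₁).ncard = n₁ ∧ (MulAction.orbit ↥(stabP O) Y₂).ncard = n₂ ∧
      (MulAction.orbit ↥(stabP O) Y₃).ncard = n₃ ∧ (MulAction.orbit ↥(stabP O) Y₄).ncard = n₄ ∧
      A = MulAction.orbit ↥(stabP O) Y₁ ∪ MulAction.orbit ↥(stabP O) Y₂ ∪
        MulAction.orbit ↥(stabP O) Y₃ ∪ MulAction.orbit ↥(stabP O) Y₄) :
    ∃ X₁ ∈ A, ∃ X₂ ∈ A, ∃ X₃ ∈ A, ∃ X₄ ∈ A,
      (MulAction.orbit ↥(MulAction.stabilizer ↥M24 (h • O)) X₁).ncard = n₁ ∧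
      (MulAction.orbit ↥(MulAction.stabilizer ↥M24 (h • O)) X₂).ncard = n₂ ∧
      (MulAction.orbit ↥(MulAction.stabilizer ↥M24 (h • O)) X₃).ncard = n₃ ∧
      (MulAction.orbit ↥(MulAction.stabilizer ↥M24 (h • O)) X₄).ncard = n₄ ∧
      A = MulAction.orbit ↥(MulAction.stabilizer ↥M24 (h • O)) X₁ ∪
        MulAction.orbit ↥(MulAction.stabilizer ↥M24 (h • O)) X₂ ∪
        MulAction.orbit ↥(MulAction.stabilizer ↥M24 (h • O)) X₃ ∪
        MulAction.orbit ↥(MulAction.stabilizer ↥M24 (h • O)) X₄ := by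
  obtain ⟨Y₁, m₁, Y₂, m₂, Y₃, m₃, Y₄, m₄, c₁, c₂, c₃, c₄, e⟩ := H
  have hinj : Function.Injective (fun a : α => h • a) := MulAction.injective h
  refine ⟨h • Y₁, hA h hh _ m₁, h • Y₂, hA h hh _ m₂, h • Y₃, hA h hh _ m₃, h • Y₄,
    hA h hh _ m₄, ?_, ?_, ?_, ?_, ?_⟩
  · rw [orbit_transport hβ O h hh hα, Set.ncard_image_of_injective _ hinj, c₁]
  · rw [orbit_transport hβ O h hh hα, Set.ncard_image_of_injective _ hinj, c₂]
  · rw [orbit_transport hβ O h hh hα, Set.ncard_image_of_injective _ hinj, c₃]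
  · rw [orbit_transport hβ O h hh hα, Set.ncard_image_of_injective _ hinj, c₄]
  · rw [orbit_transport hβ O h hh hα, orbit_transport hβ O h hh hα, orbit_transport hβ O h hh hα,
      orbit_transport hβ O h hh hα, ← Set.image_union, ← Set.image_union, ← Set.image_union, ← e,
      image_smul_eq A hA h hh]

/-! ### the standard objects: transitivity and stabiliser orders -/

theorem card_stabP {β : Type*} [MulAction (Equiv.Perm GolayPt) β] (O : β) (S : Set β)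
    (hsub : ∀ g ∈ M24, g • O ∈ S) (hsup : ∀ s ∈ S, ∃ g ∈ M24, g • O = s) :
    244823040 = S.ncard * Nat.card ↥(stabP O) := by
  have h := Cfsg.Agent.Lib.Helper3.Coatom.card_orbit_mul (G := Equiv.Perm GolayPt) M24 (stabP O) O S
    (fun g => mem_stabP) hsub hsup
  rw [card_M24] at h
  exact h

theorem trans_oct {o : Finset GolayPt} (ho : o ∈ octads) : ∃ h ∈ M24, h • supp 2503 = o := by
  obtain ⟨x₁, x₂, x₃, x₄, x₅, hnd, m1, m2, m3, m4, m5⟩ := take5 o (by rw [ho.2]; norm_num)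
  obtain ⟨h, hh, e1, e2, e3, e4, e5⟩ := trans5 x₁ x₂ x₃ x₄ x₅ hnd
  have hmem : ∀ {x : GolayPt}, x ∈ o → h x ∈ h • o := fun hx => Finset.smul_mem_smul_finset hx
  have hO : h • o = supp 2503 := by
    apply oct_unique (smul_octad hh ho)
    intro f hf
    simp only [List.mem_cons, List.not_mem_nil, or_false] at hf
    rcases hf with rfl | rfl | rfl | rfl | rfl
    · rw [← e1]; exact hmem m1
    · rw [← e2]; exact hmem m2
    · rw [← e3]; exact hmem m3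
    · rw [← e4]; exact hmem m4
    · rw [← e5]; exact hmem m5
  exact ⟨h⁻¹, M24.inv_mem hh, by rw [← hO, inv_smul_smul]⟩

theorem card_stab_oct : Nat.card ↥(stabP (supp 2503)) = 322560 := by
  have h := card_stabP (supp 2503) octads (fun g hg => smul_octad hg O0_octad)
    (fun s hs => trans_oct hs)
  rw [ncard_octads] at h
  omega

theorem ncard_sextets : sextets.ncard = 1771 := by
  rw [ncard_eq_length sextets sexIdx (fun x => sextetOf (tetF x)) nodup_sexIdx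
    (fun x hx y hy e => sextetOf_inj hx hy e) (fun S => mem_sextets_iff S)]
  decide +kernel

theorem ncard_trios : trios.ncard = 3795 := by
  rw [ncard_eq_length trios trioIdx trioOf nodup_trioIdx
    (fun x hx y hy e => trioOf_inj hx hy e)
    (fun T => ⟨fun h => exists_trioIdx h, by rintro ⟨x, hx, rfl⟩; exact trioOf_mem hx⟩)]
  decide +kernel

theorem trans_sext {S : Finset (Finset GolayPt)} (hS : S ∈ sextets) :
    ∃ h ∈ M24, h • sextetOf (tetF (2, 1, 0)) = S := by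
  have hne : S.Nonempty := by
    rw [← Finset.card_pos, hS.1]
    norm_num
  obtain ⟨t, ht⟩ := hne
  have ht4 := hS.2.1 t ht
  have hl : t.toList.length = 4 := by rw [Finset.length_toList, ht4]
  obtain ⟨e, he⟩ := exists_notMem t (by rw [ht4]; norm_num)
  have hnd0 := t.nodup_toList
  have hmem : ∀ x, x ∈ t.toList ↔ x ∈ t := fun x => Finset.mem_toList
  match hL : t.toList, hl with
  | [a, b, c, d], _ =>
    rw [hL] at hnd0 hmem
    have hnd5 : [a, b, c, d, e].Nodup := by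
      have : e ∉ [a, b, c, d] := fun h => he ((hmem e).mp h)
      simp only [List.nodup_cons, List.mem_cons, List.not_mem_nil, or_false, not_or,
        List.nodup_nil, and_true, not_false_eq_true] at hnd0 this ⊢
      obtain ⟨⟨h1, h2, h3⟩, ⟨h4, h5⟩, h6⟩ := hnd0
      obtain ⟨n1, n2, n3, n4⟩ := this
      exact ⟨⟨h1, h2, h3, fun h => n1 h.symm⟩, ⟨h4, h5, fun h => n2 h.symm⟩, ⟨h6, fun h => n3 h.symm⟩,
        fun h => n4 h.symm⟩
    obtain ⟨h, hh, e1, e2, e3, e4, e5⟩ := trans5 a b c d e hnd5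
    have et : h • t = tetF (2, 1, 0) := by
      ext p
      rw [Finset.mem_smul_finset]
      unfold tetF
      simp only [Finset.mem_insert, Finset.mem_singleton]
      constructor
      · rintro ⟨q, hq, rfl⟩
        have := (hmem q).mpr hq
        simp only [List.mem_cons, List.not_mem_nil, or_false] at this
        rcases this with rfl | rfl | rfl | rfl
        · left; exact e1
        · right; right; right; exact e2
        · right; right; left; exact e3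
        · right; left; exact e4
      · rintro (rfl | rfl | rfl | rfl)
        · exact ⟨a, (hmem a).mp (by simp), e1⟩
        · exact ⟨d, (hmem d).mp (by simp), e4⟩
        · exact ⟨c, (hmem c).mp (by simp), e3⟩
        · exact ⟨b, (hmem b).mp (by simp), e2⟩
    have key := sextet_eq (smul_sextet hh hS) (Finset.smul_mem_smul_finset (a := h) ht)
    rw [et] at key
    exact ⟨h⁻¹, M24.inv_mem hh, by rw [← key, inv_smul_smul]⟩

theorem S0_mem : sextetOf (tetF (2, 1, 0)) ∈ sextets :=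
  sextetOf_mem (card_tetF (mem_sexIdx.mpr (by decide)))

theorem card_stab_sext : Nat.card ↥(stabP (sextetOf (tetF (2, 1, 0)))) = 138240 := by
  have h := card_stabP (sextetOf (tetF (2, 1, 0))) sextets (fun g hg => smul_sextet hg S0_mem)
    (fun s hs => trans_sext hs)
  rw [ncard_sextets] at h
  omega

theorem trio_of_two {T : Finset (Finset GolayPt)} (hT : T ∈ trios) {a b : Finset GolayPt}
    (ha : a ∈ T) (hb : b ∈ T) (hab : a ≠ b) : T = {a, b, (a ∪ b)ᶜ} := by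
  have hd := hT.2.2 a ha b hb hab
  have hca := (hT.2.1 a ha).2
  have hcb := (hT.2.1 b hb).2
  have hcu : (a ∪ b).card = 16 := by rw [Finset.card_union_of_disjoint hd, hca, hcb]
  have hcc : ((a ∪ b)ᶜ).card = 8 := by
    rw [Finset.card_compl, hcu, card_golayPt]
  apply Finset.eq_of_subset_of_card_le
  · intro c hc
    simp only [Finset.mem_insert, Finset.mem_singleton]
    by_cases h1 : c = a
    · exact Or.inl h1
    by_cases h2 : c = b
    · exact Or.inr (Or.inl h2)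
    right; right
    have d1 := hT.2.2 c hc a ha h1
    have d2 := hT.2.2 c hc b hb h2
    apply Finset.eq_of_subset_of_card_le
    · intro p hp
      rw [Finset.mem_compl, Finset.mem_union]
      rintro (h | h)
      · exact Finset.disjoint_left.mp d1 hp h
      · exact Finset.disjoint_left.mp d2 hp h
    · rw [hcc, (hT.2.1 c hc).2]
  · rw [hT.1]
    exact Finset.card_le_three

theorem T0_mem : ((35, 484) : ℕ × ℕ) ∈ trioIdx := okT_iff.mp (by decide +kernel)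

theorem T0_eq : trioOf (35, 484) = {supp 2503, supp 35, (supp 2503 ∪ supp 35)ᶜ} := by
  apply trio_of_two (trioOf_mem T0_mem)
  · unfold trioOf
    have : k3 35 484 = 2503 := by decide
    simp [this]
  · unfold trioOf
    simp
  · intro h
    have := supp_injOn 2503 (by norm_num) 35 (by norm_num) h
    omega

theorem trans_trio {T : Finset (Finset GolayPt)} (hT : T ∈ trios) :
    ∃ h ∈ M24, h • trioOf (35, 484) = T := by
  have hne : T.Nonempty := by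
    rw [← Finset.card_pos, hT.1]
    norm_num
  obtain ⟨a, ha⟩ := hne
  obtain ⟨h₁, hh₁, e₁⟩ := trans_oct (hT.2.1 a ha)
  have hT' : h₁⁻¹ • T ∈ trios := smul_trio (M24.inv_mem hh₁) hT
  have ha' : supp 2503 ∈ h₁⁻¹ • T := by
    rw [Finset.mem_inv_smul_finset_iff, e₁]
    exact ha
  obtain ⟨b, hb, hne⟩ := Finset.exists_mem_ne (by rw [hT'.1]; norm_num : 1 < (h₁⁻¹ • T).card)
    (supp 2503)
  have hd := hT'.2.2 _ ha' b hb (Ne.symm hne)
  have hB : supp 35 ∈ octads := supp_mem_octads (by decide +kernel)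
  have hd0 : Disjoint (supp 2503) (supp 35) := by
    rw [disjoint_iff_msk, msk_supp_k, msk_supp_k]
    decide +kernel
  obtain ⟨g, hg, g1, g2⟩ := Cfsg.Agent.Lib.Helper3.M24Orb.octad_stab_orbits (supp 2503) b (supp 35)
    O0_octad (hT'.2.1 b hb) hB (by
      rw [Finset.disjoint_iff_inter_eq_empty.mp hd, Finset.disjoint_iff_inter_eq_empty.mp hd0])
  have hT'' : g • h₁⁻¹ • T ∈ trios := smul_trio hg hT'
  have m1 : supp 2503 ∈ g • h₁⁻¹ • T := by
    rw [← g1]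
    exact Finset.smul_mem_smul_finset ha'
  have m2 : supp 35 ∈ g • h₁⁻¹ • T := by
    rw [← g2]
    exact Finset.smul_mem_smul_finset hb
  have hne2 : supp 2503 ≠ supp 35 := by
    intro h
    have := supp_injOn 2503 (by norm_num) 35 (by norm_num) h
    omega
  have key := trio_of_two hT'' m1 m2 hne2
  rw [← T0_eq] at key
  refine ⟨h₁ * g⁻¹, M24.mul_mem hh₁ (M24.inv_mem hg), ?_⟩
  rw [← key, mul_smul, inv_smul_smul, smul_inv_smul]

theorem card_stab_trio : Nat.card ↥(stabP (trioOf (35, 484))) = 64512 := by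
  have h := card_stabP (trioOf (35, 484)) trios (fun g hg => smul_trio hg (trioOf_mem T0_mem))
    (fun s hs => trans_trio hs)
  rw [ncard_trios] at h
  omega

/-! ### generator checks -/

def headOK {X : Type*} (okB : X → Bool) (L : List X) : Bool :=
  match L with
  | [] => true
  | x :: _ => okB x

theorem headOK_spec {X : Type*} {okB : X → Bool} {L : List X} (h : headOK okB L = true) :
    ∀ x₀, L.head? = some x₀ → okB x₀ = true := by
  intro x₀ hx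
  cases L with
  | nil => simp at hx
  | cons a t =>
    simp only [List.head?_cons, Option.some.injEq] at hx
    subst hx
    exact h

def walkOK {X : Type*} (gens : List ℕ) (relB : (ℕ → ℕ) → X → X → Bool) (okB : X → Bool) (G : ℕ)
    (L : List X) (fl : List ℕ) : Bool :=
  headOK okB L && walk0 (relG gens relB) G L fl

def gchk (fixB : (ℕ → ℕ) → Bool) (tk : List (ℕ × ℕ)) : Bool :=
  tk.all (fun p => vldB p.1 && memB p.1 p.2 && fixB (dig p.1))

theorem gens_ok {β : Type*} [MulAction (Equiv.Perm GolayPt) β] (O : β) (fixB : (ℕ → ℕ) → Bool)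
    (hfix : ∀ t, vldB t = true → P t ∈ M24 → fixB (dig t) = true → P t • O = O)
    (tk : List (ℕ × ℕ)) (h : gchk fixB tk = true) :
    ∀ t ∈ tk.map Prod.fst, vldB t = true ∧ P t ∈ stabP O := by
  intro t ht
  obtain ⟨p, hp, rfl⟩ := List.mem_map.mp ht
  unfold gchk at h
  rw [List.all_eq_true] at h
  have := h p hp
  rw [Bool.and_eq_true, Bool.and_eq_true] at this
  obtain ⟨⟨hv, hm⟩, hf⟩ := this
  have hM : P p.1 ∈ M24 := P_mem hv hm
  exact ⟨hv, mem_stabP.mpr ⟨hM, hfix p.1 hv hM hf⟩⟩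

theorem walk_orbit' {β α X : Type*} [MulAction (Equiv.Perm GolayPt) β]
    [MulAction (Equiv.Perm GolayPt) α]
    (O : β) (gens : List ℕ) (hgens : ∀ t ∈ gens, vldB t = true ∧ P t ∈ stabP O)
    (obj : X → α) (ok : X → Prop) (relB : (ℕ → ℕ) → X → X → Bool) (okB : X → Bool)
    (hokB : ∀ x, okB x = true → ok x)
    (hrel : ∀ (g : Equiv.Perm GolayPt) (F : ℕ → ℕ), g ∈ M24 → IsIdxFn g F → ∀ p c,
      relB F p c = true → ok p → ok c ∧ g • obj p = obj c)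
    (G : ℕ) (L : List X) (fl : List ℕ)
    (hw : walkOK gens relB okB G L fl = true) :
    ∀ x ∈ L, ∀ y ∈ L, ok y ∧ obj y ∈ MulAction.orbit ↥(stabP O) (obj x) := by
  unfold walkOK at hw
  rw [Bool.and_eq_true] at hw
  exact walk_orbit O gens hgens obj ok relB hrel G L fl hw.2
    (fun x₀ hx => hokB x₀ (headOK_spec hw.1 x₀ hx))

def fixO (k : ℕ) (F : ℕ → ℕ) : Bool := Nat.beq (imgM F (cw k)) (cw k)

theorem fixO_sound (k : ℕ) (t : ℕ) (hv : vldB t = true) (_ : P t ∈ M24)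
    (h : fixO k (dig t) = true) : P t • supp k = supp k := by
  rw [smul_eq_iff (isIdx_P hv), msk_supp_k]
  exact Nat.eq_of_beq_eq_true h

def fixS (x : ℕ × ℕ × ℕ) (F : ℕ → ℕ) : Bool := okS x && sexFix F (tetM x)

theorem fixS_sound (x : ℕ × ℕ × ℕ) (t : ℕ) (hv : vldB t = true) (hM : P t ∈ M24)
    (h : fixS x (dig t) = true) : P t • sextetOf (tetF x) = sextetOf (tetF x) := by
  unfold fixS at h
  rw [Bool.and_eq_true] at h
  exact (sexFix_iff hM (isIdx_P hv) (okS_iff.mp h.1)).mpr h.2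

def fixT (x : ℕ × ℕ) (F : ℕ → ℕ) : Bool := trioFix F x

theorem fixT_sound (x : ℕ × ℕ) (t : ℕ) (hv : vldB t = true) (_ : P t ∈ M24)
    (h : fixT x (dig t) = true) : P t • trioOf x = trioOf x :=
  (trioFix_iff (isIdx_P hv) x).mpr h

end Cfsg.Agent.Lib.Helper28.M24Stab
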