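import Mathlib
import Cfsg.Prelude.Def_Sporadic_a
import Cfsg.Agent.Lib.Helper28.M24Stab
import Cfsg.Agent.Lib.Helper28.M24Gen

set_option autoImplicit false

namespace Cfsg.Agent.Lib.Helper28.M24Count

open Cfsg Cfsg.Agent.Lib.Helper3.Golay Cfsg.Agent.Lib.Helper3.Golay2
  Cfsg.Agent.Lib.Helper3.GolayM24 Cfsg.Agent.Lib.Helper28.M24Trans
  Cfsg.Agent.Lib.Helper28.M24Six Cfsg.Agent.Lib.Helper28.M24Enum
  Cfsg.Agent.Lib.Helper28.M24Class Cfsg.Agent.Lib.Helper28.M24Mask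
  Cfsg.Agent.Lib.Helper28.M24Gen
open scoped Pointwise

/-! ### canonical tables and exact enumeration of a subgroup -/

def encF (F : ℕ → ℕ) : ℕ := ((List.range 24).map (fun i => F i * 2 ^ (5 * i))).sum

theorem encF_congr {F G : ℕ → ℕ} (h : ∀ i < 24, F i = G i) : encF F = encF G := by
  unfold encF
  congr 1
  apply List.map_congr_left
  intro i hi
  rw [h i (List.mem_range.mp hi)]

def canonB (t : ℕ) : Bool := vldB t && Nat.beq (encF (dig t)) t

theorem canon_vld {t : ℕ} (h : canonB t = true) : vldB t = true := by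
  unfold canonB at h
  rw [Bool.and_eq_true] at h
  exact h.1

theorem P_inj {t t' : ℕ} (h : canonB t = true) (h' : canonB t' = true) (e : P t = P t') :
    t = t' := by
  have v := canon_vld h
  have v' := canon_vld h'
  unfold canonB at h h'
  rw [Bool.and_eq_true] at h h'
  have := isIdx_congr (isIdx_P v) (isIdx_P v') e
  rw [← Nat.eq_of_beq_eq_true h.2, ← Nat.eq_of_beq_eq_true h'.2]
  exact encF_congr this

theorem card_of_list (H : Subgroup (Equiv.Perm GolayPt)) (L : List ℕ) (hnd : L.Nodup)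
    (hc : ∀ t ∈ L, canonB t = true) (hmem : ∀ t ∈ L, P t ∈ H)
    (hall : ∀ g ∈ H, ∃ t ∈ L, P t = g) : Nat.card H = L.length := by
  have h := ncard_eq_length (H : Set (Equiv.Perm GolayPt)) L P hnd
    (fun x hx y hy e => P_inj (hc x hx) (hc y hy) e)
    (fun a => ⟨fun ha => hall a ha, fun ⟨x, hx, e⟩ => e ▸ hmem x hx⟩)
  rw [← h]
  exact Nat.card_coe_set_eq (H : Set (Equiv.Perm GolayPt))

def matchL (L : List ℕ) (F : ℕ → ℕ) : Bool :=
  L.any (fun t => allI fun i => Nat.beq (F i) (dig t i))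

theorem matchL_spec {g : Equiv.Perm GolayPt} {F : ℕ → ℕ} (hF : IsIdxFn g F) {L : List ℕ}
    (hc : ∀ t ∈ L, vldB t = true) (h : matchL L F = true) : ∃ t ∈ L, P t = g := by
  obtain ⟨t, ht, e⟩ := List.any_eq_true.mp h
  refine ⟨t, ht, ?_⟩
  exact isIdx_eq (isIdx_P (hc t ht)) hF
    (fun i hi => (Nat.eq_of_beq_eq_true (allI_iff.mp e i hi)).symm)

/-! ### lists of certified tables -/

def tblB (chk : ℕ → Bool) (U : List (ℕ × ℕ)) : Bool :=
  U.all (fun p => vldB p.1 && memB p.1 p.2 && chk p.1)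

theorem tbl_spec {chk : ℕ → Bool} {U : List (ℕ × ℕ)} (h : tblB chk U = true) {p : ℕ × ℕ}
    (hp : p ∈ U) : vldB p.1 = true ∧ P p.1 ∈ M24 ∧ chk p.1 = true := by
  unfold tblB at h
  have := List.all_eq_true.mp h p hp
  rw [Bool.and_eq_true, Bool.and_eq_true] at this
  exact ⟨this.1.1, P_mem this.1.1 this.1.2, this.2⟩

def covB (U : List (ℕ × ℕ)) (b : ℕ) (L : List ℕ) : Bool :=
  L.all (fun j => U.any (fun p => Nat.beq (dig p.1 b) j))

theorem cov_spec {U : List (ℕ × ℕ)} {b : ℕ} {L : List ℕ} (h : covB U b L = true) {j : ℕ}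
    (hj : j ∈ L) : ∃ p ∈ U, dig p.1 b = j := by
  unfold covB at h
  obtain ⟨p, hp, e⟩ := List.any_eq_true.mp (List.all_eq_true.mp h j hj)
  exact ⟨p, hp, Nat.eq_of_beq_eq_true e⟩

theorem inv_app (f : Equiv.Perm GolayPt) (x : GolayPt) : f⁻¹ (f x) = x :=
  Equiv.Perm.inv_eq_iff_eq.mpr rfl

theorem app_inv (f : Equiv.Perm GolayPt) (x : GolayPt) : f (f⁻¹ x) = x :=
  Equiv.Perm.eq_inv_iff_eq.mp rfl

theorem comm_of_commB {t T : ℕ} (hv : vldB t = true) (hT : vldB T = true)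
    (h : commB (dig t) (dig T) = true) : P t * P T = P T * P t := by
  unfold commB at h
  exact isIdx_eq (isIdx_mul (isIdx_P hv) (isIdx_P hT)) (isIdx_mul (isIdx_P hT) (isIdx_P hv))
    (fun i hi => Nat.eq_of_beq_eq_true (allI_iff.mp h i hi))

theorem comm_idx {c t : Equiv.Perm GolayPt} {S : ℕ → ℕ} (hS : IsIdxFn t S) (e : c * t = t * c)
    {i : ℕ} (hi : i < 24) : idx (c (pt (S i))) = S (idx (c (pt i))) := by
  have h1 : c (t (pt i)) = t (c (pt i)) := by
    rw [← Equiv.Perm.mul_apply, e, Equiv.Perm.mul_apply]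
  rw [isIdx_pt hS hi] at h1
  rw [h1, hS]

/-! ### centralisers and point stabilisers inside `M24`, as subgroups of the permutation group -/

def cenP (t : Equiv.Perm GolayPt) : Subgroup (Equiv.Perm GolayPt) where
  carrier := {c | c ∈ M24 ∧ c * t = t * c}
  mul_mem' := by
    rintro a b ⟨ha, ea⟩ ⟨hb, eb⟩
    exact ⟨M24.mul_mem ha hb, by rw [mul_assoc, eb, ← mul_assoc, ea, mul_assoc]⟩
  one_mem' := ⟨M24.one_mem, by rw [one_mul, mul_one]⟩
  inv_mem' := by
    rintro a ⟨ha, ea⟩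
    refine ⟨M24.inv_mem ha, ?_⟩
    calc a⁻¹ * t = a⁻¹ * (t * a) * a⁻¹ := by group
      _ = a⁻¹ * (a * t) * a⁻¹ := by rw [ea]
      _ = t * a⁻¹ := by group

theorem mem_cenP {t c : Equiv.Perm GolayPt} : c ∈ cenP t ↔ c ∈ M24 ∧ c * t = t * c := Iff.rfl

def fixP (H : Subgroup (Equiv.Perm GolayPt)) (b : ℕ) : Subgroup (Equiv.Perm GolayPt) :=
  H ⊓ MulAction.stabilizer (Equiv.Perm GolayPt) (pt b)

theorem mem_fixP {H : Subgroup (Equiv.Perm GolayPt)} {b : ℕ} {g : Equiv.Perm GolayPt} :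
    g ∈ fixP H b ↔ g ∈ H ∧ g (pt b) = pt b := by
  unfold fixP
  rw [Subgroup.mem_inf]
  exact and_congr Iff.rfl MulAction.mem_stabilizer_iff

/-- orbit-stabiliser step along a point, the orbit being given by a list of indices -/
theorem card_step (H : Subgroup (Equiv.Perm GolayPt)) (b : ℕ) (L : List ℕ) (hnd : L.Nodup)
    (hL : ∀ j ∈ L, j < 24) (hsub : ∀ g ∈ H, idx (g (pt b)) ∈ L)
    (hsup : ∀ j ∈ L, ∃ g ∈ H, g (pt b) = pt j) :
    Nat.card H = L.length * Nat.card (fixP H b) := by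
  have h := Cfsg.Agent.Lib.Helper3.Coatom.card_orbit_mul (G := Equiv.Perm GolayPt) H (fixP H b)
    (pt b) {p : GolayPt | idx p ∈ L} (fun g => mem_fixP) (fun g hg => hsub g hg)
    (fun s hs => by
      obtain ⟨g, hg, e⟩ := hsup (idx s) hs
      exact ⟨g, hg, by rw [Equiv.Perm.smul_def, e, pt_idx]⟩)
  have h2 := ncard_eq_length {p : GolayPt | idx p ∈ L} L pt hnd
    (fun x hx y hy e => pt_injOn (hL x hx) (hL y hy) e)
    (fun a => ⟨fun ha => ⟨idx a, ha, pt_idx a⟩, fun ⟨x, hx, e⟩ => by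
      rw [← e]
      show idx (pt x) ∈ L
      rw [idx_pt x (hL x hx)]
      exact hx⟩)
  rw [h, h2]

end Cfsg.Agent.Lib.Helper28.M24Count
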