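import Mathlib
import Cfsg.Agent.Lib.Helper15.GeoBridge
import Cfsg.Agent.Lib.Helper15.EichGen

set_option autoImplicit false
open Cfsg

namespace Cfsg.Agent.Lib.Helper28.OrthTS

open Module Cfsg.Agent.Lib.Helper15.Spinor Cfsg.Agent.Lib.Helper15.CD2
  Cfsg.Agent.Lib.Helper15.Parity Cfsg.Agent.Lib.Helper15.Witt
  Cfsg.Agent.Lib.Helper15.Eichler Cfsg.Agent.Lib.Helper15.EichGen
  Cfsg.Agent.Lib.Helper15.GeoBridge

variable {F : Type*} [Field F] [Fintype F] {ι : Type} [Fintype ι] [DecidableEq ι]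

/-- all Eichler transformations with singular vector `e` lie in `K` -/
def PE (Q : QuadraticForm F (ι → F)) (K : Subgroup ↥(Cfsg.isometryGroup F ⇑Q)) (e : ι → F) :
    Prop :=
  Q e = 0 ∧ ∀ y, QuadraticMap.polar ⇑Q e y = 0 → eich Q e y ∈ K

theorem PE_conj (Q : QuadraticForm F (ι → F)) (K : Subgroup ↥(Cfsg.isometryGroup F ⇑Q))
    {e : ι → F} (h : PE Q K e) (s : ↥(Cfsg.isometryGroup F ⇑Q)) (hs : s ∈ K) :
    PE Q K (act Q s e) := by
  refine ⟨by rw [act_Q]; exact h.1, fun y hy => ?_⟩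
  have h1 : QuadraticMap.polar ⇑Q e (act Q s⁻¹ y) = 0 := by
    have h3 := act_polar Q s e (act Q s⁻¹ y)
    rw [act_act_inv] at h3
    rw [← h3]
    exact hy
  have h2 := eich_conj Q s e (act Q s⁻¹ y) h.1 h1
  rw [act_act_inv] at h2
  rw [← h2]
  exact K.mul_mem (K.mul_mem hs (h.2 _ h1)) (K.inv_mem hs)

theorem PE_smul (Q : QuadraticForm F (ι → F)) (K : Subgroup ↥(Cfsg.isometryGroup F ⇑Q))
    {e : ι → F} (h : PE Q K e) (c : F) : PE Q K (c • e) := by
  refine ⟨by rw [QuadraticMap.map_smul, h.1, smul_zero], fun y hy => ?_⟩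
  by_cases hc : c = 0
  · rw [hc, zero_smul, eich_zero_left]
    exact K.one_mem
  · have hey : QuadraticMap.polar ⇑Q e y = 0 := by
      rw [QuadraticMap.polar_smul_left, smul_eq_mul] at hy
      exact (mul_eq_zero.mp hy).resolve_left hc
    rw [eich_smul Q c e y h.1 hey]
    apply h.2
    rw [QuadraticMap.polar_smul_right, hey, smul_zero]

/-- the root group of `e` is transitive on the singular points not orthogonal to `e` -/
theorem PE_rule (Q : QuadraticForm F (ι → F)) (K : Subgroup ↥(Cfsg.isometryGroup F ⇑Q))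
    {e e' x : ι → F} (he : PE Q K e) (he' : PE Q K e')
    (hee' : QuadraticMap.polar ⇑Q e e' ≠ 0) (hx : Q x = 0)
    (hex : QuadraticMap.polar ⇑Q e x ≠ 0) : PE Q K x := by
  obtain ⟨β, hβ⟩ : ∃ β, β = QuadraticMap.polar ⇑Q e e' := ⟨_, rfl⟩
  have hβ0 : β ≠ 0 := by
    rw [hβ]
    exact hee'
  obtain ⟨x', hx'⟩ : ∃ x', x' = (β / QuadraticMap.polar ⇑Q e x) • x := ⟨_, rfl⟩
  have hQx' : Q x' = 0 := by rw [hx', QuadraticMap.map_smul, hx, smul_zero]
  have hex' : QuadraticMap.polar ⇑Q e x' = β := by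
    rw [hx', QuadraticMap.polar_smul_right, smul_eq_mul, div_mul_cancel₀ _ hex]
  obtain ⟨y, hy⟩ : ∃ y, y = β⁻¹ • (x' - e') := ⟨_, rfl⟩
  have hey : QuadraticMap.polar ⇑Q e y = 0 := by
    rw [hy, QuadraticMap.polar_smul_right, QuadraticMap.polar_sub_right, hex', ← hβ, sub_self,
      smul_zero]
  have hs := he.2 y hey
  have hact : act Q (eich Q e y) e' = x' := by
    rw [act_eich Q e y he.1 hey, ← hβ]
    have hp : QuadraticMap.polar ⇑Q y e' = β⁻¹ * QuadraticMap.polar ⇑Q x' e' := by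
      rw [hy, QuadraticMap.polar_smul_left, QuadraticMap.polar_sub_left,
        polar_self_of_sing Q e' he'.1, sub_zero, smul_eq_mul]
    have hq : Q y = - (β⁻¹ * β⁻¹ * QuadraticMap.polar ⇑Q x' e') := by
      rw [hy, QuadraticMap.map_smul, sub_eq_add_neg, QuadraticMap.map_add ⇑Q,
        QuadraticMap.map_neg, QuadraticMap.polar_neg_right, hQx', he'.1, smul_eq_mul]
      ring
    have hcoef : QuadraticMap.polar ⇑Q y e' + Q y * β = 0 := by
      rw [hp, hq]
      field_simp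
      ring
    rw [hcoef, zero_smul, sub_zero, hy, smul_smul, mul_inv_cancel₀ hβ0, one_smul]
    abel
  have h1 := PE_conj Q K he' _ hs
  rw [hact] at h1
  have h2 := PE_smul Q K h1 (QuadraticMap.polar ⇑Q e x / β)
  rw [hx', smul_smul] at h2
  have e1 : QuadraticMap.polar ⇑Q e x / β * (β / QuadraticMap.polar ⇑Q e x) = 1 := by
    field_simp
  rw [e1, one_smul] at h2
  exact h2

theorem PE_all (Q : QuadraticForm F (ι → F)) (hQ : (QuadraticMap.polarBilin Q).Nondegenerate)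
    (K : Subgroup ↥(Cfsg.isometryGroup F ⇑Q)) {e e' : ι → F} (he : PE Q K e) (he' : PE Q K e')
    (hee' : QuadraticMap.polar ⇑Q e e' ≠ 0) : ∀ x, Q x = 0 → PE Q K x := by
  have hnd : ∀ x, (∀ y, QuadraticMap.polar ⇑Q x y = 0) → x = 0 := fun x hx => hQ.1 x hx
  intro x hx
  by_cases hex : QuadraticMap.polar ⇑Q e x = 0
  · by_cases hx0 : x = 0
    · rw [hx0]
      exact ⟨map_zero Q, fun y _ => by rw [eich_zero_left]; exact K.one_mem⟩
    · have he0 : e ≠ 0 := by
        intro h0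
        apply hee'
        rw [h0]
        simp [QuadraticMap.polar]
      obtain ⟨u1, hu1⟩ : ∃ u, QuadraticMap.polar ⇑Q e u ≠ 0 := by
        by_contra hcon
        push Not at hcon
        exact he0 (hnd e hcon)
      obtain ⟨u2, hu2⟩ : ∃ u, QuadraticMap.polar ⇑Q x u ≠ 0 := by
        by_contra hcon
        push Not at hcon
        exact hx0 (hnd x hcon)
      obtain ⟨u, hue, hux⟩ : ∃ u, QuadraticMap.polar ⇑Q e u ≠ 0 ∧
          QuadraticMap.polar ⇑Q x u ≠ 0 := by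
        by_cases h1 : QuadraticMap.polar ⇑Q x u1 = 0
        · by_cases h2 : QuadraticMap.polar ⇑Q e u2 = 0
          · refine ⟨u1 + u2, ?_, ?_⟩
            · rw [QuadraticMap.polar_add_right, h2, add_zero]
              exact hu1
            · rw [QuadraticMap.polar_add_right, h1, zero_add]
              exact hu2
          · exact ⟨u2, h2, hu2⟩
        · exact ⟨u1, hu1, h1⟩
      obtain ⟨e'', he''⟩ : ∃ e'', e'' = u - (Q u / QuadraticMap.polar ⇑Q e u) • e := ⟨_, rfl⟩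
      have hQe'' : Q e'' = 0 := by
        rw [he'', sub_eq_add_neg, QuadraticMap.map_add ⇑Q, QuadraticMap.map_neg,
          QuadraticMap.map_smul, he.1, QuadraticMap.polar_neg_right,
          QuadraticMap.polar_smul_right, QuadraticMap.polar_comm ⇑Q u e]
        simp only [smul_eq_mul]
        rw [div_mul_cancel₀ _ hue]
        ring
      have hee'' : QuadraticMap.polar ⇑Q e e'' ≠ 0 := by
        rw [he'', QuadraticMap.polar_sub_right, QuadraticMap.polar_smul_right,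
          polar_self_of_sing Q e he.1, smul_zero, sub_zero]
        exact hue
      have hxe'' : QuadraticMap.polar ⇑Q e'' x ≠ 0 := by
        rw [he'', QuadraticMap.polar_sub_left, QuadraticMap.polar_smul_left, hex, smul_zero,
          sub_zero, QuadraticMap.polar_comm]
        exact hux
      have hP'' := PE_rule Q K he he' hee' hQe'' hee''
      exact PE_rule Q K hP'' he (by rw [QuadraticMap.polar_comm]; exact hee'') hx hxe''
  · exact PE_rule Q K he he' hee' hx hex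

/-- the stabiliser in `Ω` of a totally singular subspace `W` is maximal, provided `W` is not of
codimension one in a totally singular subspace of half the dimension -/
theorem main (Q : QuadraticForm F (ι → F)) (hQ : (QuadraticMap.polarBilin Q).Nondegenerate)
    (hn : 5 ≤ Fintype.card ι) (hH : HP2 Q) (W : Submodule F (ι → F)) (hW : ∀ x ∈ W, Q x = 0)
    (hC : ∀ y1, Q y1 = 0 → y1 ∈ perp Q W → y1 ∉ W →
      ∃ z ∈ perp Q (W ⊔ Submodule.span F {y1}), Q z ≠ 0)
    (M : Subgroup (Matrix.GeneralLinearGroup ι F))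
    (hHM : Cfsg.Geo.subspaceStabilizer W ⊓ Cfsg.Geo.omegaGL ⇑Q ≤ M)
    (hMK : M ≤ Cfsg.Geo.omegaGL ⇑Q)
    (hne : M ≠ Cfsg.Geo.subspaceStabilizer W ⊓ Cfsg.Geo.omegaGL ⇑Q) :
    M = Cfsg.Geo.omegaGL ⇑Q := by
  obtain ⟨K, hK_def⟩ : ∃ K : Subgroup ↥(Cfsg.isometryGroup F ⇑Q),
      K = M.comap (Cfsg.isometryGroup F ⇑Q).subtype := ⟨_, rfl⟩
  have hKmem : ∀ s : ↥(Cfsg.isometryGroup F ⇑Q),
      (s : Matrix.GeneralLinearGroup ι F) ∈ M → s ∈ K := by
    intro s hs
    rw [hK_def]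
    exact hs
  have hKmem' : ∀ s : ↥(Cfsg.isometryGroup F ⇑Q),
      s ∈ K → (s : Matrix.GeneralLinearGroup ι F) ∈ M := by
    intro s hs
    rw [hK_def] at hs
    exact hs
  have hPW : ∀ e ∈ W, PE Q K e := by
    intro e he
    refine ⟨hW e he, fun y hy => ?_⟩
    apply hKmem
    apply hHM
    refine ⟨mem_stab_of_forall Q _ W ?_,
      mem_omegaGL Q _ (eich_mem_omega Q hQ hn e y (hW e he) hy)⟩
    intro x hx
    rw [act_eich Q e y (hW e he) hy, polar_of_sing Q W hW e x he hx, zero_smul, add_zero,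
      mul_zero, add_zero]
    exact W.sub_mem hx (W.smul_mem _ he)
  obtain ⟨g, hgM, hgH⟩ : ∃ g ∈ M, g ∉ Cfsg.Geo.subspaceStabilizer W ⊓ Cfsg.Geo.omegaGL ⇑Q := by
    by_contra hcon
    push Not at hcon
    exact hne (le_antisymm hcon hHM)
  obtain ⟨s, hsΩ, rfl⟩ := exists_of_mem_omegaGL Q g (hMK hgM)
  have hsK : s ∈ K := hKmem s hgM
  obtain ⟨w, hw, hy0W⟩ : ∃ w ∈ W, act Q s w ∉ W := by
    by_contra hcon
    push Not at hcon
    exact hgH ⟨mem_stab_of_forall Q s W hcon, hMK hgM⟩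
  have hPy0 := PE_conj Q K (hPW w hw) s hsK
  obtain ⟨y0, hy0⟩ : ∃ y0, y0 = act Q s w := ⟨_, rfl⟩
  rw [← hy0] at hy0W hPy0
  obtain ⟨e, e', he, he', hee'⟩ : ∃ e e', PE Q K e ∧ PE Q K e' ∧
      QuadraticMap.polar ⇑Q e e' ≠ 0 := by
    by_cases hex : ∃ w' ∈ W, QuadraticMap.polar ⇑Q y0 w' ≠ 0
    · obtain ⟨w', hw', h⟩ := hex
      exact ⟨y0, w', hPy0, hPW w' hw', h⟩
    · push Not at hex
      have hy0perp : y0 ∈ perp Q W := hex
      obtain ⟨x, hx, hxy0⟩ : ∃ x ∈ perp Q W, QuadraticMap.polar ⇑Q y0 x ≠ 0 := by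
        by_contra hcon
        push Not at hcon
        apply hy0W
        rw [← perp_perp Q hQ W]
        exact hcon
      obtain ⟨y1, hy1⟩ : ∃ y1, y1 = x - (Q x / QuadraticMap.polar ⇑Q y0 x) • y0 := ⟨_, rfl⟩
      have hQy1 : Q y1 = 0 := by
        rw [hy1, sub_eq_add_neg, QuadraticMap.map_add ⇑Q, QuadraticMap.map_neg,
          QuadraticMap.map_smul, hPy0.1, QuadraticMap.polar_neg_right,
          QuadraticMap.polar_smul_right, QuadraticMap.polar_comm ⇑Q x y0]
        simp only [smul_eq_mul]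
        rw [div_mul_cancel₀ _ hxy0]
        ring
      have hy1perp : y1 ∈ perp Q W := by
        rw [hy1]
        exact (perp Q W).sub_mem hx ((perp Q W).smul_mem _ hy0perp)
      have hy1y0 : QuadraticMap.polar ⇑Q y1 y0 ≠ 0 := by
        rw [hy1, QuadraticMap.polar_sub_left, QuadraticMap.polar_smul_left,
          polar_self_of_sing Q y0 hPy0.1, smul_zero, sub_zero, QuadraticMap.polar_comm]
        exact hxy0
      have hy1W : y1 ∉ W := by
        intro h
        apply hy1y0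
        rw [QuadraticMap.polar_comm]
        exact hy0perp y1 h
      obtain ⟨z, hz, hQz⟩ := hC y1 hQy1 hy1perp hy1W
      have hzW : ∀ w' ∈ W, QuadraticMap.polar ⇑Q z w' = 0 := fun w' hw' =>
        hz w' (Submodule.mem_sup_left hw')
      have hzy1 : QuadraticMap.polar ⇑Q z y1 = 0 :=
        hz y1 (Submodule.mem_sup_right (Submodule.mem_span_singleton_self _))
      have hy1z : QuadraticMap.polar ⇑Q y1 z = 0 := by
        rw [QuadraticMap.polar_comm]
        exact hzy1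
      have hhK : eich Q y1 z ∈ K := by
        apply hKmem
        apply hHM
        refine ⟨mem_stab_of_forall Q _ W ?_,
          mem_omegaGL Q _ (eich_mem_omega Q hQ hn y1 z hQy1 hy1z)⟩
        intro x' hx'
        have h1 : QuadraticMap.polar ⇑Q y1 x' = 0 := hy1perp x' hx'
        rw [act_eich Q y1 z hQy1 hy1z, h1, hzW x' hx', zero_smul, add_zero, mul_zero, add_zero,
          zero_smul, sub_zero]
        exact hx'
      have hPy2 := PE_conj Q K hPy0 _ hhK
      refine ⟨_, y0, hPy2, hPy0, ?_⟩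
      rw [act_eich Q y1 z hQy1 hy1z, QuadraticMap.polar_sub_left, QuadraticMap.polar_add_left,
        QuadraticMap.polar_smul_left, QuadraticMap.polar_smul_left,
        polar_self_of_sing Q y0 hPy0.1, smul_eq_mul, smul_eq_mul]
      have e1 : 0 + QuadraticMap.polar ⇑Q y1 y0 * QuadraticMap.polar ⇑Q z y0 -
          (QuadraticMap.polar ⇑Q z y0 + Q z * QuadraticMap.polar ⇑Q y1 y0) *
            QuadraticMap.polar ⇑Q y1 y0 =
          -(Q z * (QuadraticMap.polar ⇑Q y1 y0 * QuadraticMap.polar ⇑Q y1 y0)) := by ring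
      rw [e1]
      exact neg_ne_zero.mpr (mul_ne_zero hQz (mul_ne_zero hy1y0 hy1y0))
  apply le_antisymm hMK
  have hall := PE_all Q hQ K he he' hee'
  have hΩK : commutator ↥(Cfsg.isometryGroup F ⇑Q) ≤ K := by
    refine le_trans (omega_le_eich Q hQ hn hH) ?_
    rw [Subgroup.closure_le]
    rintro _ ⟨e, y, he, hey, rfl⟩
    exact (hall e he).2 y hey
  intro g hg
  obtain ⟨s, hs, rfl⟩ := exists_of_mem_omegaGL Q g hg
  exact hKmem' s (hΩK hs)

theorem ts_sup (Q : QuadraticForm F (ι → F)) (W : Submodule F (ι → F)) (hW : ∀ x ∈ W, Q x = 0)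
    (y1 : ι → F) (hy1 : Q y1 = 0) (hp : y1 ∈ perp Q W) :
    ∀ x ∈ W ⊔ Submodule.span F {y1}, Q x = 0 := by
  intro x hx
  obtain ⟨w, hw, z, hz, rfl⟩ := Submodule.mem_sup.mp hx
  obtain ⟨c, rfl⟩ := Submodule.mem_span_singleton.mp hz
  have h1 : QuadraticMap.polar ⇑Q y1 w = 0 := hp w hw
  rw [QuadraticMap.map_add ⇑Q, QuadraticMap.map_smul, hW w hw, hy1,
    QuadraticMap.polar_smul_right, QuadraticMap.polar_comm ⇑Q w y1, h1]
  simp

theorem ts_bound (Q : QuadraticForm F (ι → F)) (hQ : (QuadraticMap.polarBilin Q).Nondegenerate)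
    (U : Submodule F (ι → F)) (hU : ∀ x ∈ U, Q x = 0) :
    2 * finrank F ↥U ≤ Fintype.card ι := by
  have hle : U ≤ perp Q U := fun x hx s hs => polar_of_sing Q U hU x s hx hs
  have h1 := Submodule.finrank_mono hle
  rw [finrank_perp Q hQ U] at h1
  omega

theorem hC_of (Q : QuadraticForm F (ι → F)) (hQ : (QuadraticMap.polarBilin Q).Nondegenerate)
    (W : Submodule F (ι → F)) (hW : ∀ x ∈ W, Q x = 0)
    (hno : ∀ y1, Q y1 = 0 → y1 ∈ perp Q W → y1 ∉ W →
      2 * finrank F ↥(W ⊔ Submodule.span F {y1} : Submodule F (ι → F)) ≠ Fintype.card ι) :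
    ∀ y1, Q y1 = 0 → y1 ∈ perp Q W → y1 ∉ W →
      ∃ z ∈ perp Q (W ⊔ Submodule.span F {y1}), Q z ≠ 0 := by
  intro y1 h1 h2 h3
  apply exists_nonsing_perp Q hQ
  exact lt_of_le_of_ne (ts_bound Q hQ _ (ts_sup Q W hW y1 h1 h2)) (hno y1 h1 h2 h3)

/-- two orthogonal hyperbolic pairs in a non-degenerate quadratic space of dimension `≥ 7` over a
finite field -/
theorem hp2_of_dim (Q : QuadraticForm F (ι → F))
    (hQ : (QuadraticMap.polarBilin Q).Nondegenerate) (hn : 7 ≤ Fintype.card ι) : HP2 Q := by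
  have hnd : ∀ x, (∀ y, QuadraticMap.polar ⇑Q x y = 0) → x = 0 := fun x hx => hQ.1 x hx
  have hfin : finrank F (ι → F) = Fintype.card ι := Module.finrank_fintype_fun_eq_card F
  obtain ⟨v1, hv1, hQv1⟩ := Cfsg.Agent.Lib.Helper15.QForm.exists_singular Q (by omega)
  obtain ⟨f1, hQf1, hv1f1⟩ := Cfsg.Agent.Lib.Helper15.QForm.exists_partner Q hnd v1 hv1 hQv1
  have hfr := Cfsg.Agent.Lib.Helper15.QForm.finrank_perp2 Q v1 f1 hQv1 hQf1 hv1f1
  obtain ⟨v2', hv2', hQv2'⟩ := Cfsg.Agent.Lib.Helper15.QForm.exists_singular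
    (Q.comp (Cfsg.Agent.Lib.Helper15.QForm.perp2 Q v1 f1).subtype) (by omega)
  obtain ⟨v2, hv2⟩ : ∃ v2 : ι → F, v2 = (v2' : ι → F) := ⟨_, rfl⟩
  have hv20 : v2 ≠ 0 := by
    rw [hv2]
    intro h
    exact hv2' (Subtype.ext h)
  have hQv2 : Q v2 = 0 := by
    rw [hv2]
    exact hQv2'
  have hmem := Cfsg.Agent.Lib.Helper15.QForm.mem_perp2.mp v2'.2
  rw [← hv2] at hmem
  have hv1v2 : QuadraticMap.polar ⇑Q v1 v2 = 0 := hmem.1
  have hf1v2 : QuadraticMap.polar ⇑Q f1 v2 = 0 := hmem.2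
  obtain ⟨f2', -, hv2f2'⟩ := Cfsg.Agent.Lib.Helper15.QForm.exists_partner Q hnd v2 hv20 hQv2
  have hf1v1 : QuadraticMap.polar ⇑Q f1 v1 = 1 := by rw [QuadraticMap.polar_comm]; exact hv1f1
  have hv2v1 : QuadraticMap.polar ⇑Q v2 v1 = 0 := by rw [QuadraticMap.polar_comm]; exact hv1v2
  have hv2f1 : QuadraticMap.polar ⇑Q v2 f1 = 0 := by rw [QuadraticMap.polar_comm]; exact hf1v2
  obtain ⟨g, hg⟩ : ∃ g, g = f2' - QuadraticMap.polar ⇑Q f2' f1 • v1 -
      QuadraticMap.polar ⇑Q f2' v1 • f1 := ⟨_, rfl⟩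
  have hgv1 : QuadraticMap.polar ⇑Q g v1 = 0 := by
    rw [hg, QuadraticMap.polar_sub_left, QuadraticMap.polar_sub_left,
      QuadraticMap.polar_smul_left, QuadraticMap.polar_smul_left,
      polar_self_of_sing Q v1 hQv1, hf1v1]
    simp
  have hgf1 : QuadraticMap.polar ⇑Q g f1 = 0 := by
    rw [hg, QuadraticMap.polar_sub_left, QuadraticMap.polar_sub_left,
      QuadraticMap.polar_smul_left, QuadraticMap.polar_smul_left,
      polar_self_of_sing Q f1 hQf1, hv1f1]
    simp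
  have hv2g : QuadraticMap.polar ⇑Q v2 g = 1 := by
    rw [hg, QuadraticMap.polar_sub_right, QuadraticMap.polar_sub_right,
      QuadraticMap.polar_smul_right, QuadraticMap.polar_smul_right, hv2f2', hv2v1, hv2f1]
    simp
  have hgv2 : QuadraticMap.polar ⇑Q g v2 = 1 := by rw [QuadraticMap.polar_comm]; exact hv2g
  obtain ⟨f2, hf2⟩ : ∃ f2, f2 = g - Q g • v2 := ⟨_, rfl⟩
  have hQf2 : Q f2 = 0 := by
    rw [hf2, sub_eq_add_neg, QuadraticMap.map_add ⇑Q, QuadraticMap.map_neg,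
      QuadraticMap.map_smul, hQv2, QuadraticMap.polar_neg_right, QuadraticMap.polar_smul_right,
      hgv2]
    simp
  have hv2f2 : QuadraticMap.polar ⇑Q v2 f2 = 1 := by
    rw [hf2, QuadraticMap.polar_sub_right, QuadraticMap.polar_smul_right,
      polar_self_of_sing Q v2 hQv2, hv2g]
    simp
  have hv1f2 : QuadraticMap.polar ⇑Q v1 f2 = 0 := by
    rw [hf2, QuadraticMap.polar_sub_right, QuadraticMap.polar_smul_right, hv1v2,
      QuadraticMap.polar_comm ⇑Q v1 g, hgv1]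
    simp
  have hf1f2 : QuadraticMap.polar ⇑Q f1 f2 = 0 := by
    rw [hf2, QuadraticMap.polar_sub_right, QuadraticMap.polar_smul_right, hf1v2,
      QuadraticMap.polar_comm ⇑Q f1 g, hgf1]
    simp
  exact ⟨v1, f1, v2, f2, hQv1, hQf1, hv1f1, hQv2, hQf2, hv2f2, hv1v2, hv1f2, hf1v2, hf1f2⟩

/-- maximality of the stabiliser of a totally singular subspace, in the form of the statements -/
theorem maximal (Q : QuadraticForm F (ι → F)) (hQ : (QuadraticMap.polarBilin Q).Nondegenerate)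
    (hn : 7 ≤ Fintype.card ι) (W : Submodule F (ι → F)) (hW0 : W ≠ ⊥) (hW : ∀ x ∈ W, Q x = 0)
    (hno : ∀ y1, Q y1 = 0 → y1 ∈ perp Q W → y1 ∉ W →
      2 * finrank F ↥(W ⊔ Submodule.span F {y1} : Submodule F (ι → F)) ≠ Fintype.card ι) :
    Cfsg.Geo.IsMaximalIn (Cfsg.Geo.omegaGL ⇑Q)
      (Cfsg.Geo.subspaceStabilizer W ⊓ Cfsg.Geo.omegaGL ⇑Q) := by
  refine ⟨lt_of_le_of_ne inf_le_right ?_, fun M hHM hMK => ?_⟩
  · intro heq
    obtain ⟨s, hs, x, hx, hsx⟩ := exists_move_ts Q hQ (by omega) W hW hW0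
    have hmem : (s : Matrix.GeneralLinearGroup ι F)
        ∈ Cfsg.Geo.subspaceStabilizer W ⊓ Cfsg.Geo.omegaGL ⇑Q := by
      rw [heq]
      exact mem_omegaGL Q s hs
    exact hsx (((mem_stab_iff Q s W).1 hmem.1 x).1 hx)
  · by_cases h : M = Cfsg.Geo.subspaceStabilizer W ⊓ Cfsg.Geo.omegaGL ⇑Q
    · exact Or.inl h
    · exact Or.inr (main Q hQ (by omega) (hp2_of_dim Q hQ hn) W hW (hC_of Q hQ W hW hno)
        M hHM hMK h)

end Cfsg.Agent.Lib.Helper28.OrthTS
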