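import Mathlib
import Cfsg.Agent.Lib.Helper28.OrthTS

/-!
# Stabilisers of non-degenerate subspaces in orthogonal groups

`V = W1 ⟂ W2`.  A subgroup `K` of the isometry group containing the Eichler transformations
inside `W1` and inside `W2` (and the products of pairs of reflections), and an element moving
`W1`, contains `Ω`.
-/

set_option autoImplicit false
open Cfsg

namespace Cfsg.Agent.Lib.Helper28.OrthND

open Module Cfsg.Agent.Lib.Helper15.Spinor Cfsg.Agent.Lib.Helper15.CD2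
  Cfsg.Agent.Lib.Helper15.Parity Cfsg.Agent.Lib.Helper15.Witt
  Cfsg.Agent.Lib.Helper15.Eichler Cfsg.Agent.Lib.Helper15.EichGen
  Cfsg.Agent.Lib.Helper15.GeoBridge Cfsg.Agent.Lib.Helper15.CenterOmega
  Cfsg.Agent.Lib.Helper28.OrthTS

variable {F : Type*} [Field F] [Fintype F] {ι : Type} [Fintype ι] [DecidableEq ι]

/-- an orthogonal decomposition of the whole space -/
structure Dec (Q : QuadraticForm F (ι → F)) (W1 W2 : Submodule F (ι → F)) : Prop where
  orth : ∀ x ∈ W1, ∀ y ∈ W2, QuadraticMap.polar ⇑Q x y = 0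
  sum : ∀ x, ∃ a ∈ W1, ∃ b ∈ W2, x = a + b

variable {Q : QuadraticForm F (ι → F)} {W1 W2 : Submodule F (ι → F)}

theorem Dec.symm (h : Dec Q W1 W2) : Dec Q W2 W1 :=
  ⟨fun x hx y hy => by rw [QuadraticMap.polar_comm]; exact h.orth y hy x hx, fun x => by
    obtain ⟨a, ha, b, hb, e⟩ := h.sum x
    exact ⟨b, hb, a, ha, by rw [e, add_comm]⟩⟩

theorem Dec.nd (hQ : (QuadraticMap.polarBilin Q).Nondegenerate) (h : Dec Q W1 W2) (w : ι → F)
    (hw : w ∈ W1) (hperp : ∀ x ∈ W1, QuadraticMap.polar ⇑Q w x = 0) : w = 0 := by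
  apply hQ.1
  intro x
  obtain ⟨a, ha, b, hb, e⟩ := h.sum x
  show QuadraticMap.polar ⇑Q w x = 0
  rw [e, QuadraticMap.polar_add_right, hperp a ha, h.orth w hw b hb, add_zero]

theorem Dec.disj (hQ : (QuadraticMap.polarBilin Q).Nondegenerate) (h : Dec Q W1 W2) (x : ι → F)
    (h1 : x ∈ W1) (h2 : x ∈ W2) : x = 0 :=
  h.nd hQ x h1 (fun y hy => by rw [QuadraticMap.polar_comm]; exact h.orth y hy x h2)

theorem Dec.perp2 (hQ : (QuadraticMap.polarBilin Q).Nondegenerate) (h : Dec Q W1 W2) (y : ι → F)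
    (hy : ∀ x ∈ W1, QuadraticMap.polar ⇑Q x y = 0) : y ∈ W2 := by
  obtain ⟨a, ha, b, hb, e⟩ := h.sum y
  have ha0 : a = 0 := by
    apply h.nd hQ a ha
    intro x hx
    have h1 := hy x hx
    rw [e, QuadraticMap.polar_add_right, h.orth x hx b hb, add_zero] at h1
    rw [QuadraticMap.polar_comm]
    exact h1
  rw [e, ha0, zero_add]
  exact hb

theorem Dec.finrank_add (hQ : (QuadraticMap.polarBilin Q).Nondegenerate) (h : Dec Q W1 W2) :
    finrank F W1 + finrank F W2 = Fintype.card ι := by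
  have h1 := Submodule.finrank_sup_add_finrank_inf_eq W1 W2
  have h2 : W1 ⊔ W2 = ⊤ := by
    rw [eq_top_iff]
    intro x _
    obtain ⟨a, ha, b, hb, e⟩ := h.sum x
    rw [e]
    exact Submodule.add_mem _ (Submodule.mem_sup_left ha) (Submodule.mem_sup_right hb)
  have h3 : W1 ⊓ W2 = ⊥ := by
    rw [eq_bot_iff]
    intro x hx
    rw [Submodule.mem_bot]
    exact h.disj hQ x hx.1 hx.2
  rw [h2, h3, finrank_top, finrank_bot, Module.finrank_fintype_fun_eq_card] at h1
  omega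

/-- Chevalley–Warning inside a subspace -/
theorem exists_sing (Q : QuadraticForm F (ι → F)) (S : Submodule F (ι → F))
    (h3 : 3 ≤ finrank F S) : ∃ x ∈ S, x ≠ 0 ∧ Q x = 0 := by
  obtain ⟨v, hv, hQv⟩ := Cfsg.Agent.Lib.Helper15.QForm.exists_singular (Q.comp S.subtype) h3
  exact ⟨v, v.2, fun h0 => hv (Subtype.ext h0), hQv⟩

theorem Dec.partner (hQ : (QuadraticMap.polarBilin Q).Nondegenerate) (h : Dec Q W1 W2)
    (p : ι → F) (hp : p ∈ W1) (hp0 : p ≠ 0) (hQp : Q p = 0) :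
    ∃ f ∈ W1, Q f = 0 ∧ QuadraticMap.polar ⇑Q p f = 1 := by
  obtain ⟨z, hz, hpz⟩ : ∃ z ∈ W1, QuadraticMap.polar ⇑Q p z ≠ 0 := by
    by_contra hcon
    push Not at hcon
    exact hp0 (h.nd hQ p hp hcon)
  obtain ⟨z', hz'⟩ : ∃ z', z' = (QuadraticMap.polar ⇑Q p z)⁻¹ • z := ⟨_, rfl⟩
  have hz'W : z' ∈ W1 := by
    rw [hz']
    exact W1.smul_mem _ hz
  have hpz' : QuadraticMap.polar ⇑Q p z' = 1 := by
    rw [hz', QuadraticMap.polar_smul_right, smul_eq_mul, inv_mul_cancel₀ hpz]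
  refine ⟨z' - Q z' • p, W1.sub_mem hz'W (W1.smul_mem _ hp), ?_, ?_⟩
  · rw [sub_eq_add_neg, QuadraticMap.map_add ⇑Q, QuadraticMap.map_neg, QuadraticMap.map_smul,
      hQp, QuadraticMap.polar_neg_right, QuadraticMap.polar_smul_right,
      QuadraticMap.polar_comm ⇑Q z' p, hpz']
    simp
  · rw [QuadraticMap.polar_sub_right, QuadraticMap.polar_smul_right,
      polar_self_of_sing Q p hQp, hpz']
    simp

/-- singular vectors are not all orthogonal to a non-zero vector -/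
theorem Dec.sing_not_perp (hQ : (QuadraticMap.polarBilin Q).Nondegenerate) (h : Dec Q W1 W2)
    (hs : ∃ e0 ∈ W1, e0 ≠ 0 ∧ Q e0 = 0) (m : ι → F) (hm : m ∈ W1) (hm0 : m ≠ 0) :
    ∃ e ∈ W1, Q e = 0 ∧ QuadraticMap.polar ⇑Q e m ≠ 0 := by
  obtain ⟨e0, he0, he00, hQe0⟩ := hs
  obtain ⟨f0, hf0, hQf0, hef0⟩ := h.partner hQ e0 he0 he00 hQe0
  by_cases h1 : QuadraticMap.polar ⇑Q e0 m = 0
  swap
  · exact ⟨e0, he0, hQe0, h1⟩
  by_cases h2 : QuadraticMap.polar ⇑Q f0 m = 0
  swap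
  · exact ⟨f0, hf0, hQf0, h2⟩
  obtain ⟨z, hz, hzm⟩ : ∃ z ∈ W1, QuadraticMap.polar ⇑Q m z ≠ 0 := by
    by_contra hcon
    push Not at hcon
    exact hm0 (h.nd hQ m hm hcon)
  have hfe0 : QuadraticMap.polar ⇑Q f0 e0 = 1 := by
    rw [QuadraticMap.polar_comm]
    exact hef0
  obtain ⟨z0, hz0⟩ : ∃ z0, z0 = z - QuadraticMap.polar ⇑Q z f0 • e0
      - QuadraticMap.polar ⇑Q z e0 • f0 := ⟨_, rfl⟩
  have hz0W : z0 ∈ W1 := by
    rw [hz0]
    exact W1.sub_mem (W1.sub_mem hz (W1.smul_mem _ he0)) (W1.smul_mem _ hf0)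
  have hz0e : QuadraticMap.polar ⇑Q e0 z0 = 0 := by
    rw [hz0, QuadraticMap.polar_sub_right, QuadraticMap.polar_sub_right,
      QuadraticMap.polar_smul_right, QuadraticMap.polar_smul_right,
      polar_self_of_sing Q e0 hQe0, hef0, QuadraticMap.polar_comm ⇑Q e0 z]
    simp
  have hz0f : QuadraticMap.polar ⇑Q z0 f0 = 0 := by
    rw [hz0, QuadraticMap.polar_sub_left, QuadraticMap.polar_sub_left,
      QuadraticMap.polar_smul_left, QuadraticMap.polar_smul_left,
      polar_self_of_sing Q f0 hQf0, hef0]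
    simp
  have hz0m : QuadraticMap.polar ⇑Q z0 m ≠ 0 := by
    rw [hz0, QuadraticMap.polar_sub_left, QuadraticMap.polar_sub_left,
      QuadraticMap.polar_smul_left, QuadraticMap.polar_smul_left, h1, h2, smul_zero, smul_zero,
      sub_zero, sub_zero, QuadraticMap.polar_comm]
    exact hzm
  refine ⟨e0 + z0 - Q z0 • f0, W1.sub_mem (W1.add_mem he0 hz0W) (W1.smul_mem _ hf0), ?_, ?_⟩
  · rw [sub_eq_add_neg, QuadraticMap.map_add ⇑Q, QuadraticMap.map_add ⇑Q, QuadraticMap.map_neg,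
      QuadraticMap.map_smul, hQe0, hQf0, QuadraticMap.polar_neg_right,
      QuadraticMap.polar_smul_right, QuadraticMap.polar_add_left, hef0, hz0f, hz0e]
    simp
  · rw [QuadraticMap.polar_sub_left, QuadraticMap.polar_add_left, QuadraticMap.polar_smul_left,
      h1, h2]
    simpa using hz0m

/-- a subspace with a singular vector is not covered, as far as singular vectors go, by a subspace
not containing it -/
theorem Dec.sing_notin (hQ : (QuadraticMap.polarBilin Q).Nondegenerate) (h : Dec Q W1 W2)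
    (hs : ∃ e0 ∈ W1, e0 ≠ 0 ∧ Q e0 = 0) (S : Submodule F (ι → F)) (hS : ¬ W1 ≤ S) :
    ∃ x ∈ W1, Q x = 0 ∧ x ∉ S := by
  obtain ⟨m, hm, hm0, hmS⟩ : ∃ m ∈ W1, m ≠ 0 ∧
      ∀ s ∈ S ⊓ W1, QuadraticMap.polar ⇑Q m s = 0 := by
    by_contra hcon
    push Not at hcon
    apply hS
    intro x hx
    have hx' : x ∈ perp Q (perp Q (S ⊓ W1)) := by
      intro y hy
      obtain ⟨y1, hy1, y2, hy2, e⟩ := h.sum y
      have hy10 : y1 = 0 := by
        by_contra hne
        obtain ⟨s, hs, hne'⟩ := hcon y1 hy1 hne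
        apply hne'
        have h1 := hy s hs
        rw [e, QuadraticMap.polar_add_left, h.symm.orth y2 hy2 s hs.2, add_zero] at h1
        exact h1
      rw [e, hy10, zero_add]
      exact h.orth x hx y2 hy2
    rw [perp_perp Q hQ] at hx'
    exact hx'.1
  obtain ⟨e, he, hQe, hem⟩ := h.sing_not_perp hQ hs m hm hm0
  exact ⟨e, he, hQe, fun heS => hem (by
    rw [QuadraticMap.polar_comm]
    exact hmS e ⟨heS, he⟩)⟩

/-- two non-orthogonal vectors orthogonal to a hyperbolic pair -/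
theorem Dec.exists_z12 (hQ : (QuadraticMap.polarBilin Q).Nondegenerate) (h : Dec Q W1 W2)
    (h3 : 3 ≤ finrank F W1) (e f : ι → F) (he : e ∈ W1) (hf : f ∈ W1) (hQe : Q e = 0)
    (hQf : Q f = 0) (hef : QuadraticMap.polar ⇑Q e f = 1) :
    ∃ z1 ∈ W1, ∃ z2 ∈ W1, QuadraticMap.polar ⇑Q e z1 = 0 ∧ QuadraticMap.polar ⇑Q f z1 = 0 ∧
      QuadraticMap.polar ⇑Q e z2 = 0 ∧ QuadraticMap.polar ⇑Q f z2 = 0 ∧
      QuadraticMap.polar ⇑Q z1 z2 ≠ 0 := by
  have hfe : QuadraticMap.polar ⇑Q f e = 1 := by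
    rw [QuadraticMap.polar_comm]
    exact hef
  have proj : ∀ y ∈ W1, ∃ y0 ∈ W1, QuadraticMap.polar ⇑Q e y0 = 0 ∧
      QuadraticMap.polar ⇑Q f y0 = 0 ∧
      y0 = y - QuadraticMap.polar ⇑Q f y • e - QuadraticMap.polar ⇑Q e y • f := by
    intro y hy
    refine ⟨_, W1.sub_mem (W1.sub_mem hy (W1.smul_mem _ he)) (W1.smul_mem _ hf), ?_, ?_, rfl⟩
    · rw [QuadraticMap.polar_sub_right, QuadraticMap.polar_sub_right,
        QuadraticMap.polar_smul_right, QuadraticMap.polar_smul_right,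
        polar_self_of_sing Q e hQe, hef]
      simp
    · rw [QuadraticMap.polar_sub_right, QuadraticMap.polar_sub_right,
        QuadraticMap.polar_smul_right, QuadraticMap.polar_smul_right,
        polar_self_of_sing Q f hQf, hfe]
      simp
  obtain ⟨y, hy, hyS⟩ : ∃ y ∈ W1, y ∉ Submodule.span F {e, f} := by
    by_contra hcon
    push Not at hcon
    have h1 := Submodule.finrank_mono (show W1 ≤ Submodule.span F {e, f} from hcon)
    have h2 := finrank_pair_le e f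
    omega
  obtain ⟨z1, hz1, h1e, h1f, ez1⟩ := proj y hy
  have hz10 : z1 ≠ 0 := by
    intro h0
    apply hyS
    rw [h0] at ez1
    have e2 : y = QuadraticMap.polar ⇑Q f y • e + QuadraticMap.polar ⇑Q e y • f := by
      have e3 := ez1.symm
      rw [sub_sub, sub_eq_zero] at e3
      exact e3
    rw [e2]
    exact Submodule.mem_span_pair.mpr ⟨_, _, rfl⟩
  obtain ⟨z, hz, hz1z⟩ : ∃ z ∈ W1, QuadraticMap.polar ⇑Q z1 z ≠ 0 := by
    by_contra hcon
    push Not at hcon
    exact hz10 (h.nd hQ z1 hz1 hcon)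
  obtain ⟨z2, hz2, h2e, h2f, ez2⟩ := proj z hz
  refine ⟨z1, hz1, z2, hz2, h1e, h1f, h2e, h2f, ?_⟩
  rw [ez2, QuadraticMap.polar_sub_right, QuadraticMap.polar_sub_right,
    QuadraticMap.polar_smul_right, QuadraticMap.polar_smul_right,
    QuadraticMap.polar_comm ⇑Q z1 e, h1e, QuadraticMap.polar_comm ⇑Q z1 f, h1f]
  simpa using hz1z

theorem finrank_inf_perp_ge (hQ : (QuadraticMap.polarBilin Q).Nondegenerate)
    (U : Submodule F (ι → F)) (x : ι → F) :
    finrank F U ≤ finrank F ↥(U ⊓ perp Q (Submodule.span F {x})) + 1 := by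
  have h1 := Submodule.finrank_sup_add_finrank_inf_eq U (perp Q (Submodule.span F {x}))
  have h2 := finrank_perp Q hQ (Submodule.span F {x})
  have h3 : finrank F ↥(Submodule.span F {x}) ≤ 1 := by
    have h := finrank_span_finset_le_card (R := F) ({x} : Finset (ι → F))
    rw [Finset.coe_singleton, Finset.card_singleton] at h
    exact h
  have h4 := Submodule.finrank_le (U ⊔ perp Q (Submodule.span F {x}))
  have h5 := Submodule.finrank_le U
  rw [Module.finrank_fintype_fun_eq_card] at h4 h5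
  omega

/-- a vector of prescribed norm orthogonal to a singular vector -/
theorem Dec.exists_norm (hQ : (QuadraticMap.polarBilin Q).Nondegenerate) (h : Dec Q W1 W2)
    (h5 : 5 ≤ finrank F W1) (p : ι → F) (hp : p ∈ W1) (hp0 : p ≠ 0) (hQp : Q p = 0) (c : F) :
    ∃ w ∈ W1, Q w = c ∧ QuadraticMap.polar ⇑Q w p = 0 := by
  obtain ⟨f, hf, hQf, hpf⟩ := h.partner hQ p hp hp0 hQp
  have hfp : QuadraticMap.polar ⇑Q f p = 1 := by
    rw [QuadraticMap.polar_comm]
    exact hpf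
  have hfin : 3 ≤ finrank F ↥(W1 ⊓ perp Q (Submodule.span F {p, f})) := by
    have h1 := Submodule.finrank_sup_add_finrank_inf_eq W1 (perp Q (Submodule.span F {p, f}))
    have h2 := finrank_perp Q hQ (Submodule.span F {p, f})
    have h3 := finrank_pair_le p f
    have h4 := Submodule.finrank_le (W1 ⊔ perp Q (Submodule.span F {p, f}))
    have h6 := Submodule.finrank_le W1
    rw [Module.finrank_fintype_fun_eq_card] at h4 h6
    omega
  obtain ⟨e2, he2, he20, hQe2⟩ := exists_sing Q _ hfin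
  have he2p : QuadraticMap.polar ⇑Q e2 p = 0 := he2.2 p (Submodule.subset_span (by simp))
  have he2f : QuadraticMap.polar ⇑Q e2 f = 0 := he2.2 f (Submodule.subset_span (by simp))
  obtain ⟨z0, hz0, hez0⟩ : ∃ z0 ∈ W1, QuadraticMap.polar ⇑Q e2 z0 ≠ 0 := by
    by_contra hcon
    push Not at hcon
    exact he20 (h.nd hQ e2 he2.1 hcon)
  obtain ⟨z, hz⟩ : ∃ z, z = z0 - QuadraticMap.polar ⇑Q z0 p • f := ⟨_, rfl⟩
  have hzW : z ∈ W1 := by
    rw [hz]
    exact W1.sub_mem hz0 (W1.smul_mem _ hf)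
  have hzp : QuadraticMap.polar ⇑Q z p = 0 := by
    rw [hz, QuadraticMap.polar_sub_left, QuadraticMap.polar_smul_left, hfp]
    simp
  have hez : QuadraticMap.polar ⇑Q e2 z ≠ 0 := by
    rw [hz, QuadraticMap.polar_sub_right, QuadraticMap.polar_smul_right, he2f, smul_zero,
      sub_zero]
    exact hez0
  refine ⟨z + ((c - Q z) / QuadraticMap.polar ⇑Q e2 z) • e2,
    W1.add_mem hzW (W1.smul_mem _ he2.1), ?_, ?_⟩
  · rw [QuadraticMap.map_add ⇑Q, QuadraticMap.map_smul, hQe2, QuadraticMap.polar_smul_right,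
      QuadraticMap.polar_comm ⇑Q z e2]
    simp only [smul_eq_mul, mul_zero, add_zero]
    rw [div_mul_cancel₀ _ hez]
    ring
  · rw [QuadraticMap.polar_add_left, QuadraticMap.polar_smul_left, hzp, he2p]
    simp

/-- the `W1`-component of a vector of `x^⊥` orthogonal to all of `W1 ∩ x^⊥` is a multiple of the
`W1`-component of `x` -/
theorem Dec.comp_in_span (hQ : (QuadraticMap.polarBilin Q).Nondegenerate) (h : Dec Q W1 W2)
    (x x1 x2 b b1 b2 : ι → F) (hx1 : x1 ∈ W1) (hx2 : x2 ∈ W2) (ex : x = x1 + x2)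
    (hb1 : b1 ∈ W1) (hb2 : b2 ∈ W2) (eb : b = b1 + b2)
    (hab : ∀ a ∈ W1, QuadraticMap.polar ⇑Q x a = 0 → QuadraticMap.polar ⇑Q a b = 0) :
    b1 ∈ Submodule.span F {x1} := by
  rw [← perp_perp Q hQ (Submodule.span F {x1})]
  intro y hy
  have hyx1 : QuadraticMap.polar ⇑Q y x1 = 0 := hy x1 (Submodule.mem_span_singleton_self x1)
  obtain ⟨y1, hy1, y2, hy2, ey⟩ := h.sum y
  have h2 : QuadraticMap.polar ⇑Q y1 x1 = 0 := by
    rw [ey, QuadraticMap.polar_add_left, h.symm.orth y2 hy2 x1 hx1, add_zero] at hyx1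
    exact hyx1
  have h1 : QuadraticMap.polar ⇑Q x y1 = 0 := by
    rw [ex, QuadraticMap.polar_add_left, QuadraticMap.polar_comm ⇑Q x1 y1, h2,
      h.symm.orth x2 hx2 y1 hy1, add_zero]
  have h3 := hab y1 hy1 h1
  rw [eb, QuadraticMap.polar_add_right, h.orth y1 hy1 b2 hb2, add_zero] at h3
  show QuadraticMap.polar ⇑Q b1 y = 0
  rw [ey, QuadraticMap.polar_add_right, QuadraticMap.polar_comm ⇑Q b1 y1, h3,
    h.orth b1 hb1 y2 hy2, add_zero]

theorem finrank_span_one (x : ι → F) : finrank F ↥(Submodule.span F ({x} : Set (ι → F))) ≤ 1 := by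
  have h := finrank_span_finset_le_card (R := F) ({x} : Finset (ι → F))
  rw [Finset.coe_singleton, Finset.card_singleton] at h
  exact h

/-- the vectors `y` of `Wb` all of whose multiples give Eichler transformations with `p` in `K` -/
def Mp (Q : QuadraticForm F (ι → F)) (K : Subgroup ↥(Cfsg.isometryGroup F ⇑Q)) (p : ι → F)
    (hQp : Q p = 0) (Wb : Submodule F (ι → F)) : Submodule F (ι → F) where
  carrier := {y | y ∈ Wb ∧ QuadraticMap.polar ⇑Q p y = 0 ∧ ∀ t : F, eich Q p (t • y) ∈ K}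
  add_mem' := by
    rintro y y' ⟨h1, h2, h3⟩ ⟨h1', h2', h3'⟩
    refine ⟨Wb.add_mem h1 h1', by rw [QuadraticMap.polar_add_right, h2, h2', add_zero],
      fun t => ?_⟩
    rw [smul_add, ← eich_mul Q p (t • y) (t • y') hQp
      (by rw [QuadraticMap.polar_smul_right, h2, smul_zero])
      (by rw [QuadraticMap.polar_smul_right, h2', smul_zero])]
    exact K.mul_mem (h3 t) (h3' t)
  zero_mem' := ⟨Wb.zero_mem, by simp [QuadraticMap.polar], fun t => by
    rw [smul_zero, eich_zero Q p hQp]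
    exact K.one_mem⟩
  smul_mem' := by
    rintro c y ⟨h1, h2, h3⟩
    refine ⟨Wb.smul_mem _ h1, by rw [QuadraticMap.polar_smul_right, h2, smul_zero], fun t => ?_⟩
    rw [smul_smul]
    exact h3 _

theorem Mp_inv (K : Subgroup ↥(Cfsg.isometryGroup F ⇑Q)) (p : ι → F) (hQp : Q p = 0)
    (Wb : Submodule F (ι → F)) (s : ↥(Cfsg.isometryGroup F ⇑Q)) (hs : s ∈ K)
    (hsp : act Q s p = p) (hsW : ∀ y ∈ Wb, act Q s y ∈ Wb) :
    ∀ y ∈ Mp Q K p hQp Wb, act Q s y ∈ Mp Q K p hQp Wb := by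
  rintro y ⟨h1, h2, h3⟩
  refine ⟨hsW y h1, ?_, fun t => ?_⟩
  · have h4 := act_polar Q s p y
    rw [hsp] at h4
    rw [h4]
    exact h2
  · have hpty : QuadraticMap.polar ⇑Q p (t • y) = 0 := by
      rw [QuadraticMap.polar_smul_right, h2, smul_zero]
    have hc := eich_conj Q s p (t • y) hQp hpty
    rw [hsp, map_smul] at hc
    rw [← hc]
    exact K.mul_mem (K.mul_mem hs (h3 t)) (K.inv_mem hs)

/-- the extraction of a root element -/
theorem extract (hQ : (QuadraticMap.polarBilin Q).Nondegenerate)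
    (K : Subgroup ↥(Cfsg.isometryGroup F ⇑Q)) {Wa U : Submodule F (ι → F)}
    (hKa : ∀ p ∈ Wa, ∀ a ∈ Wa, Q p = 0 → QuadraticMap.polar ⇑Q p a = 0 → eich Q p a ∈ K)
    (hU : ∀ x ∈ U, ∀ b ∈ U, Q x = 0 → QuadraticMap.polar ⇑Q x b = 0 → eich Q x b ∈ K)
    (h6 : 6 ≤ finrank F Wa) (x b a : ι → F) (hx : x ∈ U) (hQx : Q x = 0) (hb : b ∈ U)
    (hxb : QuadraticMap.polar ⇑Q x b = 0) (ha : a ∈ Wa) (hxa : QuadraticMap.polar ⇑Q x a = 0)
    (hab : QuadraticMap.polar ⇑Q a b ≠ 0) :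
    ∃ p ∈ Wa, p ≠ 0 ∧ Q p = 0 ∧ QuadraticMap.polar ⇑Q p x = 0 ∧
      ∀ t : F, eich Q p (t • x) ∈ K := by
  have hfin : 3 ≤ finrank F ↥(Wa ⊓ perp Q (Submodule.span F {x, a, b})) := by
    have h1 := Submodule.finrank_sup_add_finrank_inf_eq Wa (perp Q (Submodule.span F {x, a, b}))
    have h2 := finrank_perp Q hQ (Submodule.span F {x, a, b})
    have h3 : finrank F ↥(Submodule.span F ({x, a, b} : Set (ι → F))) ≤ 3 := by
      classical
      have h := finrank_span_finset_le_card (R := F) ({x, a, b} : Finset (ι → F))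
      have h' : ({x, a, b} : Finset (ι → F)).card ≤ 3 := Finset.card_le_three
      rw [Finset.coe_insert, Finset.coe_insert, Finset.coe_singleton] at h
      exact le_trans h h'
    have h4 := Submodule.finrank_le (Wa ⊔ perp Q (Submodule.span F {x, a, b}))
    have h5 := Submodule.finrank_le Wa
    rw [Module.finrank_fintype_fun_eq_card] at h4 h5
    omega
  obtain ⟨p, hp, hp0, hQp⟩ := exists_sing Q _ hfin
  have hpx : QuadraticMap.polar ⇑Q p x = 0 := hp.2 x (Submodule.subset_span (by simp))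
  have hpa : QuadraticMap.polar ⇑Q p a = 0 := hp.2 a (Submodule.subset_span (by simp))
  have hpb : QuadraticMap.polar ⇑Q p b = 0 := hp.2 b (Submodule.subset_span (by simp))
  refine ⟨p, hp.1, hp0, hQp, hpx, ?_⟩
  have key : ∀ t : F, eich Q p ((-(t * QuadraticMap.polar ⇑Q b a)) • x) ∈ K := by
    intro t
    have hpta : QuadraticMap.polar ⇑Q p (t • a) = 0 := by
      rw [QuadraticMap.polar_smul_right, hpa, smul_zero]
    have hS := hKa p hp.1 (t • a) (Wa.smul_mem _ ha) hQp hpta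
    have hT := hU x hx b hb hQx hxb
    have hconj := eich_conj Q (eich Q x b) p (t • a) hQp hpta
    have e1 : act Q (eich Q x b) p = p :=
      eich_fix Q x b p hQx hxb (by rw [QuadraticMap.polar_comm]; exact hpx)
        (by rw [QuadraticMap.polar_comm]; exact hpb)
    have e2 : act Q (eich Q x b) (t • a) =
        t • a + (-(t * QuadraticMap.polar ⇑Q b a)) • x := by
      rw [act_eich Q x b hQx hxb, QuadraticMap.polar_smul_right, QuadraticMap.polar_smul_right,
        hxa]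
      simp only [smul_eq_mul, mul_zero, zero_smul, add_zero]
      module
    rw [e1, e2] at hconj
    have hpx' : QuadraticMap.polar ⇑Q p ((-(t * QuadraticMap.polar ⇑Q b a)) • x) = 0 := by
      rw [QuadraticMap.polar_smul_right, hpx, smul_zero]
    have h5 : eich Q p (t • a + (-(t * QuadraticMap.polar ⇑Q b a)) • x) ∈ K := by
      rw [← hconj]
      exact K.mul_mem (K.mul_mem hT hS) (K.inv_mem hT)
    rw [← eich_mul Q p (t • a) _ hQp hpta hpx'] at h5
    exact (Subgroup.mul_mem_cancel_left K hS).mp h5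
  intro s
  have hba : QuadraticMap.polar ⇑Q b a ≠ 0 := by
    rw [QuadraticMap.polar_comm]
    exact hab
  have h6' := key (-(s / QuadraticMap.polar ⇑Q b a))
  have e : -(-(s / QuadraticMap.polar ⇑Q b a) * QuadraticMap.polar ⇑Q b a) = s := by
    field_simp
  rw [e] at h6'
  exact h6'

/-- irreducibility under the Eichler transformations of a subspace of dimension at least 3 -/
theorem irr_big (hQ : (QuadraticMap.polarBilin Q).Nondegenerate) {Y Z : Submodule F (ι → F)}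
    (hd : Dec Q Y Z) (h3 : 3 ≤ finrank F Y) (M : Submodule F (ι → F)) (hMY : M ≤ Y)
    (hM0 : M ≠ ⊥)
    (hinv : ∀ e ∈ Y, ∀ z ∈ Y, Q e = 0 → QuadraticMap.polar ⇑Q e z = 0 →
      ∀ m ∈ M, act Q (eich Q e z) m ∈ M) : Y ≤ M := by
  obtain ⟨m, hm, hm0⟩ := (Submodule.ne_bot_iff _).mp hM0
  have hs := exists_sing Q Y h3
  obtain ⟨e, he, hQe, hem⟩ := hd.sing_not_perp hQ hs m (hMY hm) hm0
  have he0 : e ≠ 0 := by
    intro h0
    apply hem
    rw [h0]
    simp [QuadraticMap.polar]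
  obtain ⟨f, hf, hQf, hef⟩ := hd.partner hQ e he he0 hQe
  obtain ⟨z1, hz1, z2, hz2, h1e, -, h2e, -, h12⟩ := hd.exists_z12 hQ h3 e f he hf hQe hQf hef
  obtain ⟨c, hc⟩ : ∃ c, c = QuadraticMap.polar ⇑Q e m := ⟨_, rfl⟩
  have hc0 : c ≠ 0 := by
    rw [hc]
    exact hem
  have v : ∀ z ∈ Y, QuadraticMap.polar ⇑Q e z = 0 →
      c • z - (QuadraticMap.polar ⇑Q z m + Q z * c) • e ∈ M := by
    intro z hz hez
    have h1 := hinv e he z hz hQe hez m hm
    rw [act_eich Q e z hQe hez, ← hc] at h1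
    have h2 := M.sub_mem h1 hm
    have e1 : m + c • z - (QuadraticMap.polar ⇑Q z m + Q z * c) • e - m =
        c • z - (QuadraticMap.polar ⇑Q z m + Q z * c) • e := by abel
    rw [e1] at h2
    exact h2
  have heM : e ∈ M := by
    have h1 := v (z1 + z2) (Y.add_mem hz1 hz2)
      (by rw [QuadraticMap.polar_add_right, h1e, h2e, add_zero])
    have h2 := v z1 hz1 h1e
    have h3' := v z2 hz2 h2e
    have h4 := M.sub_mem (M.sub_mem h1 h2) h3'
    have e1 : c • (z1 + z2) - (QuadraticMap.polar ⇑Q (z1 + z2) m + Q (z1 + z2) * c) • e -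
        (c • z1 - (QuadraticMap.polar ⇑Q z1 m + Q z1 * c) • e) -
        (c • z2 - (QuadraticMap.polar ⇑Q z2 m + Q z2 * c) • e) =
        (-(QuadraticMap.polar ⇑Q z1 z2 * c)) • e := by
      rw [QuadraticMap.polar_add_left, QuadraticMap.map_add ⇑Q]
      module
    rw [e1] at h4
    have h5 := M.smul_mem (-(QuadraticMap.polar ⇑Q z1 z2 * c))⁻¹ h4
    rw [smul_smul, inv_mul_cancel₀ (neg_ne_zero.mpr (mul_ne_zero h12 hc0)), one_smul] at h5
    exact h5
  have hperp : ∀ z ∈ Y, QuadraticMap.polar ⇑Q e z = 0 → z ∈ M := by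
    intro z hz hez
    have h1 := v z hz hez
    have h2 := M.add_mem h1 (M.smul_mem (QuadraticMap.polar ⇑Q z m + Q z * c) heM)
    rw [sub_add_cancel] at h2
    have h3' := M.smul_mem c⁻¹ h2
    rw [smul_smul, inv_mul_cancel₀ hc0, one_smul] at h3'
    exact h3'
  intro y hy
  have h1 : y - (QuadraticMap.polar ⇑Q e y / c) • m ∈ M := by
    apply hperp _ (Y.sub_mem hy (Y.smul_mem _ (hMY hm)))
    rw [QuadraticMap.polar_sub_right, QuadraticMap.polar_smul_right, ← hc, smul_eq_mul,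
      div_mul_cancel₀ _ hc0, sub_self]
  have h2 := M.add_mem h1 (M.smul_mem (QuadraticMap.polar ⇑Q e y / c) hm)
  rw [sub_add_cancel] at h2
  exact h2

/-- irreducibility of a plane under its reflections -/
theorem irr_plane (hQ : (QuadraticMap.polarBilin Q).Nondegenerate) {Y Z : Submodule F (ι → F)}
    (hd : Dec Q Y Z) (h2 : finrank F Y = 2)
    (hcond : 4 ≤ Fintype.card F ∨ ∀ x ∈ Y, Q x = 0 → x = 0)
    (M : Submodule F (ι → F)) (hMY : M ≤ Y) (hM0 : M ≠ ⊥)
    (hinv : ∀ w ∈ Y, Q w ≠ 0 → ∀ m ∈ M, act Q (reflO Q w) m ∈ M) : Y ≤ M := by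
  obtain ⟨m, hm, hm0⟩ := (Submodule.ne_bot_iff _).mp hM0
  have hmY := hMY hm
  obtain ⟨n, hn, hnS, hmn⟩ : ∃ n ∈ Y, n ∉ Submodule.span F {m} ∧
      QuadraticMap.polar ⇑Q m n ≠ 0 := by
    obtain ⟨n0, hn0, hmn0⟩ : ∃ n0 ∈ Y, QuadraticMap.polar ⇑Q m n0 ≠ 0 := by
      by_contra hcon
      push Not at hcon
      exact hm0 (hd.nd hQ m hmY hcon)
    by_cases hn0S : n0 ∈ Submodule.span F {m}
    · obtain ⟨k, hk, hkS⟩ : ∃ k ∈ Y, k ∉ Submodule.span F {m} := by
        by_contra hcon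
        push Not at hcon
        have h1 := Submodule.finrank_mono (show Y ≤ Submodule.span F {m} from hcon)
        have h3 := finrank_span_one m
        omega
      by_cases hmk : QuadraticMap.polar ⇑Q m k = 0
      · refine ⟨k + n0, Y.add_mem hk hn0, ?_, ?_⟩
        · intro hmem
          apply hkS
          have h4 := Submodule.sub_mem _ hmem hn0S
          rwa [add_sub_cancel_right] at h4
        · rw [QuadraticMap.polar_add_right, hmk, zero_add]
          exact hmn0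
      · exact ⟨k, hk, hkS, hmk⟩
    · exact ⟨n0, hn0, hn0S, hmn0⟩
  obtain ⟨t, hQt, hpt⟩ : ∃ t : F, Q (n + t • m) ≠ 0 ∧
      QuadraticMap.polar ⇑Q (n + t • m) m ≠ 0 := by
    rcases hcond with h4 | han
    · classical
      obtain ⟨A, hA⟩ : ∃ A, A = Q n := ⟨_, rfl⟩
      obtain ⟨B, hB⟩ : ∃ B, B = QuadraticMap.polar ⇑Q n m := ⟨_, rfl⟩
      obtain ⟨C, hC⟩ : ∃ C, C = Q m := ⟨_, rfl⟩
      obtain ⟨D, hD⟩ : ∃ D, D = QuadraticMap.polar ⇑Q m m := ⟨_, rfl⟩
      have hB0 : B ≠ 0 := by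
        rw [hB, QuadraticMap.polar_comm]
        exact hmn
      have hf : ∀ t : F, Q (n + t • m) = C * t ^ 2 + B * t + A := by
        intro t
        rw [QuadraticMap.map_add ⇑Q, QuadraticMap.map_smul, QuadraticMap.polar_smul_right, ← hA,
          ← hB, ← hC]
        simp only [smul_eq_mul]
        ring
      have hg : ∀ t : F, QuadraticMap.polar ⇑Q (n + t • m) m = B + t * D := by
        intro t
        rw [QuadraticMap.polar_add_left, QuadraticMap.polar_smul_left, ← hB, ← hD, smul_eq_mul]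
      let P : Polynomial F := Polynomial.C C * Polynomial.X ^ 2 + Polynomial.C B * Polynomial.X
        + Polynomial.C A
      have hP0 : P ≠ 0 := by
        intro h0
        have h1 : P.coeff 1 = B := by
          simp [P, Polynomial.coeff_X, Polynomial.coeff_C, Polynomial.coeff_X_pow]
        rw [h0, Polynomial.coeff_zero] at h1
        exact hB0 h1.symm
      have hdeg : P.natDegree ≤ 2 := Polynomial.natDegree_quadratic_le
      have hcard : (P.roots.toFinset ∪ {-B / D}).card ≤ 3 := by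
        have h1 := Finset.card_union_le P.roots.toFinset {-B / D}
        have h2' := Multiset.toFinset_card_le P.roots
        have h3 := Polynomial.card_roots' P
        rw [Finset.card_singleton] at h1
        omega
      obtain ⟨t, ht⟩ : ∃ t : F, t ∉ P.roots.toFinset ∪ {-B / D} := by
        by_contra hcon
        push Not at hcon
        have h1 : Finset.univ ⊆ P.roots.toFinset ∪ {-B / D} := fun t _ => hcon t
        have h2' := Finset.card_le_card h1
        rw [Finset.card_univ] at h2'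
        omega
      rw [Finset.mem_union, Multiset.mem_toFinset, Finset.mem_singleton] at ht
      push Not at ht
      refine ⟨t, ?_, ?_⟩
      · rw [hf]
        intro h0
        apply ht.1
        rw [Polynomial.mem_roots hP0, Polynomial.IsRoot.def]
        simp only [P, Polynomial.eval_add, Polynomial.eval_mul, Polynomial.eval_C,
          Polynomial.eval_pow, Polynomial.eval_X]
        exact h0
      · rw [hg]
        intro h0
        apply ht.2
        have hD0 : D ≠ 0 := by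
          intro hD0
          rw [hD0, mul_zero, add_zero] at h0
          exact hB0 h0
        field_simp
        linear_combination h0
    · refine ⟨0, ?_, ?_⟩
      · rw [zero_smul, add_zero]
        intro h0
        have h1 := han n hn h0
        apply hnS
        rw [h1]
        exact Submodule.zero_mem _
      · rw [zero_smul, add_zero, QuadraticMap.polar_comm]
        exact hmn
  obtain ⟨w, hw⟩ : ∃ w, w = n + t • m := ⟨_, rfl⟩
  rw [← hw] at hQt hpt
  have hwY : w ∈ Y := by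
    rw [hw]
    exact Y.add_mem hn (Y.smul_mem _ hmY)
  have hwS : w ∉ Submodule.span F {m} := by
    intro hmem
    apply hnS
    have h4 := Submodule.sub_mem _ hmem
      (Submodule.smul_mem _ t (Submodule.mem_span_singleton_self m))
    rw [hw, add_sub_cancel_right] at h4
    exact h4
  have hwM : w ∈ M := by
    have h1 := hinv w hwY hQt m hm
    rw [act_reflO Q w hQt] at h1
    have h3 := M.sub_mem hm h1
    rw [sub_sub_cancel] at h3
    have h4 := M.smul_mem ((Q w)⁻¹ * QuadraticMap.polar ⇑Q w m)⁻¹ h3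
    rw [smul_smul, inv_mul_cancel₀ (mul_ne_zero (inv_ne_zero hQt) hpt), one_smul] at h4
    exact h4
  have hli : LinearIndependent F ![m, w] := by
    rw [LinearIndependent.pair_iff' hm0]
    intro a ha
    apply hwS
    rw [← ha]
    exact Submodule.smul_mem _ a (Submodule.mem_span_singleton_self m)
  have hspan : Submodule.span F (Set.range ![m, w]) ≤ M := by
    rw [Submodule.span_le]
    rintro _ ⟨i, rfl⟩
    fin_cases i
    · exact hm
    · exact hwM
  have hfr : finrank F ↥(Submodule.span F (Set.range ![m, w])) = 2 := by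
    rw [finrank_span_eq_card hli]
    simp
  have hle : Submodule.span F (Set.range ![m, w]) ≤ Y := le_trans hspan hMY
  have heq := Submodule.eq_of_le_of_finrank_le hle (by rw [hfr, h2])
  rw [← heq]
  exact hspan

theorem irr_line {Y : Submodule F (ι → F)} (h1 : finrank F Y = 1) (M : Submodule F (ι → F))
    (hMY : M ≤ Y) (hM0 : M ≠ ⊥) : Y ≤ M := by
  have h2 : 1 ≤ finrank F M := by
    by_contra hcon
    have h3 : finrank F M = 0 := by omega
    exact hM0 (Submodule.finrank_eq_zero.mp h3)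
  have heq := Submodule.eq_of_le_of_finrank_le hMY (by omega)
  rw [heq]

/-- the last step: a full root group gives everything -/
theorem finish (hQ : (QuadraticMap.polarBilin Q).Nondegenerate) (hn : 7 ≤ Fintype.card ι)
    (K : Subgroup ↥(Cfsg.isometryGroup F ⇑Q)) {Wa Wb : Submodule F (ι → F)} (hd : Dec Q Wa Wb)
    (h3 : 3 ≤ finrank F Wa)
    (hKa : ∀ p ∈ Wa, ∀ a ∈ Wa, Q p = 0 → QuadraticMap.polar ⇑Q p a = 0 → eich Q p a ∈ K)
    (p : ι → F) (hp : p ∈ Wa) (hp0 : p ≠ 0) (hPE : PE Q K p) :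
    commutator ↥(Cfsg.isometryGroup F ⇑Q) ≤ K := by
  have hQp := hPE.1
  obtain ⟨f, hf, hQf, hpf⟩ := hd.partner hQ p hp hp0 hQp
  have hfp : QuadraticMap.polar ⇑Q f p = 1 := by
    rw [QuadraticMap.polar_comm]
    exact hpf
  obtain ⟨z1, hz1, z2, hz2, h1p, h1f, h2p, h2f, h12⟩ :=
    hd.exists_z12 hQ h3 p f hp hf hQp hQf hpf
  obtain ⟨z, hz, hzp, hzf, hQz⟩ : ∃ z ∈ Wa, QuadraticMap.polar ⇑Q p z = 0 ∧
      QuadraticMap.polar ⇑Q f z = 0 ∧ Q z ≠ 0 := by
    by_cases hq1 : Q z1 = 0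
    · by_cases hq2 : Q z2 = 0
      · refine ⟨z1 + z2, Wa.add_mem hz1 hz2,
          by rw [QuadraticMap.polar_add_right, h1p, h2p, add_zero],
          by rw [QuadraticMap.polar_add_right, h1f, h2f, add_zero], ?_⟩
        rw [QuadraticMap.map_add ⇑Q, hq1, hq2, zero_add, zero_add]
        exact h12
      · exact ⟨z2, hz2, h2p, h2f, hq2⟩
    · exact ⟨z1, hz1, h1p, h1f, hq1⟩
  have hzp' : QuadraticMap.polar ⇑Q z p = 0 := by
    rw [QuadraticMap.polar_comm]
    exact hzp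
  have hh := hKa f hf z hz hQf hzf
  have hPE2 := PE_conj Q K hPE _ hh
  have hact : act Q (eich Q f z) p = p + z - Q z • f := by
    rw [act_eich Q f z hQf hzf, hfp, hzp']
    simp
  have hne : QuadraticMap.polar ⇑Q p (act Q (eich Q f z) p) ≠ 0 := by
    rw [hact, QuadraticMap.polar_sub_right, QuadraticMap.polar_add_right,
      QuadraticMap.polar_smul_right, polar_self_of_sing Q p hQp, hzp, hpf]
    simpa using hQz
  have hall := PE_all Q hQ K hPE hPE2 hne
  refine le_trans (omega_le_eich Q hQ (by omega) (hp2_of_dim Q hQ hn)) ?_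
  rw [Subgroup.closure_le]
  rintro _ ⟨e, y, he, hey, rfl⟩
  exact (hall e he).2 y hey

theorem pe_of_top (K : Subgroup ↥(Cfsg.isometryGroup F ⇑Q)) {Wa Wb : Submodule F (ι → F)}
    (hd : Dec Q Wa Wb)
    (hKa : ∀ p ∈ Wa, ∀ a ∈ Wa, Q p = 0 → QuadraticMap.polar ⇑Q p a = 0 → eich Q p a ∈ K)
    (p : ι → F) (hp : p ∈ Wa) (hQp : Q p = 0) (hM : Wb ≤ Mp Q K p hQp Wb) : PE Q K p := by
  refine ⟨hQp, fun y hy => ?_⟩
  obtain ⟨ya, hya, yb, hyb, e⟩ := hd.sum y
  have h1 : QuadraticMap.polar ⇑Q p yb = 0 := hd.orth p hp yb hyb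
  have h2 : QuadraticMap.polar ⇑Q p ya = 0 := by
    rw [e, QuadraticMap.polar_add_right, h1, add_zero] at hy
    exact hy
  rw [e, ← eich_mul Q p ya yb hQp h2 h1]
  have h3 := (hM hyb).2.2 1
  rw [one_smul] at h3
  exact K.mul_mem (hKa p hp ya hya hQp h2) h3

/-- from an extracted root element to `Ω ≤ K`, given irreducibility -/
theorem stage2 (hQ : (QuadraticMap.polarBilin Q).Nondegenerate) (hn : 7 ≤ Fintype.card ι)
    (K : Subgroup ↥(Cfsg.isometryGroup F ⇑Q)) {Wa Wb : Submodule F (ι → F)} (hd : Dec Q Wa Wb)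
    (h3 : 3 ≤ finrank F Wa)
    (hKa : ∀ p ∈ Wa, ∀ a ∈ Wa, Q p = 0 → QuadraticMap.polar ⇑Q p a = 0 → eich Q p a ∈ K)
    (p : ι → F) (hp : p ∈ Wa) (hp0 : p ≠ 0) (hQp : Q p = 0) (x : ι → F)
    (hpx : QuadraticMap.polar ⇑Q p x = 0) (hxWa : x ∉ Wa) (hx : ∀ t : F, eich Q p (t • x) ∈ K)
    (hirr : ∀ M : Submodule F (ι → F), M ≤ Wb → M ≠ ⊥ →
      (∀ s ∈ K, act Q s p = p → (∀ y ∈ Wb, act Q s y ∈ Wb) → ∀ y ∈ M, act Q s y ∈ M) →
      Wb ≤ M) :
    commutator ↥(Cfsg.isometryGroup F ⇑Q) ≤ K := by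
  obtain ⟨xa, hxa, xb, hxb, e⟩ := hd.sum x
  have hxb0 : xb ≠ 0 := by
    intro h0
    apply hxWa
    rw [e, h0, add_zero]
    exact hxa
  have h1 : QuadraticMap.polar ⇑Q p xb = 0 := hd.orth p hp xb hxb
  have h2 : QuadraticMap.polar ⇑Q p xa = 0 := by
    rw [e, QuadraticMap.polar_add_right, h1, add_zero] at hpx
    exact hpx
  have hxbM : xb ∈ Mp Q K p hQp Wb := by
    refine ⟨hxb, h1, fun t => ?_⟩
    have h4 := hx t
    have h2t : QuadraticMap.polar ⇑Q p (t • xa) = 0 := by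
      rw [QuadraticMap.polar_smul_right, h2, smul_zero]
    have h1t : QuadraticMap.polar ⇑Q p (t • xb) = 0 := by
      rw [QuadraticMap.polar_smul_right, h1, smul_zero]
    rw [e, smul_add, ← eich_mul Q p (t • xa) (t • xb) hQp h2t h1t] at h4
    exact (Subgroup.mul_mem_cancel_left K
      (hKa p hp (t • xa) (Wa.smul_mem _ hxa) hQp h2t)).mp h4
  have hM0 : Mp Q K p hQp Wb ≠ ⊥ := by
    intro h0
    rw [h0] at hxbM
    exact hxb0 ((Submodule.mem_bot F).mp hxbM)
  have hM := hirr (Mp Q K p hQp Wb) (fun y hy => hy.1) hM0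
    (fun s hs hsp hsW => Mp_inv K p hQp Wb s hs hsp hsW)
  exact finish hQ hn K hd h3 hKa p hp hp0 (pe_of_top K hd hKa p hp hQp hM)

theorem hirr_big (hQ : (QuadraticMap.polarBilin Q).Nondegenerate)
    (K : Subgroup ↥(Cfsg.isometryGroup F ⇑Q)) {Wa Wb : Submodule F (ι → F)} (hd : Dec Q Wa Wb)
    (h3 : 3 ≤ finrank F Wb)
    (hKb : ∀ e ∈ Wb, ∀ z ∈ Wb, Q e = 0 → QuadraticMap.polar ⇑Q e z = 0 → eich Q e z ∈ K)
    (p : ι → F) (hp : p ∈ Wa) :
    ∀ M : Submodule F (ι → F), M ≤ Wb → M ≠ ⊥ →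
      (∀ s ∈ K, act Q s p = p → (∀ y ∈ Wb, act Q s y ∈ Wb) → ∀ y ∈ M, act Q s y ∈ M) →
      Wb ≤ M := by
  intro M hMW hM0 hinv
  apply irr_big hQ hd.symm h3 M hMW hM0
  intro e he z hz hQe hez m hm
  apply hinv (eich Q e z) (hKb e he z hz hQe hez) ?_ ?_ m hm
  · exact eich_fix Q e z p hQe hez (hd.symm.orth e he p hp) (hd.symm.orth z hz p hp)
  · intro y hy
    rw [act_eich Q e z hQe hez]
    exact Wb.sub_mem (Wb.add_mem hy (Wb.smul_mem _ hz)) (Wb.smul_mem _ he)

theorem hirr_plane (hQ : (QuadraticMap.polarBilin Q).Nondegenerate) (hn : 7 ≤ Fintype.card ι)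
    (K : Subgroup ↥(Cfsg.isometryGroup F ⇑Q)) {Wa Wb : Submodule F (ι → F)} (hd : Dec Q Wa Wb)
    (h5 : 5 ≤ finrank F Wa) (h2 : finrank F Wb = 2)
    (hcond : 4 ≤ Fintype.card F ∨ ∀ x ∈ Wb, Q x = 0 → x = 0)
    (hK : ∀ s ∈ commutator ↥(Cfsg.isometryGroup F ⇑Q),
      (∀ x ∈ Wa, act Q s x ∈ Wa) → (∀ x ∈ Wb, act Q s x ∈ Wb) → s ∈ K)
    (p : ι → F) (hp : p ∈ Wa) (hp0 : p ≠ 0) (hQp : Q p = 0) :
    ∀ M : Submodule F (ι → F), M ≤ Wb → M ≠ ⊥ →
      (∀ s ∈ K, act Q s p = p → (∀ y ∈ Wb, act Q s y ∈ Wb) → ∀ y ∈ M, act Q s y ∈ M) →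
      Wb ≤ M := by
  intro M hMW hM0 hinv
  apply irr_plane hQ hd.symm h2 hcond M hMW hM0
  intro w' hw' hQw' m hm
  obtain ⟨w, hw, hQw, hwp⟩ := hd.exists_norm hQ h5 p hp hp0 hQp (Q w')
  have hmem : reflO Q w' * reflO Q w ∈ commutator ↥(Cfsg.isometryGroup F ⇑Q) := by
    have h1 := refl_pair_mem Q hQ (by omega) (hp2_of_dim Q hQ hn) w' w hQw' hQw
    have h2' : Subgroup.closure (eichSet Q) ≤ commutator ↥(Cfsg.isometryGroup F ⇑Q) := by
      rw [Subgroup.closure_le]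
      rintro _ ⟨e, y, he, hey, rfl⟩
      exact eich_mem_omega Q hQ (by omega) e y he hey
    exact h2' h1
  have hw'Wa : ∀ x ∈ Wa, QuadraticMap.polar ⇑Q w' x = 0 := fun x hx => hd.symm.orth w' hw' x hx
  have hwWb : ∀ y ∈ Wb, QuadraticMap.polar ⇑Q w y = 0 := fun y hy => hd.orth w hw y hy
  have hQw0 : Q w ≠ 0 := by
    rw [hQw]
    exact hQw'
  have hs : reflO Q w' * reflO Q w ∈ K := by
    apply hK _ hmem
    · intro x hx
      rw [act_mul, act_reflO Q w hQw0,
        act_reflO_fix Q w' _ (hw'Wa _ (Wa.sub_mem hx (Wa.smul_mem _ hw)))]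
      exact Wa.sub_mem hx (Wa.smul_mem _ hw)
    · intro y hy
      rw [act_mul, act_reflO_fix Q w y (hwWb y hy), act_reflO Q w' hQw']
      exact Wb.sub_mem hy (Wb.smul_mem _ hw')
  have hfixp : act Q (reflO Q w' * reflO Q w) p = p := by
    rw [act_mul, act_reflO_fix Q w p hwp, act_reflO_fix Q w' p (hw'Wa p hp)]
  have hWb : ∀ y ∈ Wb, act Q (reflO Q w' * reflO Q w) y ∈ Wb := by
    intro y hy
    rw [act_mul, act_reflO_fix Q w y (hwWb y hy), act_reflO Q w' hQw']
    exact Wb.sub_mem hy (Wb.smul_mem _ hw')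
  have h3 := hinv _ hs hfixp hWb m hm
  rw [act_mul, act_reflO_fix Q w m (hwWb m (hMW hm))] at h3
  exact h3

/-- one attempt at extraction, on the side `Wa` -/
theorem attempt (hQ : (QuadraticMap.polarBilin Q).Nondegenerate) (hn : 7 ≤ Fintype.card ι)
    (K : Subgroup ↥(Cfsg.isometryGroup F ⇑Q)) {Wa Wb U : Submodule F (ι → F)}
    (hd : Dec Q Wa Wb) (h6 : 6 ≤ finrank F Wa)
    (hKa : ∀ p ∈ Wa, ∀ a ∈ Wa, Q p = 0 → QuadraticMap.polar ⇑Q p a = 0 → eich Q p a ∈ K)
    (hUK : ∀ x ∈ U, ∀ b ∈ U, Q x = 0 → QuadraticMap.polar ⇑Q x b = 0 → eich Q x b ∈ K)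
    (hirr : ∀ p ∈ Wa, p ≠ 0 → Q p = 0 → ∀ M : Submodule F (ι → F), M ≤ Wb → M ≠ ⊥ →
      (∀ s ∈ K, act Q s p = p → (∀ y ∈ Wb, act Q s y ∈ Wb) → ∀ y ∈ M, act Q s y ∈ M) →
      Wb ≤ M)
    (x : ι → F) (hx : x ∈ U) (hQx : Q x = 0) (hxWa : x ∉ Wa) (b : ι → F) (hb : b ∈ U)
    (hxb : QuadraticMap.polar ⇑Q x b = 0) (a : ι → F) (ha : a ∈ Wa)
    (hxa : QuadraticMap.polar ⇑Q x a = 0) (hab : QuadraticMap.polar ⇑Q a b ≠ 0) :
    commutator ↥(Cfsg.isometryGroup F ⇑Q) ≤ K := by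
  obtain ⟨p, hp, hp0, hQp, hpx, hall⟩ := extract hQ K hKa hUK h6 x b a hx hQx hb hxb ha hxa hab
  exact stage2 hQ hn K hd (by omega) hKa p hp hp0 hQp x hpx hxWa hall (hirr p hp hp0 hQp)

/-- the main theorem: `K` contains the stabiliser of the decomposition and an element moving
`W1` -/
theorem mainN (hQ : (QuadraticMap.polarBilin Q).Nondegenerate) (hn : 7 ≤ Fintype.card ι)
    (K : Subgroup ↥(Cfsg.isometryGroup F ⇑Q)) (hd : Dec Q W1 W2)
    (hK : ∀ s ∈ commutator ↥(Cfsg.isometryGroup F ⇑Q),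
      (∀ x ∈ W1, act Q s x ∈ W1) → (∀ x ∈ W2, act Q s x ∈ W2) → s ∈ K)
    (h6 : 6 ≤ finrank F W1) (g : ↥(Cfsg.isometryGroup F ⇑Q)) (hgK : g ∈ K)
    (hg : ¬ ∀ x ∈ W1, act Q g x ∈ W1)
    (hcase : (finrank F W2 + 3 ≤ finrank F W1 ∧
        (finrank F W2 = 2 → 4 ≤ Fintype.card F ∨ ∀ x ∈ W2, Q x = 0 → x = 0)) ∨
      (6 ≤ finrank F W2 ∧ ¬ ∀ x ∈ W1, act Q g x ∈ W2)) :
    commutator ↥(Cfsg.isometryGroup F ⇑Q) ≤ K := by
  have hn5 : 5 ≤ Fintype.card ι := by omega
  have hK1 : ∀ p ∈ W1, ∀ a ∈ W1, Q p = 0 → QuadraticMap.polar ⇑Q p a = 0 → eich Q p a ∈ K := by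
    intro p hp a ha hQp hpa
    apply hK _ (eich_mem_omega Q hQ hn5 p a hQp hpa)
    · intro x hx
      rw [act_eich Q p a hQp hpa]
      exact W1.sub_mem (W1.add_mem hx (W1.smul_mem _ ha)) (W1.smul_mem _ hp)
    · intro y hy
      rw [eich_fix Q p a y hQp hpa (hd.orth p hp y hy) (hd.orth a ha y hy)]
      exact hy
  have hK2 : ∀ p ∈ W2, ∀ a ∈ W2, Q p = 0 → QuadraticMap.polar ⇑Q p a = 0 → eich Q p a ∈ K := by
    intro p hp a ha hQp hpa
    apply hK _ (eich_mem_omega Q hQ hn5 p a hQp hpa)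
    · intro y hy
      rw [eich_fix Q p a y hQp hpa (hd.symm.orth p hp y hy) (hd.symm.orth a ha y hy)]
      exact hy
    · intro x hx
      rw [act_eich Q p a hQp hpa]
      exact W2.sub_mem (W2.add_mem hx (W2.smul_mem _ ha)) (W2.smul_mem _ hp)
  have hK' : ∀ s ∈ commutator ↥(Cfsg.isometryGroup F ⇑Q),
      (∀ x ∈ W2, act Q s x ∈ W2) → (∀ x ∈ W1, act Q s x ∈ W1) → s ∈ K :=
    fun s hs h2 h1 => hK s hs h1 h2
  obtain ⟨U, hU_def⟩ : ∃ U : Submodule F (ι → F), U = W1.map (act Q g) := ⟨_, rfl⟩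
  obtain ⟨U2, hU2_def⟩ : ∃ U2 : Submodule F (ι → F), U2 = W2.map (act Q g) := ⟨_, rfl⟩
  have hdU : Dec Q U U2 := by
    constructor
    · intro x hx y hy
      rw [hU_def] at hx
      rw [hU2_def] at hy
      obtain ⟨x0, hx0, rfl⟩ := hx
      obtain ⟨y0, hy0, rfl⟩ := hy
      rw [act_polar]
      exact hd.orth x0 hx0 y0 hy0
    · intro x
      obtain ⟨a, ha, b, hb, e⟩ := hd.sum (act Q g⁻¹ x)
      refine ⟨act Q g a, by rw [hU_def]; exact ⟨a, ha, rfl⟩, act Q g b,
        by rw [hU2_def]; exact ⟨b, hb, rfl⟩, ?_⟩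
      rw [← map_add, ← e, act_act_inv]
  have hUfin : finrank F U = finrank F W1 := by
    rw [hU_def]
    exact finrank_map_act Q g W1
  have hUK : ∀ x ∈ U, ∀ b ∈ U, Q x = 0 → QuadraticMap.polar ⇑Q x b = 0 → eich Q x b ∈ K := by
    intro x hx b hb hQx hxb
    rw [hU_def] at hx hb
    obtain ⟨x0, hx0, rfl⟩ := hx
    obtain ⟨b0, hb0, rfl⟩ := hb
    rw [act_Q] at hQx
    rw [act_polar] at hxb
    rw [← eich_conj Q g x0 b0 hQx hxb]
    exact K.mul_mem (K.mul_mem hgK (hK1 x0 hx0 b0 hb0 hQx hxb)) (K.inv_mem hgK)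
  have hUW1 : ¬ U ≤ W1 := by
    intro hle
    apply hg
    intro x hx
    exact hle (by rw [hU_def]; exact ⟨x, hx, rfl⟩)
  have hsU : ∃ e0 ∈ U, e0 ≠ 0 ∧ Q e0 = 0 := exists_sing Q U (by omega)
  have hperp : ∀ x b : ι → F, b ∈ U ⊓ perp Q (Submodule.span F {x}) →
      QuadraticMap.polar ⇑Q x b = 0 := by
    intro x b hb
    rw [QuadraticMap.polar_comm]
    exact hb.2 x (Submodule.mem_span_singleton_self x)
  rcases hcase with ⟨hdim, hplane⟩ | ⟨h62, hgW2⟩
  · obtain ⟨x, hx, hQx, hxW1⟩ := hdU.sing_notin hQ hsU W1 hUW1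
    by_cases hex : ∃ b ∈ U, QuadraticMap.polar ⇑Q x b = 0 ∧ ∃ a ∈ W1,
        QuadraticMap.polar ⇑Q x a = 0 ∧ QuadraticMap.polar ⇑Q a b ≠ 0
    · obtain ⟨b, hb, hxb, a, ha, hxa, hab⟩ := hex
      refine attempt hQ hn K hd h6 hK1 hUK ?_ x hx hQx hxW1 b hb hxb a ha hxa hab
      intro p hp hp0 hQp
      rcases (by omega : finrank F W2 = 0 ∨ finrank F W2 = 1 ∨ finrank F W2 = 2 ∨
        3 ≤ finrank F W2) with h0 | h1 | h2 | h3
      · intro M hMW hM0 _
        exfalso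
        apply hM0
        rw [eq_bot_iff]
        exact le_trans hMW (le_of_eq (Submodule.finrank_eq_zero.mp h0))
      · intro M hMW hM0 _
        exact irr_line h1 M hMW hM0
      · exact hirr_plane hQ hn K hd (by omega) h2 (hplane h2) hK p hp hp0 hQp
      · exact hirr_big hQ K hd h3 hK2 p hp
    · exfalso
      push Not at hex
      obtain ⟨x1, hx1, x2, hx2, ex⟩ := hd.sum x
      have hle : U ⊓ perp Q (Submodule.span F {x}) ≤ Submodule.span F {x1} ⊔ W2 := by
        intro b hb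
        obtain ⟨b1, hb1, b2, hb2, eb⟩ := hd.sum b
        have h1 := hd.comp_in_span hQ x x1 x2 b b1 b2 hx1 hx2 ex hb1 hb2 eb
          (fun a ha hxa => hex b hb.1 (hperp x b hb) a ha hxa)
        rw [eb]
        exact Submodule.add_mem _ (Submodule.mem_sup_left h1) (Submodule.mem_sup_right hb2)
      have h1 := Submodule.finrank_mono hle
      have h2 := Submodule.finrank_add_le_finrank_add_finrank (Submodule.span F {x1}) W2
      have h3 := finrank_span_one x1
      have h4 := finrank_inf_perp_ge hQ U x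
      omega
  · have hUW2 : ¬ U ≤ W2 := by
      intro hle
      apply hgW2
      intro x hx
      exact hle (by rw [hU_def]; exact ⟨x, hx, rfl⟩)
    obtain ⟨x, hx, hQx, hxW1, hxW2⟩ : ∃ x ∈ U, Q x = 0 ∧ x ∉ W1 ∧ x ∉ W2 := by
      obtain ⟨xa, hxa, hQxa, hxaW1⟩ := hdU.sing_notin hQ hsU W1 hUW1
      obtain ⟨xb, hxb, hQxb, hxbW2⟩ := hdU.sing_notin hQ hsU W2 hUW2
      by_cases h1 : xa ∈ W2
      · by_cases h2 : xb ∈ W1
        · refine ⟨xa + xb, U.add_mem hxa hxb, ?_, ?_, ?_⟩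
          · rw [QuadraticMap.map_add ⇑Q, hQxa, hQxb, hd.symm.orth xa h1 xb h2]
            simp
          · intro hmem
            apply hxaW1
            have h3 := W1.sub_mem hmem h2
            rwa [add_sub_cancel_right] at h3
          · intro hmem
            apply hxbW2
            have h3 := W2.sub_mem hmem h1
            rwa [add_sub_cancel_left] at h3
        · exact ⟨xb, hxb, hQxb, h2, hxbW2⟩
      · exact ⟨xa, hxa, hQxa, hxaW1, h1⟩
    by_cases hex1 : ∃ b ∈ U, QuadraticMap.polar ⇑Q x b = 0 ∧ ∃ a ∈ W1,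
        QuadraticMap.polar ⇑Q x a = 0 ∧ QuadraticMap.polar ⇑Q a b ≠ 0
    · obtain ⟨b, hb, hxb, a, ha, hxa, hab⟩ := hex1
      exact attempt hQ hn K hd h6 hK1 hUK
        (fun p hp _ _ => hirr_big hQ K hd (by omega) hK2 p hp)
        x hx hQx hxW1 b hb hxb a ha hxa hab
    by_cases hex2 : ∃ b ∈ U, QuadraticMap.polar ⇑Q x b = 0 ∧ ∃ a ∈ W2,
        QuadraticMap.polar ⇑Q x a = 0 ∧ QuadraticMap.polar ⇑Q a b ≠ 0
    · obtain ⟨b, hb, hxb, a, ha, hxa, hab⟩ := hex2
      exact attempt hQ hn K hd.symm h62 hK2 hUK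
        (fun p hp _ _ => hirr_big hQ K hd.symm (by omega) hK1 p hp)
        x hx hQx hxW2 b hb hxb a ha hxa hab
    exfalso
    push Not at hex1 hex2
    obtain ⟨x1, hx1, x2, hx2, ex⟩ := hd.sum x
    have ex' : x = x2 + x1 := by rw [ex, add_comm]
    have hle : U ⊓ perp Q (Submodule.span F {x}) ≤
        Submodule.span F {x1} ⊔ Submodule.span F {x2} := by
      intro b hb
      obtain ⟨b1, hb1, b2, hb2, eb⟩ := hd.sum b
      have eb' : b = b2 + b1 := by rw [eb, add_comm]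
      have h1 := hd.comp_in_span hQ x x1 x2 b b1 b2 hx1 hx2 ex hb1 hb2 eb
        (fun a ha hxa => hex1 b hb.1 (hperp x b hb) a ha hxa)
      have h2 := hd.symm.comp_in_span hQ x x2 x1 b b2 b1 hx2 hx1 ex' hb2 hb1 eb'
        (fun a ha hxa => hex2 b hb.1 (hperp x b hb) a ha hxa)
      rw [eb]
      exact Submodule.add_mem _ (Submodule.mem_sup_left h1) (Submodule.mem_sup_right h2)
    have h1 := Submodule.finrank_mono hle
    have h2 := Submodule.finrank_add_le_finrank_add_finrank (Submodule.span F {x1})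
      (Submodule.span F {x2})
    have h3 := finrank_span_one x1
    have h3' := finrank_span_one x2
    have h4 := finrank_inf_perp_ge hQ U x
    omega

/-- an isometry stabilising `W1` stabilises `W2` -/
theorem stab_other (hQ : (QuadraticMap.polarBilin Q).Nondegenerate) (hd : Dec Q W1 W2)
    (s : ↥(Cfsg.isometryGroup F ⇑Q)) (h : ∀ x ∈ W1, act Q s x ∈ W1) :
    ∀ y ∈ W2, act Q s y ∈ W2 := by
  intro y hy
  apply hd.perp2 hQ
  intro x hx
  have h1 := (mem_stab_iff Q s W1).1 (mem_stab_of_forall Q s W1 h) (act Q s⁻¹ x)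
  rw [act_act_inv] at h1
  have h2 := act_polar Q s (act Q s⁻¹ x) y
  rw [act_act_inv] at h2
  rw [h2]
  exact hd.orth _ (h1.2 hx) y hy

/-- maximality of the stabiliser of a non-degenerate subspace -/
theorem maxN (Q : QuadraticForm F (ι → F)) (hQ : (QuadraticMap.polarBilin Q).Nondegenerate)
    (hn : 7 ≤ Fintype.card ι) {W1 W2 : Submodule F (ι → F)} (hd : Dec Q W1 W2)
    (W : Submodule F (ι → F)) (hW : W = W1 ∨ W = W2) (hW2 : W2 ≠ ⊥) (h6 : 6 ≤ finrank F W1)
    (hcase : (finrank F W2 + 3 ≤ finrank F W1 ∧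
        (finrank F W2 = 2 → 4 ≤ Fintype.card F ∨ ∀ x ∈ W2, Q x = 0 → x = 0)) ∨
      (6 ≤ finrank F W2 ∧ ∀ s : ↥(Cfsg.isometryGroup F ⇑Q), ¬ ∀ x ∈ W1, act Q s x ∈ W2)) :
    Cfsg.Geo.IsMaximalIn (Cfsg.Geo.omegaGL ⇑Q)
      (Cfsg.Geo.subspaceStabilizer W ⊓ Cfsg.Geo.omegaGL ⇑Q) := by
  have hmemH : ∀ s ∈ commutator ↥(Cfsg.isometryGroup F ⇑Q), (∀ x ∈ W1, act Q s x ∈ W1) →
      (s : Matrix.GeneralLinearGroup ι F) ∈
        Cfsg.Geo.subspaceStabilizer W ⊓ Cfsg.Geo.omegaGL ⇑Q := by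
    intro s hs h1
    refine ⟨?_, mem_omegaGL Q s hs⟩
    rcases hW with rfl | rfl
    · exact mem_stab_of_forall Q s _ h1
    · exact mem_stab_of_forall Q s _ (stab_other hQ hd s h1)
  have hnotH : ∀ s : ↥(Cfsg.isometryGroup F ⇑Q),
      (s : Matrix.GeneralLinearGroup ι F) ∈ Cfsg.Geo.subspaceStabilizer W →
      ∀ x ∈ W1, act Q s x ∈ W1 := by
    intro s hs
    rcases hW with rfl | rfl
    · intro x hx
      exact ((mem_stab_iff Q s _).1 hs x).1 hx
    · apply stab_other hQ hd.symm s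
      intro x hx
      exact ((mem_stab_iff Q s _).1 hs x).1 hx
  refine ⟨lt_of_le_of_ne inf_le_right ?_, fun M hHM hMK => ?_⟩
  · intro heq
    obtain ⟨p, hp, hp0, hQp⟩ := exists_sing Q W1 (by omega)
    obtain ⟨f, hf, hQf, hpf⟩ := hd.partner hQ p hp hp0 hQp
    obtain ⟨y, hy, hy0⟩ := (Submodule.ne_bot_iff _).mp hW2
    have hpy : QuadraticMap.polar ⇑Q p y = 0 := hd.orth p hp y hy
    have hmem : ((eich Q p y : ↥(Cfsg.isometryGroup F ⇑Q)) : Matrix.GeneralLinearGroup ι F) ∈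
        Cfsg.Geo.subspaceStabilizer W ⊓ Cfsg.Geo.omegaGL ⇑Q := by
      rw [heq]
      exact mem_omegaGL Q _ (eich_mem_omega Q hQ (by omega) p y hQp hpy)
    have h1 := hnotH _ hmem.1 f hf
    rw [act_eich Q p y hQp hpy, hpf, hd.symm.orth y hy f hf] at h1
    have h2 : y ∈ W1 := by
      have h3 := W1.add_mem (W1.sub_mem h1 hf) (W1.smul_mem (0 + Q y * 1) hp)
      have e : f + (1 : F) • y - (0 + Q y * 1) • p - f + (0 + Q y * 1) • p = y := by
        rw [one_smul]
        abel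
      rw [e] at h3
      exact h3
    exact hy0 (hd.disj hQ y h2 hy)
  · by_cases hM : M = Cfsg.Geo.subspaceStabilizer W ⊓ Cfsg.Geo.omegaGL ⇑Q
    · exact Or.inl hM
    · right
      apply le_antisymm hMK
      obtain ⟨K, hK_def⟩ : ∃ K : Subgroup ↥(Cfsg.isometryGroup F ⇑Q),
          K = M.comap (Cfsg.isometryGroup F ⇑Q).subtype := ⟨_, rfl⟩
      have hKmem : ∀ s : ↥(Cfsg.isometryGroup F ⇑Q),
          (s : Matrix.GeneralLinearGroup ι F) ∈ M → s ∈ K := by
        intro s hs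
        rw [hK_def]
        exact hs
      have hKmem' : ∀ s : ↥(Cfsg.isometryGroup F ⇑Q),
          s ∈ K → (s : Matrix.GeneralLinearGroup ι F) ∈ M := by
        intro s hs
        rw [hK_def] at hs
        exact hs
      obtain ⟨g, hgM, hgH⟩ := SetLike.exists_of_lt (lt_of_le_of_ne hHM (Ne.symm hM))
      obtain ⟨s, hsΩ, rfl⟩ := exists_of_mem_omegaGL Q g (hMK hgM)
      have hsW1 : ¬ ∀ x ∈ W1, act Q s x ∈ W1 := fun hc => hgH (hmemH s hsΩ hc)
      have hΩK := mainN hQ hn K hd (fun t ht h1 _ => hKmem t (hHM (hmemH t ht h1))) h6 s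
        (hKmem s hgM) hsW1 (by
          rcases hcase with hc | ⟨hc1, hc2⟩
          · exact Or.inl hc
          · exact Or.inr ⟨hc1, hc2 s⟩)
      intro g' hg'
      obtain ⟨s', hs', rfl⟩ := exists_of_mem_omegaGL Q g' hg'
      exact hKmem' s' (hΩK hs')

/-- the orthogonal decomposition given by a subspace on which the polar form is non-degenerate -/
theorem dec_of_nondeg (hQ : (QuadraticMap.polarBilin Q).Nondegenerate)
    (W : Submodule F (ι → F))
    (hW : ∀ w ∈ W, w ≠ 0 → ∃ x ∈ W, QuadraticMap.polar ⇑Q x w ≠ 0) : Dec Q W (perp Q W) := by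
  refine ⟨fun x hx y hy => by rw [QuadraticMap.polar_comm]; exact hy x hx, ?_⟩
  have hinf : W ⊓ perp Q W = ⊥ := by
    rw [eq_bot_iff]
    intro w hw
    rw [Submodule.mem_bot]
    by_contra hne
    obtain ⟨x, hx, hxw⟩ := hW w hw.1 hne
    apply hxw
    rw [QuadraticMap.polar_comm]
    exact hw.2 x hx
  have h1 := Submodule.finrank_sup_add_finrank_inf_eq W (perp Q W)
  have h2 := finrank_perp Q hQ W
  have h3 := Submodule.finrank_le W
  rw [hinf, finrank_bot, Module.finrank_fintype_fun_eq_card] at *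
  have htop : W ⊔ perp Q W = ⊤ := by
    apply Submodule.eq_top_of_finrank_eq
    rw [Module.finrank_fintype_fun_eq_card]
    omega
  intro x
  have hx : x ∈ W ⊔ perp Q W := by
    rw [htop]
    exact Submodule.mem_top
  obtain ⟨a, ha, b, hb, e⟩ := Submodule.mem_sup.mp hx
  exact ⟨a, ha, b, hb, e.symm⟩

/-- the orthogonal complement of a non-degenerate subspace is non-degenerate -/
theorem nd_perp (hQ : (QuadraticMap.polarBilin Q).Nondegenerate) (hd : Dec Q W1 W2) :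
    Cfsg.Geo.IsNondegenerateOn (QuadraticMap.polar ⇑Q) W2 := by
  intro w hw hw0
  have h1 : ∃ x ∈ W2, QuadraticMap.polar ⇑Q w x ≠ 0 := by
    by_contra hcon
    push Not at hcon
    exact hw0 (hd.symm.nd hQ w hw hcon)
  obtain ⟨x, hx, hwx⟩ := h1
  exact ⟨⟨x, hx, by rw [QuadraticMap.polar_comm]; exact hwx⟩, ⟨x, hx, hwx⟩⟩

/-- a plane with a non-zero singular vector is of plus type -/
theorem plus_of_sing (Y : Submodule F (ι → F)) (h2 : finrank F Y = 2) (x : ι → F) (hx : x ∈ Y)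
    (hx0 : x ≠ 0) (hQx : Q x = 0) : Cfsg.Geo.IsPlusTypeOn ⇑Q Y := by
  refine ⟨Submodule.span F {x}, ?_, ?_, ?_⟩
  · rw [Submodule.span_le]
    rintro _ rfl
    exact hx
  · intro w hw
    obtain ⟨c, rfl⟩ := Submodule.mem_span_singleton.mp hw
    rw [QuadraticMap.map_smul, hQx, smul_zero]
  · rw [finrank_span_singleton hx0, h2]

/-- maximality of the stabiliser of a non-degenerate subspace whose dimension is not half the
dimension of the space -/
theorem max_of_nondeg (Q : QuadraticForm F (ι → F))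
    (hQ : (QuadraticMap.polarBilin Q).Nondegenerate) (hn : 13 ≤ Fintype.card ι)
    (W : Submodule F (ι → F)) (hW0 : W ≠ ⊥) (hW1 : W ≠ ⊤)
    (hW : Cfsg.Geo.IsNondegenerateOn (QuadraticMap.polar ⇑Q) W)
    (hdim : 2 * finrank F W ≠ Fintype.card ι)
    (hplane : ∀ Y : Submodule F (ι → F), finrank F Y = 2 → (Y = W ∨ Y = perp Q W) →
      4 ≤ Fintype.card F ∨ ∀ x ∈ Y, Q x = 0 → x = 0) :
    Cfsg.Geo.IsMaximalIn (Cfsg.Geo.omegaGL ⇑Q)
      (Cfsg.Geo.subspaceStabilizer W ⊓ Cfsg.Geo.omegaGL ⇑Q) := by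
  have hd := dec_of_nondeg hQ W (fun w hw hw0 => (hW w hw hw0).1)
  have hadd := hd.finrank_add hQ
  have hWpos : 0 < finrank F W := by
    by_contra hcon
    exact hW0 (Submodule.finrank_eq_zero.mp (by omega))
  have hWlt : finrank F W < Fintype.card ι := by
    by_contra hcon
    apply hW1
    apply Submodule.eq_top_of_finrank_eq
    rw [Module.finrank_fintype_fun_eq_card]
    have h3 := Submodule.finrank_le W
    rw [Module.finrank_fintype_fun_eq_card] at h3
    omega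
  have hP0 : perp Q W ≠ ⊥ := by
    intro h0
    rw [h0, finrank_bot] at hadd
    omega
  have hno : ∀ (X Y : Submodule F (ι → F)), finrank F Y < finrank F X →
      ∀ s : ↥(Cfsg.isometryGroup F ⇑Q), ¬ ∀ x ∈ X, act Q s x ∈ Y := by
    intro X Y hlt s hs
    have hle : X.map (act Q s) ≤ Y := by
      rintro _ ⟨x, hx, rfl⟩
      exact hs x hx
    have h1 := Submodule.finrank_mono hle
    rw [finrank_map_act Q s X] at h1
    omega
  by_cases hbig : finrank F ↥(perp Q W) < finrank F W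
  · apply maxN Q hQ (by omega) hd W (Or.inl rfl) hP0 (by omega)
    by_cases h3 : finrank F ↥(perp Q W) + 3 ≤ finrank F W
    · exact Or.inl ⟨h3, fun h2 => hplane _ h2 (Or.inr rfl)⟩
    · exact Or.inr ⟨by omega, hno W (perp Q W) hbig⟩
  · have hbig' : finrank F W < finrank F ↥(perp Q W) := by omega
    apply maxN Q hQ (by omega) hd.symm W (Or.inr rfl) hW0 (by omega)
    by_cases h3 : finrank F W + 3 ≤ finrank F ↥(perp Q W)
    · exact Or.inl ⟨h3, fun h2 => hplane _ h2 (Or.inl rfl)⟩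
    · exact Or.inr ⟨by omega, hno (perp Q W) W hbig'⟩

/-- the plane condition from the exclusion in the statements for even dimension -/
theorem plane_cond (hQ : (QuadraticMap.polarBilin Q).Nondegenerate) (W : Submodule F (ι → F))
    (hW : Cfsg.Geo.IsNondegenerateOn (QuadraticMap.polar ⇑Q) W) (n : ℕ)
    (hcn : Fintype.card ι = n)
    (hex : ¬ (Fintype.card F ≤ 3 ∧ (∃ U : Submodule F (ι → F), finrank F U = 2 ∧
      Cfsg.Geo.IsNondegenerateOn (QuadraticMap.polar ⇑Q) U ∧ Cfsg.Geo.IsPlusTypeOn ⇑Q U ∧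
      (U = W ∨ (Cfsg.Geo.AreOrthogonalFor (QuadraticMap.polar ⇑Q) U W ∧
        finrank F U + finrank F W = n))))) :
    ∀ Y : Submodule F (ι → F), finrank F Y = 2 → (Y = W ∨ Y = perp Q W) →
      4 ≤ Fintype.card F ∨ ∀ x ∈ Y, Q x = 0 → x = 0 := by
  intro Y h2 hY
  have hd := dec_of_nondeg hQ W (fun w hw hw0 => (hW w hw hw0).1)
  by_cases h4 : 4 ≤ Fintype.card F
  · exact Or.inl h4
  · right
    intro x hx hQx
    by_contra hx0
    apply hex
    refine ⟨by omega, Y, h2, ?_, plus_of_sing Y h2 x hx hx0 hQx, ?_⟩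
    · rcases hY with rfl | rfl
      · exact hW
      · exact nd_perp hQ hd
    · rcases hY with rfl | rfl
      · exact Or.inl rfl
      · right
        refine ⟨fun u hu v hv => hu v hv, ?_⟩
        have hadd := hd.finrank_add hQ
        omega

end Cfsg.Agent.Lib.Helper28.OrthND
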