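import Mathlib
import Cfsg.Prelude.Def_Sporadic_a
import Cfsg.Agent.Lib.Helper3.Steiner

set_option autoImplicit false

namespace Cfsg.Agent.Lib.Helper28.Plane4

open Cfsg Cfsg.Agent.Lib.Helper3.Steiner

/-! ### generalities on Steiner systems `S(2, 5, 21)` -/

section general

variable {α : Type*} [Fintype α] [DecidableEq α] {L : Set (Finset α)}

theorem exists_line (hL : IsSteinerSystem 2 5 L) {p q : α} (h : p ≠ q) :
    ∃ b ∈ L, p ∈ b ∧ q ∈ b := by
  obtain ⟨b, ⟨hb, hs⟩, -⟩ := hL.2 {p, q} (Finset.card_pair h)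
  exact ⟨b, hb, hs (by simp), hs (by simp)⟩

theorem line_unique (hL : IsSteinerSystem 2 5 L) {b c : Finset α} (hb : b ∈ L) (hc : c ∈ L)
    {p q : α} (h : p ≠ q) (pb : p ∈ b) (qb : q ∈ b) (pc : p ∈ c) (qc : q ∈ c) : b = c := by
  obtain ⟨b0, -, hu⟩ := hL.2 {p, q} (Finset.card_pair h)
  have s1 : ({p, q} : Finset α) ⊆ b := by
    intro x hx
    rw [Finset.mem_insert, Finset.mem_singleton] at hx
    rcases hx with rfl | rfl
    · exact pb
    · exact qb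
  have s2 : ({p, q} : Finset α) ⊆ c := by
    intro x hx
    rw [Finset.mem_insert, Finset.mem_singleton] at hx
    rcases hx with rfl | rfl
    · exact pc
    · exact qc
  exact (hu b ⟨hb, s1⟩).trans (hu c ⟨hc, s2⟩).symm

theorem card_lines_through (hL : IsSteinerSystem 2 5 L) (hα : Fintype.card α = 21) (p : α) :
    ((blocks L).filter (fun c => p ∈ c)).card = 5 := by
  have h := card_through hL {p} (by simp)
  simp only [Finset.card_singleton, Finset.singleton_subset_iff] at h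
  rw [hα] at h
  norm_num at h
  omega

theorem meet (hL : IsSteinerSystem 2 5 L) (hα : Fintype.card α = 21) {b c : Finset α}
    (hb : b ∈ L) (hc : c ∈ L) : ∃ p, p ∈ b ∧ p ∈ c := by
  by_contra hne
  push_neg at hne
  have hcne : c.Nonempty := by
    rw [← Finset.card_pos, hL.1 c hc]
    norm_num
  obtain ⟨p, hp⟩ := hcne
  have hpb : p ∉ b := fun h => hne p h hp
  have hex : ∀ x ∈ b, ∃ m, m ∈ L ∧ p ∈ m ∧ x ∈ m := fun x hx => by
    obtain ⟨m, hm, h1, h2⟩ := exists_line hL (fun e : p = x => hpb (e ▸ hx))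
    exact ⟨m, hm, h1, h2⟩
  choose! f hf using hex
  have hinj : Set.InjOn f b := by
    intro x hx y hy e
    by_contra hxy
    have h1 := hf x hx
    have h2 := hf y hy
    have e1 : f x = b := line_unique hL h1.1 hb hxy h1.2.2 (e ▸ h2.2.2) hx hy
    exact hpb (e1 ▸ h1.2.1)
  have himg : b.image f ⊆ (blocks L).filter (fun m => p ∈ m) := by
    intro m hm
    obtain ⟨x, hx, rfl⟩ := Finset.mem_image.mp hm
    exact Finset.mem_filter.mpr ⟨mem_blocks.mpr (hf x hx).1, (hf x hx).2.1⟩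
  have hcard : (b.image f).card = 5 := by
    rw [Finset.card_image_of_injOn hinj, hL.1 b hb]
  have heq : b.image f = (blocks L).filter (fun m => p ∈ m) :=
    Finset.eq_of_subset_of_card_le himg (by rw [card_lines_through hL hα p, hcard])
  have hcm : c ∈ b.image f := by
    rw [heq]
    exact Finset.mem_filter.mpr ⟨mem_blocks.mpr hc, hp⟩
  obtain ⟨x, hx, e⟩ := Finset.mem_image.mp hcm
  exact hne x hx (e ▸ (hf x hx).2.2)

theorem steiner_image {β : Type*} [DecidableEq β] {t k : ℕ} (e : α ≃ β)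
    (hL : IsSteinerSystem t k L) : IsSteinerSystem t k ((fun b => b.image e) '' L) := by
  refine ⟨?_, ?_⟩
  · rintro c ⟨b, hb, rfl⟩
    rw [Finset.card_image_of_injective _ e.injective]
    exact hL.1 b hb
  · intro s hs
    have hs' : (s.image e.symm).card = t := by
      rw [Finset.card_image_of_injective _ e.symm.injective, hs]
    obtain ⟨b, ⟨hb, hsb⟩, hu⟩ := hL.2 _ hs'
    refine ⟨b.image e, ⟨⟨b, hb, rfl⟩, ?_⟩, ?_⟩
    · intro x hx
      rw [Finset.mem_image]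
      exact ⟨e.symm x, hsb (Finset.mem_image_of_mem _ hx), e.apply_symm_apply x⟩
    · rintro c ⟨⟨b', hb', rfl⟩, hsc⟩
      have : b' = b := by
        apply hu
        refine ⟨hb', ?_⟩
        intro y hy
        obtain ⟨x, hx, rfl⟩ := Finset.mem_image.mp hy
        obtain ⟨z, hz, e2⟩ := Finset.mem_image.mp (hsc hx)
        rw [← e2, e.symm_apply_apply]
        exact hz
      rw [this]


theorem exists_swap5 (x y : Fin 5) (h : x ≠ y) :
    ∃ ρ : Equiv.Perm (Fin 5), ρ x = 0 ∧ ρ y = 1 := by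
  refine ⟨Equiv.swap 1 (Equiv.swap 0 x y) * Equiv.swap 0 x, ?_, ?_⟩
  · revert x y
    decide
  · revert x y
    decide

theorem col_exists (hα : Fintype.card α = 21) (hL : IsSteinerSystem 2 5 L) {ℓ : Finset α}
    (hℓ : ℓ ∈ L) {X : α} (hXℓ : X ∈ ℓ) (q : Fin 4 → α) (hqℓ : ∀ i, q i ∉ ℓ)
    (hqX : ∀ i j, i ≠ j → ∀ l ∈ L, q i ∈ l → q j ∈ l → X ∉ l) :
    ∀ m ∈ L, X ∈ m → m ≠ ℓ → ∃ i, q i ∈ m := by
  have hex : ∀ i, ∃ m, m ∈ L ∧ X ∈ m ∧ q i ∈ m := fun i =>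
    exists_line hL (fun h : X = q i => hqℓ i (h ▸ hXℓ))
  choose g hg using hex
  have ginj : Function.Injective g := by
    intro i j hij
    by_contra hne
    exact (hqX i j hne (g i) (hg i).1 (hg i).2.2 (hij ▸ (hg j).2.2)) (hg i).2.1
  have hsub : Finset.univ.image g ⊆ ((blocks L).filter (fun c => X ∈ c)).erase ℓ := by
    intro m hm
    obtain ⟨i, -, rfl⟩ := Finset.mem_image.mp hm
    refine Finset.mem_erase.mpr ⟨?_, Finset.mem_filter.mpr ⟨mem_blocks.mpr (hg i).1, (hg i).2.1⟩⟩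
    intro h
    exact hqℓ i (h ▸ (hg i).2.2)
  have hcard : (((blocks L).filter (fun c => X ∈ c)).erase ℓ).card = 4 := by
    rw [Finset.card_erase_of_mem (Finset.mem_filter.mpr ⟨mem_blocks.mpr hℓ, hXℓ⟩),
      card_lines_through hL hα X]
  have heq : Finset.univ.image g = ((blocks L).filter (fun c => X ∈ c)).erase ℓ :=
    Finset.eq_of_subset_of_card_le hsub (by
      rw [hcard, Finset.card_image_of_injective _ ginj]
      rfl)
  intro m hm hXm hne
  have : m ∈ Finset.univ.image g := by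
    rw [heq]
    exact Finset.mem_erase.mpr ⟨hne, Finset.mem_filter.mpr ⟨mem_blocks.mpr hm, hXm⟩⟩
  obtain ⟨i, -, rfl⟩ := Finset.mem_image.mp this
  exact ⟨i, (hg i).2.2⟩

end general

/-! ### the coordinate type -/

abbrev Pt := (Fin 4 × Fin 4) ⊕ Fin 5

def Linf : Finset Pt := Finset.univ.image Sum.inr

def V (i : Fin 4) : Finset Pt := insert (Sum.inr 0) (Finset.univ.image (fun j => Sum.inl (i, j)))

def H (j : Fin 4) : Finset Pt := insert (Sum.inr 1) (Finset.univ.image (fun i => Sum.inl (i, j)))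

def T (π : Fin 4 → Fin 4) (z : Fin 5) : Finset Pt :=
  insert (Sum.inr z) (Finset.univ.image (fun i => Sum.inl (i, π i)))

theorem mem_Linf {x : Pt} : x ∈ Linf ↔ ∃ z, x = Sum.inr z := by
  unfold Linf
  rw [Finset.mem_image]
  constructor
  · rintro ⟨z, -, rfl⟩
    exact ⟨z, rfl⟩
  · rintro ⟨z, rfl⟩
    exact ⟨z, Finset.mem_univ _, rfl⟩

theorem inr_mem_V {z : Fin 5} {i : Fin 4} : (Sum.inr z : Pt) ∈ V i ↔ z = 0 := by
  unfold V
  simp

theorem inl_mem_V {a b i : Fin 4} : (Sum.inl (a, b) : Pt) ∈ V i ↔ a = i := by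
  unfold V
  simp [eq_comm]

theorem inr_mem_H {z : Fin 5} {j : Fin 4} : (Sum.inr z : Pt) ∈ H j ↔ z = 1 := by
  unfold H
  simp

theorem inl_mem_H {a b j : Fin 4} : (Sum.inl (a, b) : Pt) ∈ H j ↔ b = j := by
  unfold H
  simp [eq_comm]

theorem inr_mem_T {π : Fin 4 → Fin 4} {z z' : Fin 5} : (Sum.inr z' : Pt) ∈ T π z ↔ z' = z := by
  unfold T
  simp

theorem inl_mem_T {π : Fin 4 → Fin 4} {z : Fin 5} {a b : Fin 4} :
    (Sum.inl (a, b) : Pt) ∈ T π z ↔ π a = b := by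
  unfold T
  simp

theorem card_Linf : Linf.card = 5 := by decide

theorem card_V (i : Fin 4) : (V i).card = 5 := by revert i; decide

theorem card_H (j : Fin 4) : (H j).card = 5 := by revert j; decide

theorem card_T (π : Fin 4 → Fin 4) (z : Fin 5) : (T π z).card = 5 := by
  unfold T
  rw [Finset.card_insert_of_notMem (by simp), Finset.card_image_of_injective]
  · rfl
  · intro a b h
    simp only [Sum.inl.injEq, Prod.mk.injEq] at h
    exact h.1

def Framed (L : Set (Finset Pt)) : Prop :=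
  IsSteinerSystem 2 5 L ∧ Linf ∈ L ∧ (∀ i, V i ∈ L) ∧ ∀ j, H j ∈ L

theorem card_Pt : Fintype.card Pt = 21 := by decide


/-! ### existence of a frame -/

section frame

variable {α : Type*} [Fintype α] [DecidableEq α] {L : Set (Finset α)}

theorem exists_frame (hα : Fintype.card α = 21) (hL : IsSteinerSystem 2 5 L) {X Y : α}
    (hXY : X ≠ Y) (q : Fin 4 → α)
    (hq : ∀ i j, i ≠ j → ∀ l ∈ L, q i ∈ l → q j ∈ l → X ∉ l ∧ Y ∉ l)
    (hq' : ∀ i, ∀ l ∈ L, X ∈ l → Y ∈ l → q i ∉ l) :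
    ∃ e : α ≃ Pt, Framed ((fun b => b.image e) '' L) ∧ e X = Sum.inr 0 ∧ e Y = Sum.inr 1 ∧
      ∀ i, e (q i) = Sum.inl (i, i) := by
  obtain ⟨ℓ, hℓ, hXℓ, hYℓ⟩ := exists_line hL hXY
  have hqℓ : ∀ i, q i ∉ ℓ := fun i => hq' i ℓ hℓ hXℓ hYℓ
  -- labels on ℓ
  obtain ⟨n, inj, hX0, hY1⟩ : ∃ n : α → Fin 5, Set.InjOn n ℓ ∧ n X = 0 ∧ n Y = 1 := by
    let e0 := ℓ.equivFinOfCardEq (hL.1 ℓ hℓ)
    let f0 : α → Fin 5 := fun p => if h : p ∈ ℓ then e0 ⟨p, h⟩ else 0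
    have inj0 : Set.InjOn f0 ℓ := by
      intro a ha b hb hab
      have ha' : a ∈ ℓ := ha
      have hb' : b ∈ ℓ := hb
      simp only [f0, dif_pos ha', dif_pos hb'] at hab
      exact congrArg Subtype.val (e0.injective hab)
    have hne : f0 X ≠ f0 Y := fun h => hXY (inj0 hXℓ hYℓ h)
    obtain ⟨ρ, h0, h1⟩ := exists_swap5 _ _ hne
    refine ⟨fun p => ρ (f0 p), ?_, h0, h1⟩
    intro a ha b hb hab
    exact inj0 ha hb (ρ.injective hab)
  -- lines through X and through Y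
  have hlX : ∀ p, p ∉ ℓ → ∃ m, m ∈ L ∧ X ∈ m ∧ p ∈ m := fun p hp =>
    exists_line hL (fun h : X = p => hp (h ▸ hXℓ))
  choose! lX hlX using hlX
  have hlY : ∀ p, p ∉ ℓ → ∃ m, m ∈ L ∧ Y ∈ m ∧ p ∈ m := fun p hp =>
    exists_line hL (fun h : Y = p => hp (h ▸ hYℓ))
  choose! lY hlY using hlY
  have hneX : ∀ p, p ∉ ℓ → lX p ≠ ℓ := fun p hp h => hp (h ▸ (hlX p hp).2.2)
  have hneY : ∀ p, p ∉ ℓ → lY p ≠ ℓ := fun p hp h => hp (h ▸ (hlY p hp).2.2)
  have hcX : ∀ p, p ∉ ℓ → ∃ i, q i ∈ lX p := fun p hp =>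
    col_exists hα hL hℓ hXℓ q hqℓ (fun i j hij l hl hi hj => (hq i j hij l hl hi hj).1)
      (lX p) (hlX p hp).1 (hlX p hp).2.1 (hneX p hp)
  choose! cX hcX using hcX
  have hcY : ∀ p, p ∉ ℓ → ∃ i, q i ∈ lY p := fun p hp =>
    col_exists hα hL hℓ hYℓ q hqℓ (fun i j hij l hl hi hj => (hq i j hij l hl hi hj).2)
      (lY p) (hlY p hp).1 (hlY p hp).2.1 (hneY p hp)
  choose! cY hcY using hcY
  have huX : ∀ m ∈ L, X ∈ m → ∀ i j, q i ∈ m → q j ∈ m → i = j := by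
    intro m hm hXm i j hi hj
    by_contra hne
    exact (hq i j hne m hm hi hj).1 hXm
  have huY : ∀ m ∈ L, Y ∈ m → ∀ i j, q i ∈ m → q j ∈ m → i = j := by
    intro m hm hYm i j hi hj
    by_contra hne
    exact (hq i j hne m hm hi hj).2 hYm
  have hXq : ∀ i, X ≠ q i := fun i h => hqℓ i (h ▸ hXℓ)
  have hYq : ∀ i, Y ≠ q i := fun i h => hqℓ i (h ▸ hYℓ)
  -- the line through X and p is determined by its column
  have hlXeq : ∀ p, p ∉ ℓ → ∀ m ∈ L, X ∈ m → q (cX p) ∈ m → lX p = m := fun p hp m hm hXm hqm =>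
    line_unique hL (hlX p hp).1 hm (hXq (cX p)) (hlX p hp).2.1 (hcX p hp) hXm hqm
  have hlYeq : ∀ p, p ∉ ℓ → ∀ m ∈ L, Y ∈ m → q (cY p) ∈ m → lY p = m := fun p hp m hm hYm hqm =>
    line_unique hL (hlY p hp).1 hm (hYq (cY p)) (hlY p hp).2.1 (hcY p hp) hYm hqm
  let f : α → Pt := fun p => if p ∈ ℓ then Sum.inr (n p) else Sum.inl (cX p, cY p)
  have finj : Function.Injective f := by
    intro a b hab
    by_cases ha : a ∈ ℓ <;> by_cases hb : b ∈ ℓ
    · simp only [f, if_pos ha, if_pos hb] at hab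
      exact inj ha hb (Sum.inr.inj hab)
    · simp only [f, if_pos ha, if_neg hb] at hab
      exact absurd hab (by simp)
    · simp only [f, if_neg ha, if_pos hb] at hab
      exact absurd hab (by simp)
    · simp only [f, if_neg ha, if_neg hb] at hab
      have h2 := Prod.mk.inj (Sum.inl.inj hab)
      have e1 : lX a = lX b := hlXeq a ha (lX b) (hlX b hb).1 (hlX b hb).2.1 (h2.1 ▸ hcX b hb)
      have e2 : lY a = lY b := hlYeq a ha (lY b) (hlY b hb).1 (hlY b hb).2.1 (h2.2 ▸ hcY b hb)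
      by_contra hne
      have e3 : lX a = lY a :=
        line_unique hL (hlX a ha).1 (hlY a ha).1 hne (hlX a ha).2.2 (e1 ▸ (hlX b hb).2.2)
          (hlY a ha).2.2 (e2 ▸ (hlY b hb).2.2)
      have e4 : lX a = ℓ :=
        line_unique hL (hlX a ha).1 hℓ hXY (hlX a ha).2.1 (e3 ▸ (hlY a ha).2.1) hXℓ hYℓ
      exact hneX a ha e4
  have fbij : Function.Bijective f :=
    (Fintype.bijective_iff_injective_and_card f).mpr ⟨finj, by rw [hα, card_Pt]⟩
  have hcXq : ∀ i, cX (q i) = i := fun i =>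
    huX (lX (q i)) (hlX (q i) (hqℓ i)).1 (hlX (q i) (hqℓ i)).2.1 _ _ (hcX (q i) (hqℓ i))
      (hlX (q i) (hqℓ i)).2.2
  have hcYq : ∀ i, cY (q i) = i := fun i =>
    huY (lY (q i)) (hlY (q i) (hqℓ i)).1 (hlY (q i) (hqℓ i)).2.1 _ _ (hcY (q i) (hqℓ i))
      (hlY (q i) (hqℓ i)).2.2
  refine ⟨Equiv.ofBijective f fbij, ⟨steiner_image _ hL, ⟨ℓ, hℓ, ?_⟩, fun i => ?_, fun j => ?_⟩,
    ?_, ?_, fun i => ?_⟩
  · apply Finset.eq_of_subset_of_card_le
    · intro x hx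
      obtain ⟨p, hp, rfl⟩ := Finset.mem_image.mp hx
      show f p ∈ Linf
      simp only [f, if_pos hp]
      exact mem_Linf.mpr ⟨_, rfl⟩
    · rw [card_Linf, Finset.card_image_of_injective _ (Equiv.injective _), hL.1 ℓ hℓ]
  · have hm := hlX (q i) (hqℓ i)
    refine ⟨lX (q i), hm.1, ?_⟩
    apply Finset.eq_of_subset_of_card_le
    · intro x hx
      obtain ⟨p, hp, rfl⟩ := Finset.mem_image.mp hx
      show f p ∈ V i
      by_cases hpl : p ∈ ℓ
      · have hpX : p = X := by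
          by_contra hne
          exact hneX (q i) (hqℓ i) (line_unique hL hm.1 hℓ hne hp hm.2.1 hpl hXℓ)
        subst hpX
        simp only [f, if_pos hpl, hX0]
        exact inr_mem_V.mpr rfl
      · simp only [f, if_neg hpl]
        rw [inl_mem_V]
        have e1 : lX p = lX (q i) :=
          line_unique hL (hlX p hpl).1 hm.1 (fun h : X = p => hpl (h ▸ hXℓ)) (hlX p hpl).2.1
            (hlX p hpl).2.2 hm.2.1 hp
        exact huX (lX (q i)) hm.1 hm.2.1 _ _ (e1 ▸ hcX p hpl) hm.2.2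
    · rw [card_V, Finset.card_image_of_injective _ (Equiv.injective _), hL.1 _ hm.1]
  · have hm := hlY (q j) (hqℓ j)
    refine ⟨lY (q j), hm.1, ?_⟩
    apply Finset.eq_of_subset_of_card_le
    · intro x hx
      obtain ⟨p, hp, rfl⟩ := Finset.mem_image.mp hx
      show f p ∈ H j
      by_cases hpl : p ∈ ℓ
      · have hpY : p = Y := by
          by_contra hne
          exact hneY (q j) (hqℓ j) (line_unique hL hm.1 hℓ hne hp hm.2.1 hpl hYℓ)
        subst hpY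
        simp only [f, if_pos hpl, hY1]
        exact inr_mem_H.mpr rfl
      · simp only [f, if_neg hpl]
        rw [inl_mem_H]
        have e1 : lY p = lY (q j) :=
          line_unique hL (hlY p hpl).1 hm.1 (fun h : Y = p => hpl (h ▸ hYℓ)) (hlY p hpl).2.1
            (hlY p hpl).2.2 hm.2.1 hp
        exact huY (lY (q j)) hm.1 hm.2.1 _ _ (e1 ▸ hcY p hpl) hm.2.2
    · rw [card_H, Finset.card_image_of_injective _ (Equiv.injective _), hL.1 _ hm.1]
  · show f X = Sum.inr 0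
    simp only [f, if_pos hXℓ, hX0]
  · show f Y = Sum.inr 1
    simp only [f, if_pos hYℓ, hY1]
  · show f (q i) = Sum.inl (i, i)
    simp only [f, if_neg (hqℓ i), hcXq, hcYq]

end frame


/-! ### lines of a framed plane -/

section framed

variable {L : Set (Finset Pt)}

theorem mem_V_cases {p : Pt} {i : Fin 4} (h : p ∈ V i) :
    p = Sum.inr 0 ∨ ∃ b, p = Sum.inl (i, b) := by
  rcases p with ⟨a, b⟩ | z
  · right
    exact ⟨b, by rw [inl_mem_V.mp h]⟩
  · left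
    rw [inr_mem_V.mp h]

theorem mem_H_cases {p : Pt} {j : Fin 4} (h : p ∈ H j) :
    p = Sum.inr 1 ∨ ∃ a, p = Sum.inl (a, j) := by
  rcases p with ⟨a, b⟩ | z
  · right
    exact ⟨a, by rw [inl_mem_H.mp h]⟩
  · left
    rw [inr_mem_H.mp h]

theorem mem_T_cases {p : Pt} {π : Fin 4 → Fin 4} {z : Fin 5} (h : p ∈ T π z) :
    p = Sum.inr z ∨ ∃ a, p = Sum.inl (a, π a) := by
  rcases p with ⟨a, b⟩ | z'
  · right
    exact ⟨a, by rw [inl_mem_T.mp h]⟩
  · left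
    rw [inr_mem_T.mp h]

theorem exists_ne_of_card {m : Finset Pt} (hm : m.card = 5) (p0 : Pt) : ∃ p ∈ m, p ≠ p0 := by
  by_contra hcon
  push_neg at hcon
  have h1 : m ⊆ {p0} := fun x hx => Finset.mem_singleton.mpr (hcon x hx)
  have h2 := Finset.card_le_card h1
  rw [hm, Finset.card_singleton] at h2
  omega

theorem line_cases (hF : Framed L) {m : Finset Pt} (hm : m ∈ L) :
    m = Linf ∨ (∃ i, m = V i) ∨ (∃ j, m = H j) ∨
      ∃ (σ : Equiv.Perm (Fin 4)) (z : Fin 5), m = T σ z := by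
  obtain ⟨hL, hinf, hV, hH⟩ := hF
  by_cases h0 : Sum.inr 0 ∈ m
  · obtain ⟨p, hp, hp0⟩ := exists_ne_of_card (hL.1 m hm) (Sum.inr 0)
    rcases p with ⟨a, b⟩ | z
    · right
      left
      exact ⟨a, line_unique hL hm (hV a) hp0.symm h0 hp (inr_mem_V.mpr rfl) (inl_mem_V.mpr rfl)⟩
    · left
      exact line_unique hL hm hinf hp0.symm h0 hp (mem_Linf.mpr ⟨_, rfl⟩) (mem_Linf.mpr ⟨_, rfl⟩)
  by_cases h1 : Sum.inr 1 ∈ m
  · obtain ⟨p, hp, hp1⟩ := exists_ne_of_card (hL.1 m hm) (Sum.inr 1)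
    rcases p with ⟨a, b⟩ | z
    · right
      right
      left
      exact ⟨b, line_unique hL hm (hH b) hp1.symm h1 hp (inr_mem_H.mpr rfl) (inl_mem_H.mpr rfl)⟩
    · left
      exact line_unique hL hm hinf hp1.symm h1 hp (mem_Linf.mpr ⟨_, rfl⟩) (mem_Linf.mpr ⟨_, rfl⟩)
  right
  right
  right
  have hpi : ∀ i, ∃ j, Sum.inl (i, j) ∈ m := fun i => by
    obtain ⟨p, hpm, hpV⟩ := meet hL card_Pt hm (hV i)
    rcases mem_V_cases hpV with rfl | ⟨b, rfl⟩
    · exact absurd hpm h0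
    · exact ⟨b, hpm⟩
  choose π hπ using hpi
  have hinj : Function.Injective π := by
    intro a b hab
    by_contra hne
    have hb : (Sum.inl (b, π a) : Pt) ∈ m := by
      rw [hab]
      exact hπ b
    have hne' : (Sum.inl (a, π a) : Pt) ≠ Sum.inl (b, π a) := by
      intro h
      exact hne (Prod.mk.inj (Sum.inl.inj h)).1
    have e1 : m = H (π a) :=
      line_unique hL hm (hH (π a)) hne' (hπ a) hb (inl_mem_H.mpr rfl) (inl_mem_H.mpr rfl)
    exact h1 (e1 ▸ inr_mem_H.mpr rfl)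
  obtain ⟨p, hpm, hpinf⟩ := meet hL card_Pt hm hinf
  obtain ⟨z, rfl⟩ := mem_Linf.mp hpinf
  refine ⟨Equiv.ofBijective π (Finite.injective_iff_bijective.mp hinj), z, ?_⟩
  symm
  apply Finset.eq_of_subset_of_card_le
  · intro x hx
    rcases mem_T_cases hx with rfl | ⟨a, rfl⟩
    · exact hpm
    · exact hπ a
  · rw [hL.1 m hm, card_T]

/-- the permutations occurring as lines -/
def InPi (L : Set (Finset Pt)) (σ : Equiv.Perm (Fin 4)) : Prop := ∃ z, T σ z ∈ L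

theorem two_others : ∀ a b : Fin 4, a ≠ b → ∃ c d, c ≠ d ∧ c ≠ a ∧ c ≠ b ∧ d ≠ a ∧ d ≠ b := by
  decide

theorem perm_fix_two : ∀ a b c d : Fin 4, a ≠ b → c ≠ d → c ≠ a → c ≠ b → d ≠ a → d ≠ b →
    ∀ τ : Equiv.Perm (Fin 4), τ c = c → τ d = d → τ = 1 ∨ τ = Equiv.swap a b := by
  decide

theorem inPi_or (hF : Framed L) (σ : Equiv.Perm (Fin 4)) {a b : Fin 4} (hab : a ≠ b) :
    InPi L σ ∨ InPi L (σ * Equiv.swap a b) := by
  obtain ⟨c, d, hcd, hca, hcb, hda, hdb⟩ := two_others a b hab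
  have hne : (Sum.inl (c, σ c) : Pt) ≠ Sum.inl (d, σ d) := by
    intro h
    exact hcd (Prod.mk.inj (Sum.inl.inj h)).1
  obtain ⟨m, hm, hP, hQ⟩ := exists_line hF.1 hne
  rcases line_cases hF hm with rfl | ⟨i, rfl⟩ | ⟨j, rfl⟩ | ⟨π, z, rfl⟩
  · obtain ⟨z, hz⟩ := mem_Linf.mp hP
    exact absurd hz (by simp)
  · exact absurd ((inl_mem_V.mp hP).trans (inl_mem_V.mp hQ).symm) hcd
  · exact absurd (σ.injective ((inl_mem_H.mp hP).trans (inl_mem_H.mp hQ).symm)) hcd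
  · have h1 : (σ⁻¹ * π) c = c := by
      rw [Equiv.Perm.mul_apply, inl_mem_T.mp hP]
      exact σ.symm_apply_apply c
    have h2 : (σ⁻¹ * π) d = d := by
      rw [Equiv.Perm.mul_apply, inl_mem_T.mp hQ]
      exact σ.symm_apply_apply d
    rcases perm_fix_two a b c d hab hcd hca hcb hda hdb _ h1 h2 with h | h
    · left
      have : π = σ := by
        rw [inv_mul_eq_one] at h
        exact h.symm
      exact ⟨z, this ▸ hm⟩
    · right
      have : π = σ * Equiv.swap a b := by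
        rw [← h, mul_inv_cancel_left]
      exact ⟨z, this ▸ hm⟩

theorem inPi_not_both (hF : Framed L) (σ : Equiv.Perm (Fin 4)) {a b : Fin 4} (hab : a ≠ b)
    (h1 : InPi L σ) (h2 : InPi L (σ * Equiv.swap a b)) : False := by
  obtain ⟨c, d, hcd, hca, hcb, hda, hdb⟩ := two_others a b hab
  obtain ⟨z, hz⟩ := h1
  obtain ⟨z', hz'⟩ := h2
  have hne : (Sum.inl (c, σ c) : Pt) ≠ Sum.inl (d, σ d) := by
    intro h
    exact hcd (Prod.mk.inj (Sum.inl.inj h)).1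
  have hc : (Sum.inl (c, σ c) : Pt) ∈ T (⇑(σ * Equiv.swap a b)) z' := by
    rw [inl_mem_T, Equiv.Perm.mul_apply, Equiv.swap_apply_of_ne_of_ne hca hcb]
  have hd : (Sum.inl (d, σ d) : Pt) ∈ T (⇑(σ * Equiv.swap a b)) z' := by
    rw [inl_mem_T, Equiv.Perm.mul_apply, Equiv.swap_apply_of_ne_of_ne hda hdb]
  have e1 : T σ z = T (⇑(σ * Equiv.swap a b)) z' :=
    line_unique hF.1 hz hz' hne (inl_mem_T.mpr rfl) (inl_mem_T.mpr rfl) hc hd
  have ha : (Sum.inl (a, σ a) : Pt) ∈ T (⇑(σ * Equiv.swap a b)) z' := by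
    rw [← e1]
    exact inl_mem_T.mpr rfl
  rw [inl_mem_T, Equiv.Perm.mul_apply, Equiv.swap_apply_left] at ha
  exact hab (σ.injective ha).symm

theorem inPi_iff (hF : Framed L) (σ : Equiv.Perm (Fin 4)) :
    InPi L σ ↔ (Equiv.Perm.sign σ = 1 ↔ InPi L 1) := by
  refine Equiv.Perm.swap_induction_on' σ ?_ ?_
  · simp
  · intro f x y hxy ih
    have h1 := inPi_or hF f hxy
    have h2 := inPi_not_both hF f hxy
    have hs : Equiv.Perm.sign (f * Equiv.swap x y) = - Equiv.Perm.sign f := by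
      rw [Equiv.Perm.sign_mul, Equiv.Perm.sign_swap hxy]
      simp
    rw [hs]
    have hm : (-1 : ℤˣ) ≠ 1 := by decide
    rcases Int.units_eq_one_or (Equiv.Perm.sign f) with h | h
    · rw [h] at ih ⊢
      simp only [hm, false_iff, true_iff] at ih ⊢
      tauto
    · rw [h] at ih ⊢
      simp only [hm, false_iff, neg_neg, true_iff] at ih ⊢
      tauto

theorem z_unique (hF : Framed L) {σ : Equiv.Perm (Fin 4)} {z z' : Fin 5} (h : T σ z ∈ L)
    (h' : T σ z' ∈ L) : z = z' := by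
  have hne : (Sum.inl (0, σ 0) : Pt) ≠ Sum.inl (1, σ 1) := by
    intro h
    exact absurd (Prod.mk.inj (Sum.inl.inj h)).1 (by decide)
  have e1 : T σ z = T σ z' :=
    line_unique hF.1 h h' hne (inl_mem_T.mpr rfl) (inl_mem_T.mpr rfl) (inl_mem_T.mpr rfl)
      (inl_mem_T.mpr rfl)
  have : (Sum.inr z : Pt) ∈ T σ z' := by
    rw [← e1]
    exact inr_mem_T.mpr rfl
  exact inr_mem_T.mp this

theorem two_le_of_ne : ∀ z : Fin 5, z ≠ 0 → z ≠ 1 → 2 ≤ z := by decide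

theorem two_le_z (hF : Framed L) {σ : Equiv.Perm (Fin 4)} {z : Fin 5} (h : T σ z ∈ L) :
    2 ≤ z := by
  have h0 : z ≠ 0 := by
    rintro rfl
    have hne : (Sum.inr 0 : Pt) ≠ Sum.inl (0, σ 0) := by simp
    have e1 : T σ 0 = V 0 :=
      line_unique hF.1 h (hF.2.2.1 0) hne (inr_mem_T.mpr rfl) (inl_mem_T.mpr rfl)
        (inr_mem_V.mpr rfl) (inl_mem_V.mpr rfl)
    have : (Sum.inl (1, σ 1) : Pt) ∈ V 0 := by
      rw [← e1]
      exact inl_mem_T.mpr rfl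
    exact absurd (inl_mem_V.mp this) (by decide)
  have h1 : z ≠ 1 := by
    rintro rfl
    have hne : (Sum.inr 1 : Pt) ≠ Sum.inl (0, σ 0) := by simp
    have e1 : T σ 1 = H (σ 0) :=
      line_unique hF.1 h (hF.2.2.2 (σ 0)) hne (inr_mem_T.mpr rfl) (inl_mem_T.mpr rfl)
        (inr_mem_H.mpr rfl) (inl_mem_H.mpr rfl)
    have : (Sum.inl (1, σ 1) : Pt) ∈ H (σ 0) := by
      rw [← e1]
      exact inl_mem_T.mpr rfl
    exact absurd (σ.injective (inl_mem_H.mp this)) (by decide)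
  exact two_le_of_ne z h0 h1

theorem z_eq_iff (hF : Framed L) {σ σ' : Equiv.Perm (Fin 4)} {z z' : Fin 5} (h : T σ z ∈ L)
    (h' : T σ' z' ∈ L) : z = z' ↔ (σ = σ' ∨ ∀ i, σ i ≠ σ' i) := by
  constructor
  · rintro rfl
    by_contra hcon
    push_neg at hcon
    obtain ⟨hne, i, hi⟩ := hcon
    have hne' : (Sum.inr z : Pt) ≠ Sum.inl (i, σ i) := by simp
    have e1 : T σ z = T σ' z :=
      line_unique hF.1 h h' hne' (inr_mem_T.mpr rfl) (inl_mem_T.mpr rfl) (inr_mem_T.mpr rfl)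
        (inl_mem_T.mpr hi.symm)
    apply hne
    ext a
    have : (Sum.inl (a, σ a) : Pt) ∈ T σ' z := by
      rw [← e1]
      exact inl_mem_T.mpr rfl
    rw [(inl_mem_T.mp this)]
  · rintro (rfl | hdis)
    · exact z_unique hF h h'
    · obtain ⟨p, hp, hp'⟩ := meet hF.1 card_Pt h h'
      rcases p with ⟨a, b⟩ | w
      · exact absurd ((inl_mem_T.mp hp).trans (inl_mem_T.mp hp').symm) (hdis a)
      · exact (inr_mem_T.mp hp).symm.trans (inr_mem_T.mp hp')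

end framed


/-! ### the standard plane -/

def tt : Equiv.Perm (Fin 4) := Equiv.swap 1 2 * Equiv.swap 2 3

def zstd (σ : Equiv.Perm (Fin 4)) : Fin 5 :=
  if σ = 1 ∨ ∀ i, σ i ≠ i then 2 else if σ = tt ∨ ∀ i, σ i ≠ tt i then 3 else 4

def PG : Set (Finset Pt) :=
  {l | l = Linf ∨ (∃ i, l = V i) ∨ (∃ j, l = H j) ∨
    ∃ σ : Equiv.Perm (Fin 4), Equiv.Perm.sign σ = 1 ∧ l = T (⇑σ) (zstd σ)}

theorem last_case : ∀ z : Fin 5, 2 ≤ z → z ≠ 2 → z ≠ 3 → z = 4 := by decide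

section normal

variable {L : Set (Finset Pt)}

theorem eq_PG (hF : Framed L) (h1 : T (⇑(1 : Equiv.Perm (Fin 4))) 2 ∈ L) (h2 : T (⇑tt) 3 ∈ L) :
    L = PG := by
  have hPi : ∀ σ, InPi L σ ↔ Equiv.Perm.sign σ = 1 := fun σ => by
    rw [inPi_iff hF σ]
    exact iff_true_right ⟨2, h1⟩
  have hz : ∀ (σ : Equiv.Perm (Fin 4)) (z : Fin 5), T (⇑σ) z ∈ L → z = zstd σ := by
    intro σ z h
    have e1 := z_eq_iff hF h h1
    have e2 := z_eq_iff hF h h2
    have h3 := two_le_z hF h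
    unfold zstd
    by_cases c1 : σ = 1 ∨ ∀ i, σ i ≠ i
    · rw [if_pos c1]
      exact e1.mpr c1
    · rw [if_neg c1]
      by_cases c2 : σ = tt ∨ ∀ i, σ i ≠ tt i
      · rw [if_pos c2]
        exact e2.mpr c2
      · rw [if_neg c2]
        have n1 : z ≠ 2 := fun h => c1 (e1.mp h)
        have n2 : z ≠ 3 := fun h => c2 (e2.mp h)
        exact last_case z h3 n1 n2
  ext l
  constructor
  · intro hl
    rcases line_cases hF hl with rfl | ⟨i, rfl⟩ | ⟨j, rfl⟩ | ⟨σ, z, rfl⟩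
    · exact Or.inl rfl
    · exact Or.inr (Or.inl ⟨i, rfl⟩)
    · exact Or.inr (Or.inr (Or.inl ⟨j, rfl⟩))
    · refine Or.inr (Or.inr (Or.inr ⟨σ, (hPi σ).mp ⟨z, hl⟩, ?_⟩))
      rw [hz σ z hl]
  · rintro (rfl | ⟨i, rfl⟩ | ⟨j, rfl⟩ | ⟨σ, hs, rfl⟩)
    · exact hF.2.1
    · exact hF.2.2.1 i
    · exact hF.2.2.2 j
    · obtain ⟨z, hz'⟩ := (hPi σ).mpr hs
      rw [← hz σ z hz']
      exact hz'

/-- coordinate changes -/
def G (c : Equiv.Perm (Fin 4)) (ρ : Equiv.Perm (Fin 5)) : Equiv.Perm Pt :=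
  Equiv.sumCongr (Equiv.prodCongr c (Equiv.refl (Fin 4))) ρ

theorem G_inl (c : Equiv.Perm (Fin 4)) (ρ : Equiv.Perm (Fin 5)) (a b : Fin 4) :
    G c ρ (Sum.inl (a, b)) = Sum.inl (c a, b) := rfl

theorem G_inr (c : Equiv.Perm (Fin 4)) (ρ : Equiv.Perm (Fin 5)) (z : Fin 5) :
    G c ρ (Sum.inr z) = Sum.inr (ρ z) := rfl

theorem image_Linf (c : Equiv.Perm (Fin 4)) (ρ : Equiv.Perm (Fin 5)) :
    Linf.image (G c ρ) = Linf := by
  apply Finset.eq_of_subset_of_card_le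
  · intro x hx
    obtain ⟨p, hp, rfl⟩ := Finset.mem_image.mp hx
    obtain ⟨z, rfl⟩ := mem_Linf.mp hp
    exact mem_Linf.mpr ⟨ρ z, rfl⟩
  · rw [Finset.card_image_of_injective _ (Equiv.injective _)]

theorem image_V (c : Equiv.Perm (Fin 4)) (ρ : Equiv.Perm (Fin 5)) (h0 : ρ 0 = 0) (i : Fin 4) :
    (V i).image (G c ρ) = V (c i) := by
  apply Finset.eq_of_subset_of_card_le
  · intro x hx
    obtain ⟨p, hp, rfl⟩ := Finset.mem_image.mp hx
    rcases mem_V_cases hp with rfl | ⟨b, rfl⟩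
    · rw [G_inr, h0]
      exact inr_mem_V.mpr rfl
    · rw [G_inl]
      exact inl_mem_V.mpr rfl
  · rw [Finset.card_image_of_injective _ (Equiv.injective _), card_V, card_V]

theorem image_H (c : Equiv.Perm (Fin 4)) (ρ : Equiv.Perm (Fin 5)) (h1 : ρ 1 = 1) (j : Fin 4) :
    (H j).image (G c ρ) = H j := by
  apply Finset.eq_of_subset_of_card_le
  · intro x hx
    obtain ⟨p, hp, rfl⟩ := Finset.mem_image.mp hx
    rcases mem_H_cases hp with rfl | ⟨a, rfl⟩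
    · rw [G_inr, h1]
      exact inr_mem_H.mpr rfl
    · rw [G_inl]
      exact inl_mem_H.mpr rfl
  · rw [Finset.card_image_of_injective _ (Equiv.injective _)]

theorem image_T (c : Equiv.Perm (Fin 4)) (ρ : Equiv.Perm (Fin 5)) (σ : Equiv.Perm (Fin 4))
    (z : Fin 5) : (T (⇑σ) z).image (G c ρ) = T (⇑(σ * c⁻¹)) (ρ z) := by
  apply Finset.eq_of_subset_of_card_le
  · intro x hx
    obtain ⟨p, hp, rfl⟩ := Finset.mem_image.mp hx
    rcases mem_T_cases hp with rfl | ⟨a, rfl⟩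
    · rw [G_inr]
      exact inr_mem_T.mpr rfl
    · rw [G_inl, inl_mem_T]
      show σ (c.symm (c a)) = σ a
      rw [Equiv.symm_apply_apply]
  · rw [Finset.card_image_of_injective _ (Equiv.injective _), card_T, card_T]

theorem exists_rho (z₁ z₂ : Fin 5) (h1 : 2 ≤ z₁) (h2 : 2 ≤ z₂) (h3 : z₁ ≠ z₂) :
    ∃ ρ : Equiv.Perm (Fin 5), ρ 0 = 0 ∧ ρ 1 = 1 ∧ ρ z₁ = 2 ∧ ρ z₂ = 3 := by
  refine ⟨Equiv.swap 3 (Equiv.swap 2 z₁ z₂) * Equiv.swap 2 z₁, ?_, ?_, ?_, ?_⟩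
  · revert z₁ z₂
    decide
  · revert z₁ z₂
    decide
  · revert z₁ z₂
    decide
  · revert z₁ z₂
    decide

theorem sign_tt : Equiv.Perm.sign tt = 1 := by
  rw [tt, Equiv.Perm.sign_mul, Equiv.Perm.sign_swap (by decide), Equiv.Perm.sign_swap (by decide)]
  rfl

theorem normalize (hF : Framed L) :
    ∃ (c : Equiv.Perm (Fin 4)) (ρ : Equiv.Perm (Fin 5)),
      ((c = 1 ∧ InPi L 1) ∨ (c = Equiv.swap 0 1 ∧ ¬ InPi L 1)) ∧ ρ 0 = 0 ∧ ρ 1 = 1 ∧
        (fun b => b.image (G c ρ)) '' L = PG := by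
  obtain ⟨c, hc, hcPi⟩ : ∃ c : Equiv.Perm (Fin 4),
      ((c = 1 ∧ InPi L 1) ∨ (c = Equiv.swap 0 1 ∧ ¬ InPi L 1)) ∧ InPi L c := by
    by_cases h : InPi L 1
    · exact ⟨1, Or.inl ⟨rfl, h⟩, h⟩
    · refine ⟨Equiv.swap 0 1, Or.inr ⟨rfl, h⟩, ?_⟩
      have := inPi_or hF 1 (a := 0) (b := 1) (by decide)
      rw [one_mul] at this
      exact this.resolve_left h
  obtain ⟨z₁, hz₁⟩ := hcPi
  have htc : InPi L (tt * c) := by
    rw [inPi_iff hF, Equiv.Perm.sign_mul, sign_tt, one_mul]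
    exact (inPi_iff hF c).mp ⟨z₁, hz₁⟩
  obtain ⟨z₂, hz₂⟩ := htc
  have hne : z₁ ≠ z₂ := by
    intro h
    rcases (z_eq_iff hF hz₁ hz₂).mp h with h' | h'
    · have h'' : tt = 1 := by
        have := congrArg (· * c⁻¹) h'
        simpa using this.symm
      exact absurd h'' (by decide)
    · apply h' (c.symm 0)
      show c (c.symm 0) = tt (c (c.symm 0))
      rw [Equiv.apply_symm_apply]
      decide
  obtain ⟨ρ, r0, r1, r2, r3⟩ := exists_rho z₁ z₂ (two_le_z hF hz₁) (two_le_z hF hz₂) hne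
  refine ⟨c, ρ, hc, r0, r1, ?_⟩
  apply eq_PG
  · refine ⟨steiner_image _ hF.1, ⟨Linf, hF.2.1, image_Linf c ρ⟩, fun i => ?_, fun j => ?_⟩
    · refine ⟨V (c.symm i), hF.2.2.1 _, ?_⟩
      show (V (c.symm i)).image (G c ρ) = V i
      rw [image_V c ρ r0, Equiv.apply_symm_apply]
    · exact ⟨H j, hF.2.2.2 j, image_H c ρ r1 j⟩
  · refine ⟨T (⇑c) z₁, hz₁, ?_⟩
    show (T (⇑c) z₁).image (G c ρ) = _
    rw [image_T, r2, mul_inv_cancel]
  · refine ⟨T (⇑(tt * c)) z₂, hz₂, ?_⟩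
    show (T (⇑(tt * c)) z₂).image (G c ρ) = _
    rw [image_T, r3, mul_inv_cancel_right]

end normal

/-! ### every plane of order four is the standard one -/

section iso

variable {α : Type*} [Fintype α] [DecidableEq α] {L : Set (Finset α)}

theorem iso_PG_frame (hα : Fintype.card α = 21) (hL : IsSteinerSystem 2 5 L) {X Y : α}
    (hXY : X ≠ Y) (q : Fin 4 → α)
    (hq : ∀ i j, i ≠ j → ∀ l ∈ L, q i ∈ l → q j ∈ l → X ∉ l ∧ Y ∉ l)
    (hq' : ∀ i, ∀ l ∈ L, X ∈ l → Y ∈ l → q i ∉ l) :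
    ∃ e : α ≃ Pt, (fun b => b.image e) '' L = PG ∧ e X = Sum.inr 0 ∧ e Y = Sum.inr 1 ∧
      ((∃ l ∈ L, ∀ i, q i ∈ l) ∨ ∀ i, e (q i) = Sum.inl (Equiv.swap 0 1 i, i)) := by
  obtain ⟨e₀, hF, eX, eY, eq⟩ := exists_frame hα hL hXY q hq hq'
  obtain ⟨c, ρ, hc, r0, r1, hPG⟩ := normalize hF
  refine ⟨e₀.trans (G c ρ), ?_, ?_, ?_, ?_⟩
  · rw [← hPG, Set.image_image]
    apply Set.image_congr
    intro b _
    rw [Finset.image_image]
    rfl
  · show G c ρ (e₀ X) = _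
    rw [eX, G_inr, r0]
  · show G c ρ (e₀ Y) = _
    rw [eY, G_inr, r1]
  · rcases hc with ⟨rfl, h1⟩ | ⟨rfl, h1⟩
    · left
      obtain ⟨z, l, hl, hlz⟩ := h1
      refine ⟨l, hl, fun i => ?_⟩
      have hlz' : l.image e₀ = T (⇑(1 : Equiv.Perm (Fin 4))) z := hlz
      have hmem : e₀ (q i) ∈ l.image e₀ := by
        rw [hlz', eq i]
        exact inl_mem_T.mpr rfl
      obtain ⟨p, hp, hpe⟩ := Finset.mem_image.mp hmem
      rw [← e₀.injective hpe]
      exact hp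
    · right
      intro i
      show G _ ρ (e₀ (q i)) = _
      rw [eq i, G_inl]

theorem iso_PG (hα : Fintype.card α = 21) (hL : IsSteinerSystem 2 5 L) :
    ∃ e : α ≃ Pt, (fun b => b.image e) '' L = PG := by
  obtain ⟨X, Y, hXY⟩ := Fintype.exists_pair_of_one_lt_card (by rw [hα]; norm_num : 1 < Fintype.card α)
  obtain ⟨ℓ, hℓ, hXℓ, hYℓ⟩ := exists_line hL hXY
  obtain ⟨Z, hZℓ, hZX, hZY⟩ : ∃ Z ∈ ℓ, Z ≠ X ∧ Z ≠ Y := by
    by_contra hcon
    push_neg at hcon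
    have h1 : ℓ ⊆ {X, Y} := fun z hz => by
      by_cases h : z = X
      · simp [h]
      · simp [hcon z hz h]
    have h2 := Finset.card_le_card h1
    rw [hL.1 ℓ hℓ] at h2
    have h3 : ({X, Y} : Finset α).card ≤ 2 := Finset.card_le_two
    omega
  obtain ⟨p, hp⟩ : ∃ p, p ∉ ℓ := by
    by_contra hcon
    push_neg at hcon
    have h1 : ℓ = Finset.univ := Finset.eq_univ_iff_forall.mpr hcon
    have h2 := congrArg Finset.card h1
    rw [hL.1 ℓ hℓ, Finset.card_univ, hα] at h2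
    omega
  obtain ⟨m, hm, hZm, hpm⟩ := exists_line hL (fun h : Z = p => hp (h ▸ hZℓ))
  have hmℓ : m ≠ ℓ := fun h => hp (h ▸ hpm)
  have hXm : X ∉ m := fun h => hmℓ (line_unique hL hm hℓ hZX hZm h hZℓ hXℓ)
  have hYm : Y ∉ m := fun h => hmℓ (line_unique hL hm hℓ hZY hZm h hZℓ hYℓ)
  have hcard : (m.erase Z).card = 4 := by
    rw [Finset.card_erase_of_mem hZm, hL.1 m hm]
  let eq4 := (m.erase Z).equivFinOfCardEq hcard
  let q : Fin 4 → α := fun i => (eq4.symm i : α)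
  have hqm : ∀ i, q i ∈ m ∧ q i ≠ Z := fun i => by
    have := (eq4.symm i).2
    rw [Finset.mem_erase] at this
    exact ⟨this.2, this.1⟩
  have hqinj : Function.Injective q := fun i j h => eq4.symm.injective (Subtype.ext h)
  have hq : ∀ i j, i ≠ j → ∀ l ∈ L, q i ∈ l → q j ∈ l → X ∉ l ∧ Y ∉ l := by
    intro i j hij l hl hi hj
    have : l = m := line_unique hL hl hm (fun h => hij (hqinj h)) hi hj (hqm i).1 (hqm j).1
    rw [this]
    exact ⟨hXm, hYm⟩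
  have hq' : ∀ i, ∀ l ∈ L, X ∈ l → Y ∈ l → q i ∉ l := by
    intro i l hl hX hY hqi
    have : l = ℓ := line_unique hL hl hℓ hXY hX hY hXℓ hYℓ
    rw [this] at hqi
    exact hmℓ (line_unique hL hm hℓ (hqm i).2 (hqm i).1 hZm hqi hZℓ)
  obtain ⟨e, he, -⟩ := iso_PG_frame hα hL hXY q hq hq'
  exact ⟨e, he⟩

end iso

end Cfsg.Agent.Lib.Helper28.Plane4
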